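import Cfsg.Agent.Lib.KPerm.Main
import Cfsg.Agent.Lib.Psx.Sm

/-! Definitions for project KP3 (class numbers of permutation groups of order prime to 3, 5 or 7). -/

set_option autoImplicit false

namespace CfsgLib.KP3

open Equiv Finset CfsgLib.Psx
open CfsgLib.KPerm (kap rep cyc)
open scoped Classical

universe u

/-- the class number -/
noncomputable abbrev kk (X : Type*) [Group X] : ℕ := Nat.card (ConjClasses X)

/-- bound for the class number of a 2-group of degree `m` -/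
def b2 (m : ℕ) : ℕ := 5 ^ (m / 4) * 2 ^ (m % 4 / 2)

/-- upper bound for `⌊√3 ^ (m-1)⌋` (`m ≥ 3`) and `m!` (`m ≤ 2`) -/
def Fu (m : ℕ) : ℕ :=
  if m ≤ 2 then max m 1 else if m % 2 = 1 then 3 ^ (m / 2) else 3 ^ (m / 2) * 5774 / 10000

/-- lower bound for `√3 ^ (n-1)` -/
def Tl (n : ℕ) : ℕ := if n % 2 = 1 then 3 ^ (n / 2) else 3 ^ (n / 2) * 5773 / 10000

/-- upper bound for `(2/3) √3 ^ n` -/
def Ab (n : ℕ) : ℕ := if n % 2 = 1 then 3 ^ (n / 2) * 11548 / 10000 + 1 else 3 ^ (n / 2) * 2 / 3 + 1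

/-- the statement in degree `m` -/
def KB (p0 m : ℕ) : Prop := ∀ (β : Type u) [Fintype β] (H : Subgroup (Perm β)),
  Fintype.card β = m → ¬ p0 ∣ Nat.card H → 3 ≤ m → kk H ^ 2 ≤ 3 ^ (m - 1)

section perm
variable {α : Type u} [Fintype α]

/-- degree minus number of cycles -/
noncomputable def df (y : Perm α) : ℕ := Fintype.card α - cyc (univ : Finset α) y

/-- elements of order `r` move at least `w * r` points -/
def MinS (G : Subgroup (Perm α)) (r w : ℕ) : Prop :=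
  ∀ g ∈ G, g ≠ 1 → g ^ r = 1 → w * r ≤ g.support.card

def Deg4 (G : Subgroup (Perm α)) : Prop := ∀ g ∈ G, g ≠ 1 → 4 ≤ g.support.card

/-- a chain of subgroups of index at most `r` whose fixed point sets grow by at least `δ * r` -/
def Chain (r : ℕ) : List ℕ → Subgroup (Perm α) → Prop
  | [], E => E = ⊥
  | δ :: l, E => E = ⊥ ∨ ∃ E1 ≤ E, Nat.card E ≤ r * Nat.card E1 ∧
      (fx E).card + δ * r ≤ (fx E1).card ∧ Chain r l E1

def Ch2 (G : Subgroup (Perm α)) (r c1 c2 δ : ℕ) : Prop :=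
  ∀ E ≤ G, Sm r E → Chain r (List.replicate c1 1 ++ List.replicate c2 δ) E

def Rk (G : Subgroup (Perm α)) (r ρ : ℕ) : Prop := ∀ E ≤ G, Sm r E → Nat.card E ≤ r ^ ρ

def KAll (G : Subgroup (Perm α)) (r K : ℕ) : Prop := ∀ P ≤ G, IsPGroup r P → kk P ≤ K

/-- bound for the number of `r`-smooth classes of the centralisers of `r`-elements -/
def CB (G : Subgroup (Perm α)) (r : ℕ) (f : Perm α → ℝ) : Prop :=
  ∀ y : G, y ≠ 1 → (∃ k, y ^ r ^ k = 1) →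
    (kap (Subgroup.centralizer ({y} : Set G)) r : ℝ) ≤ f (y : Perm α)

def SB (G : Subgroup (Perm α)) (r : ℕ) (S : ℝ) : Prop := (kap G (r + 1) : ℝ) ≤ kap G r + S

def PE (G : Subgroup (Perm α)) (r : ℕ) (s X : ℝ) : Prop :=
  ∀ E ≤ G, Sm r E → ∑ e ∈ (KPerm.E E).erase 1, s ^ (e.support.card / r) ≤ X

end perm

def HS (r : ℕ) (τ h : ℝ) : Prop := ∀ (β : Type u) [Fintype β] (P : Subgroup (Perm β)),
  IsPGroup r P → ∑ L : ConjClasses P, τ ^ df ((rep L : P) : Perm β) ≤ h ^ (Fintype.card β / r)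

def HX (r : ℕ) (x h : ℝ) : Prop :=
  1 ≤ h ∧ ∃ τ : ℝ, 0 < τ ∧ τ ≤ 1 ∧ x ≤ τ ^ (r - 1) ∧ HS.{u} r τ h

def GF {K : Type*} [Ring K] (r : ℕ) (σ : K) (c1 c2 δ : ℕ) : K :=
  (1 + ((r : K) - 1) * σ) ^ c1 * (1 + ((r : K) - 1) * σ ^ δ) ^ c2

/-! ### numerical data -/

structure Dt where
  c1 : ℕ
  c2 : ℕ
  dl : ℕ
  w : ℕ

def Loc {α : Type u} [Fintype α] (G : Subgroup (Perm α)) (D : ℕ → Dt) : Prop :=
  ∀ r, r.Prime → Ch2 G r (D r).c1 (D r).c2 (D r).dl ∧ MinS G r (D r).w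

def qgo (n1 d r : ℕ) : ℕ → ℕ → ℕ
  | 0, q => q
  | f + 1, q => if q < r ∧ 2 * q < d ∧ q * r + q * (q - 1) < n1 then qgo n1 d r f (q + 1) else q

def qU (n1 d r : ℕ) : ℕ := qgo n1 d r r (max 1 (cdiv d r))

def dU (n t d r : ℕ) : Dt :=
  ⟨cdiv (t - 1 - n % r) r,
    (n - (n % r + cdiv (t - 1 - n % r) r * r)) / (qU (n + 1 - t) d r * r),
    qU (n + 1 - t) d r,
    max (min (qU (n + 1 - t) d r) (cdiv (n + 1 - t + 1) r)) (cdiv (muG n t r) r)⟩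

def phI (n2 k r : ℕ) : ℕ :=
  if r * k ≤ n2 then max (pm n2 k r) (min (n2 - r * k) ((n2 + k - (1 + r)) / 2)) else pm n2 k r

def dI (n t k r : ℕ) : Dt :=
  ⟨cdiv (pm (n + 2 - t) k r + 1 + (t - 2) - n % r) r,
    outs (n + 2 - t) k r (pm (n + 2 - t) k r + 1), k,
    max (cdiv (n + 2 - t - phI (n + 2 - t) k r) r) (cdiv (muG n t r) r)⟩

def LowD (n1 d : ℕ) : Prop := ∀ d', 3 ≤ d' → DB n1 d' → (15 ≤ n1 → 5 ≤ d') → d ≤ d'

def dgo (n : ℕ) : ℕ → ℕ → ℕ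
  | 0, d => d
  | f + 1, d => if 2 * (n - 1) ≤ 3 * d * (d - 1) ∨ n ≤ d * d + d + 1 then d else dgo n f (d + 1)

def DD (n : ℕ) : ℕ := dgo n 40 (if 15 ≤ n then 5 else 3)

/-- Plotkin: number of steps before at most `r ^ a` elements are left -/
def pc (L w r a : ℕ) : ℕ := L - (w * r - (w / r ^ a + 1)) / (r - 1)

def rk (n r : ℕ) (D : Dt) : ℕ :=
  (List.range 6).foldr (fun a m => min (pc (n / r) D.w r a + a) m) (D.c1 + D.c2)

def K2f (f w2 : ℕ) : ℕ := if f / 2 < w2 then 1 else 2 ^ (f / 2 - w2 + 1) * b2 (f / 2)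

def nab (r ρ v : ℕ) : ℕ := max (max (r ^ ρ) (r * r)) (r ^ v * (r * r + r - 1) / r ^ 3)

def K0 (n r ρ : ℕ) : ℕ :=
  if r = 2 then min (b2 n) (2 ^ ρ * b2 (n / 2)) else r ^ (ρ + n / r / r)

def KK (n p0 r : ℕ) (D : Dt) : ℕ :=
  if r = p0 ∨ n / r < D.w then 1 else
  if n < r ^ 3 ∧ n < r * r + D.w * r then
    min (K0 n r (rk n r D)) (nab r (rk n r D) (rk n r D + n / r / r))
  else K0 n r (rk n r D)

def fixW (n w w2 : ℕ) : ℕ :=
  (List.range (n / 3 + 1)).foldr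
    (fun x m => if w ≤ x then max (K2f (n - 3 * x) w2 * b2 x) m else m) 0

def W0 (n r w prod : ℕ) : ℕ :=
  if n < 2 * r ∧ n < r + 4 then 1 else
    min (if r = 3 then b2 (n - 2 * w) else Fu (n - (r - 1) * w)) prod

def WW (n r w w2 prod : ℕ) : ℕ :=
  if r = 3 ∧ n ≤ 20 then min (W0 n r w prod) (fixW n w w2) else W0 n r w prod

def WT3 (n : ℕ) (D : Dt) : ℚ :=
  (14954 / 10000) ^ n * (((10000 / 14954) ^ 2) ^ D.w * (3 ^ rk n 3 D - 1) +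
    ((10000 / 14954) ^ 2 / (725 / 1000 * (620 / 1000))) ^ max D.w 3 *
      GF 3 (620 / 1000) D.c1 D.c2 D.dl * ((1 + 2 * (725 / 1000) ^ 3) ^ (n / 3 / 3) - 1))

def WT5 (n : ℕ) (D : Dt) : ℚ :=
  Ab n * ((1 / 9 / (3 / 10)) ^ D.w * (GF 5 (3 / 10) D.c1 D.c2 D.dl - 1) +
    (1 / 9 / (270 / 1000 * (420 / 1000))) ^ max D.w 5 * GF 5 (420 / 1000) D.c1 D.c2 D.dl *
      (((1 + 4 * (270 / 1000) ^ 5) * (10001 / 10000)) ^ (n / 5 / 5) - 1))

/-- crude term of the prime `r` -/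
def SC (n p0 : ℕ) (D : ℕ → Dt) (r prod : ℕ) : ℕ :=
  (KK n p0 r (D r) - 1) * WW n r (D r).w (D 2).w prod

/-- the terms of 2, 7, 11, 13 -/
def rest (n p0 : ℕ) (D : ℕ → Dt) : ℕ :=
  KK n p0 2 (D 2) +
    SC n p0 D 7 (KK n p0 2 (D 2) * KK n p0 3 (D 3) * KK n p0 5 (D 5)) +
    SC n p0 D 11 (KK n p0 2 (D 2) * KK n p0 3 (D 3) * KK n p0 5 (D 5) * KK n p0 7 (D 7)) +
    SC n p0 D 13 (KK n p0 2 (D 2) * KK n p0 3 (D 3) * KK n p0 5 (D 5) * KK n p0 7 (D 7) *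
      KK n p0 11 (D 11))

def totC (n p0 : ℕ) (D : ℕ → Dt) : ℕ :=
  rest n p0 D + SC n p0 D 3 (KK n p0 2 (D 2)) + SC n p0 D 5 (KK n p0 2 (D 2) * KK n p0 3 (D 3))

def totF (n p0 : ℕ) (D : ℕ → Dt) : ℚ :=
  rest n p0 D + min (SC n p0 D 3 (KK n p0 2 (D 2)) : ℚ) (WT3 n (D 3)) +
    min (SC n p0 D 5 (KK n p0 2 (D 2) * KK n p0 3 (D 3)) : ℚ) (WT5 n (D 5))

/-- term of a prime `r ≥ 17` -/
def bigT (n r : ℕ) : ℕ :=
  if n < r + 3 then 3 * (r - 1) else if n / r < 2 then 0 else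
    Ab n * ((3 ^ ((r - 1) / 2) + (r - 1)) ^ (n / r) - (3 ^ ((r - 1) / 2)) ^ (n / r)) /
        (3 ^ ((r - 1) / 2)) ^ (n / r) + 1 +
      (if n / r < r then 0 else
        Ab n * r ^ (n / r / r) * r ^ r * 2 ^ (n / r) / (3 ^ ((r - 1) / 2)) ^ r + 1)

def bigN (n : ℕ) : ℕ :=
  (List.range ((n + 1 - 16) / 2)).foldr (fun i m => bigT n (17 + 2 * i) + m) 0

def Good (n p0 : ℕ) (D : ℕ → Dt) : Prop :=
  totC n p0 D + bigN n ≤ Tl n ∨ totF n p0 D + bigN n ≤ Tl n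

/-- class bounds used for large degree -/
def KL (n p0 : ℕ) (D : ℕ → Dt) (r : ℕ) : ℕ :=
  if r = p0 then 1 else if r = 2 then 2 ^ ((D r).c1 + (D r).c2) * b2 (n / 2)
  else r ^ ((D r).c1 + (D r).c2 + n / r / r)

end CfsgLib.KP3
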