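import Cfsg.Agent.Lib.KP3.Defs
import Cfsg.Agent.Auto.CfsgLib_KP3_qgo_eq_def
import Cfsg.Agent.Auto.CfsgLib_KP3_dgo_eq_def

/-! Arithmetic of the bounds. -/

set_option autoImplicit false

namespace CfsgLib.KP3

open Equiv Finset CfsgLib.Psx
open CfsgLib.KPerm (kap rep cyc)
open scoped Classical

universe u

variable {α : Type u} [Fintype α]

theorem b2_mono {a b : ℕ} (h : a ≤ b) : b2 a ≤ b2 b := by
  refine monotone_nat_of_le_succ (f := b2) (fun m => ?_) h
  unfold b2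
  by_cases e : m % 4 = 3
  · rw [show (m + 1) / 4 = m / 4 + 1 by omega, show (m + 1) % 4 / 2 = 0 by omega, e, pow_succ]
    omega
  · rw [show (m + 1) / 4 = m / 4 by omega]
    exact Nat.mul_le_mul_left _ (Nat.pow_le_pow_right (by norm_num) (by omega))

theorem Fu_mono {a b : ℕ} (h : a ≤ b) : Fu a ≤ Fu b := by
  refine monotone_nat_of_le_succ (f := Fu) (fun m => ?_) h
  by_cases h3 : m ≤ 2
  · interval_cases m <;> decide
  unfold Fu
  rw [if_neg h3, if_neg (show ¬ m + 1 ≤ 2 by omega)]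
  split_ifs with h1 h2 h2
  · omega
  · rw [show (m + 1) / 2 = m / 2 + 1 by omega, pow_succ]
    omega
  · rw [show (m + 1) / 2 = m / 2 by omega]
    omega
  · omega

theorem b2_le_pow (m : ℕ) : (b2 m : ℝ) ≤ (14954 / 10000) ^ m := by
  unfold b2
  conv_rhs => rw [← Nat.div_add_mod m 4, pow_add, pow_mul]
  push_cast
  refine mul_le_mul (pow_le_pow_left₀ (by norm_num) (by norm_num) _) ?_ (by positivity) (by positivity)
  have : m % 4 < 4 := Nat.mod_lt _ (by norm_num)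
  generalize m % 4 = b at *
  interval_cases b <;> norm_num

theorem le_Fu_of_sq {k m : ℕ} (hm : 3 ≤ m) (h : k ^ 2 ≤ 3 ^ (m - 1)) : k ≤ Fu m := by
  unfold Fu
  rw [if_neg (show ¬ m ≤ 2 by omega)]
  split_ifs with h1
  · rw [show m - 1 = m / 2 * 2 by omega, pow_mul] at h
    exact (Nat.pow_le_pow_iff_left (by norm_num)).1 h
  · have e : (3 ^ (m / 2)) ^ 2 = 3 ^ (m - 1) * 3 := by
      rw [← pow_mul, ← pow_succ, show m - 1 + 1 = m / 2 * 2 by omega]
    refine (Nat.le_div_iff_mul_le (by norm_num)).2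
      ((Nat.pow_le_pow_iff_left (show 2 ≠ 0 by norm_num)).1 ?_)
    rw [mul_pow, mul_pow, e]
    omega

theorem sq_le_of_le_Tl {k n : ℕ} (hn : 1 ≤ n) (h : k ≤ Tl n) : k ^ 2 ≤ 3 ^ (n - 1) := by
  unfold Tl at h
  split_ifs at h with h1
  · rw [show n - 1 = n / 2 * 2 by omega, pow_mul]
    exact Nat.pow_le_pow_left h 2
  · have e : (3 ^ (n / 2)) ^ 2 = 3 ^ (n - 1) * 3 := by
      rw [← pow_mul, ← pow_succ, show n - 1 + 1 = n / 2 * 2 by omega]
    have := Nat.pow_le_pow_left ((Nat.le_div_iff_mul_le (by norm_num)).1 h) 2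
    rw [mul_pow, mul_pow, e] at this
    omega

theorem ar_pow (n : ℕ) : √3 ^ n = 3 ^ (n / 2) * √3 ^ (n % 2) := by
  conv_lhs => rw [← Nat.div_add_mod n 2, pow_add, pow_mul, Real.sq_sqrt (by norm_num)]

theorem ar_lo : (173 / 100 : ℝ) ≤ √3 := Real.le_sqrt_of_sq_le (by norm_num)

theorem ar_hi : √3 ≤ (17321 / 10000 : ℝ) := Real.sqrt_le_iff.2 ⟨by norm_num, by norm_num⟩

theorem ar_div (a b : ℕ) (hb : 0 < b) : (a : ℝ) / b ≤ (a / b : ℕ) + 1 := by
  rw [div_le_iff₀ (by positivity)]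
  exact_mod_cast (Nat.lt_div_mul_add hb).le.trans (by rw [add_mul, one_mul])

theorem ar_Fu {m : ℕ} (h1 : 1 ≤ m) : (Fu m : ℝ) ≤ 2 / 3 * √3 ^ m := by
  have := ar_lo
  have h3 : (0 : ℝ) < 3 ^ (m / 2) := by positivity
  rw [ar_pow]
  unfold Fu
  split_ifs with h2 h4
  · interval_cases m <;> norm_num
    linarith
  · rw [h4]
    push_cast
    nlinarith
  · have := Nat.cast_div_le (α := ℝ) (m := 3 ^ (m / 2) * 5774) (n := 10000)
    rw [show m % 2 = 0 by omega]
    push_cast at this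
    linarith

theorem ar_Ab (n : ℕ) : 2 / 3 * √3 ^ n ≤ (Ab n : ℝ) := by
  have := ar_hi
  have h3 : (0 : ℝ) < 3 ^ (n / 2) := by positivity
  rw [ar_pow]
  unfold Ab
  split_ifs with h4
  · have := ar_div (3 ^ (n / 2) * 11548) 10000 (by norm_num)
    rw [h4, Nat.cast_add, Nat.cast_one]
    rw [Nat.cast_mul, Nat.cast_pow, Nat.cast_ofNat, Nat.cast_ofNat, Nat.cast_ofNat] at this
    nlinarith
  · have := ar_div (3 ^ (n / 2) * 2) 3 (by norm_num)
    rw [show n % 2 = 0 by omega, Nat.cast_add, Nat.cast_one]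
    rw [Nat.cast_mul, Nat.cast_pow, Nat.cast_ofNat, Nat.cast_ofNat] at this
    linarith

theorem Fu_le_Ab {m n : ℕ} (h1 : 1 ≤ m) (h : m ≤ n) :
    (Fu m : ℝ) ≤ Ab n * (√3)⁻¹ ^ (n - m) := by
  have h0 : (0 : ℝ) < √3 := by positivity
  calc (Fu m : ℝ) ≤ 2 / 3 * √3 ^ m := ar_Fu h1
    _ = 2 / 3 * √3 ^ n * (√3)⁻¹ ^ (n - m) := by
      rw [← Nat.add_sub_cancel' h, pow_add, Nat.add_sub_cancel_left, inv_pow]
      field_simp
    _ ≤ _ := mul_le_mul_of_nonneg_right (ar_Ab n) (by positivity)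

/-- real form of the bounds, for the large degree estimates -/
theorem Fu_le_sqrt (m : ℕ) : (Fu m : ℝ) ≤ √3 ^ m := by
  rcases Nat.eq_zero_or_pos m with rfl | h
  · simp [Fu]
  · have := ar_Fu h
    have : (0 : ℝ) < √3 ^ m := by positivity
    linarith

theorem sqrt_le_Tl {n : ℕ} (hn : 10 ≤ n) : √3 ^ n ≤ 2 * (Tl n : ℝ) := by
  have := ar_hi
  have h3 : (3 : ℝ) ^ 5 ≤ 3 ^ (n / 2) := pow_le_pow_right₀ (by norm_num) (by omega)
  rw [ar_pow]
  unfold Tl
  split_ifs with h4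
  · rw [h4]
    push_cast
    nlinarith
  · have := ar_div (3 ^ (n / 2) * 5773) 10000 (by norm_num)
    rw [show n % 2 = 0 by omega]
    rw [Nat.cast_mul, Nat.cast_pow, Nat.cast_ofNat, Nat.cast_ofNat, Nat.cast_ofNat] at this
    linarith

theorem KB.le_Fu {p0 : ℕ} (h : KB.{u} p0 (Fintype.card α)) (H : Subgroup (Perm α))
    (h0 : ¬ p0 ∣ Nat.card H) : kk H ≤ Fu (Fintype.card α) := by
  by_cases h3 : 3 ≤ Fintype.card α
  · exact le_Fu_of_sq h3 (h α H rfl h0 h3)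
  · refine (KPerm.k_le_card H).trans
      ((Nat.le_of_dvd (Nat.factorial_pos _) (KPerm.card_dvd_fac H)).trans ?_)
    generalize Fintype.card α = n at *
    have : n < 3 := by omega
    interval_cases n <;> decide

theorem le_cdiv_mul {a r : ℕ} (hr : 0 < r) : a ≤ cdiv a r * r := by
  have := Nat.lt_div_mul_add (a := a + r - 1) hr
  unfold cdiv
  omega

theorem cdiv_le {a r j : ℕ} (hr : 0 < r) (h : a ≤ j * r) : cdiv a r ≤ j := by
  unfold cdiv
  refine Nat.le_of_lt_succ ((Nat.div_lt_iff_lt_mul hr).2 ?_)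
  rw [Nat.succ_mul]
  omega

theorem ar_qgo (n1 d r f : ℕ) : ∀ s, s ≤ qgo n1 d r f s ∧ (qgo n1 d r f s = s + f ∨
    ¬ (qgo n1 d r f s < r ∧ 2 * qgo n1 d r f s < d ∧
      qgo n1 d r f s * r + qgo n1 d r f s * (qgo n1 d r f s - 1) < n1)) := by
  induction f with
  | zero => exact fun s => ⟨le_rfl, .inl rfl⟩
  | succ f ih =>
    intro s
    rw [qgo]
    split_ifs with h
    · exact ⟨(Nat.le_succ s).trans (ih _).1, (ih (s + 1)).2.imp_left fun e => by omega⟩
    · exact ⟨le_rfl, .inr h⟩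

theorem qU_pos (n1 d r : ℕ) : 1 ≤ qU n1 d r := by
  exact (le_max_left _ _).trans (ar_qgo n1 d r r _).1

theorem qU_le {n1 d r q : ℕ} (hr : 0 < r) (h1 : 1 ≤ q) (hd : d ≤ q * r)
    (h : q < r → 2 * q < d → n1 ≤ q * r + q * (q - 1)) : qU n1 d r ≤ q := by
  have key : ∀ f s, s ≤ q → qgo n1 d r f s ≤ q := fun f => by
    induction f with
    | zero => exact fun s hs => hs
    | succ f ih =>
      intro s hs
      rw [qgo]
      split_ifs with e
      · refine ih _ (lt_of_le_of_ne hs ?_)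
        rintro rfl
        exact absurd (h e.1 e.2.1) (not_le.2 e.2.2)
      · exact hs
  exact key _ _ (max_le h1 (cdiv_le hr hd))

theorem qU_ge {n1 d r : ℕ} (hr : 0 < r) : d ≤ qU n1 d r * r ∧
    (r ≤ qU n1 d r ∨ d ≤ 2 * qU n1 d r ∨ n1 ≤ 2 * (qU n1 d r * r)) := by
  obtain ⟨h1, h2⟩ := ar_qgo n1 d r r (max 1 (cdiv d r))
  refine ⟨(le_cdiv_mul hr).trans (Nat.mul_le_mul_right _ ((le_max_right _ _).trans h1)), ?_⟩
  unfold qU
  generalize qgo n1 d r r (max 1 (cdiv d r)) = q at *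
  rcases h2 with h2 | h2
  · omega
  · by_contra! e
    have : q * (q - 1) ≤ q * r := Nat.mul_le_mul_left _ (by omega)
    exact h2 ⟨e.1, e.2.1, by omega⟩

theorem lowD_DD (n : ℕ) : LowD n (DD n) := by
  intro d' h3 hD h5
  have key : ∀ f s, s ≤ d' → dgo n f s ≤ d' := fun f => by
    induction f with
    | zero => exact fun s hs => hs
    | succ f ih =>
      intro s hs
      rw [dgo]
      split_ifs with e
      · exact hs
      · refine ih _ (lt_of_le_of_ne hs ?_)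
        rintro rfl
        exact e hD
  refine key _ _ ?_
  split_ifs with e
  exacts [h5 e, h3]

end CfsgLib.KP3
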