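import Cfsg.Agent.Lib.KP3.Defs

/-! The Boolean checker for degrees below 700. -/

set_option autoImplicit false

namespace CfsgLib.KP3

open CfsgLib.Psx

def goodB (n p0 B : ℕ) (D : ℕ → Dt) : Bool :=
  Nat.ble (totC n p0 D + B) (Tl n) || decide (totF n p0 D + B ≤ Tl n)

def jorB (n t : ℕ) : Bool :=
  (n == 27 && Nat.ble 5 t) || (n == 33 && Nat.ble 5 t)

def chkT (n p0 B t : ℕ) : Bool :=
  jorB n t || ((Nat.blt (n + 1 - t) 3 || goodB n p0 B (dU n t (DD (n + 1 - t)))) &&
    (Nat.blt t 2 || (List.range ((n + 2 - t - 1) / 2 + 1)).all fun k =>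
      Nat.blt k 2 || !((n + 2 - t - 1) % k == 0) || goodB n p0 B (dI n t k)))

def chkN (n : ℕ) : Bool :=
  [3, 5, 7].all fun p0 => (List.range (n % p0)).all fun i => chkT n p0 (bigN n) (i + 1)

def chkR (lo c : ℕ) : Bool := (List.range c).all fun i => chkN (lo + i)

end CfsgLib.KP3
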