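import Cfsg.Agent.Lib.KP3.Ar
import Cfsg.Agent.Lib.Psx.Res2

/-! Chains of small subgroups. -/

set_option autoImplicit false

namespace CfsgLib.KP3

open Equiv Finset CfsgLib.Psx
open CfsgLib.KPerm (kap rep cyc)
open scoped Classical

universe u

variable {α : Type u} [Fintype α]

theorem chain_bot (r : ℕ) (l : List ℕ) : Chain r l (⊥ : Subgroup (Perm α)) := by
  cases l with
  | nil => rfl
  | cons δ l => exact .inl rfl

theorem chain_desc {r : ℕ} (c δ : ℕ) (φ : ℕ → ℕ) (l : List ℕ) {E : Subgroup (Perm α)}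
    (h0 : φ 0 ≤ (fx E).card)
    (hs : ∀ E' ≤ E, E' ≠ ⊥ → ∀ i < c, φ i ≤ (fx E').card → ∃ E1 ≤ E',
      Nat.card E' ≤ r * Nat.card E1 ∧ (fx E').card + δ * r ≤ (fx E1).card ∧
        φ (i + 1) ≤ (fx E1).card)
    (he : ∀ E' ≤ E, φ c ≤ (fx E').card → Chain r l E') :
    Chain r (List.replicate c δ ++ l) E := by
  induction c generalizing φ E with
  | zero => exact he E le_rfl h0
  | succ c ih =>
    by_cases hE : E = ⊥
    · exact .inl hE
    obtain ⟨E1, k1, k2, k3, k4⟩ := hs E le_rfl hE 0 c.succ_pos h0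
    exact .inr ⟨E1, k1, k2, k3, ih (fun i => φ (i + 1)) k4
      (fun E' j1 j2 i hi => hs E' (j1.trans k1) j2 (i + 1) (by omega)) fun E' j1 => he E' (j1.trans k1)⟩

theorem chain_first {r : ℕ} (hr : r.Prime) (j : ℕ) (l : List ℕ) {E : Subgroup (Perm α)}
    (hE : Sm r E) (he : ∀ E' ≤ E, Fintype.card α % r + j * r ≤ (fx E').card → Chain r l E') :
    Chain r (List.replicate j 1 ++ l) E := by
  refine chain_desc j 1 (fun i => Fintype.card α % r + i * r) l (by simpa using hE.fx_mod hr)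
    (fun E' h1 h2 i _ h3 => ?_) he
  obtain ⟨x, hx⟩ : ∃ x, x ∉ fx E' := by
    by_contra hc
    push Not at hc
    exact h2 (fx_eq_univ.1 (Finset.eq_univ_iff_forall.2 hc))
  have := (hE.mono h1).fx_St hr hx
  exact ⟨St E' x, St_le E' x, (hE.mono h1).card_le hr x, by omega, by rw [Nat.succ_mul]; omega⟩

theorem ch2_triv {r : ℕ} (hr : r.Prime) (G : Subgroup (Perm α)) :
    Ch2 G r (Fintype.card α / r) 0 0 := by
  intro E _ hE
  refine chain_first hr _ _ hE fun E' _ h => ?_
  rw [Nat.mod_add_div'] at h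
  exact fx_eq_univ.1 (Finset.eq_univ_of_card _ (le_antisymm (card_le_univ _) h))

theorem Chain.card_le {r : ℕ} {l : List ℕ} {E : Subgroup (Perm α)} (hr : 0 < r)
    (h : Chain r l E) : Nat.card E ≤ r ^ l.length := by
  induction l generalizing E with
  | nil => rw [show E = ⊥ from h]; simp
  | cons δ l ih =>
    rcases h with rfl | ⟨E1, -, k, -, k2⟩
    · rw [Subgroup.card_bot]; exact pow_pos hr _
    · rw [List.length_cons, pow_succ']
      exact k.trans (Nat.mul_le_mul_left _ (ih k2))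

theorem Ch2.rk {G : Subgroup (Perm α)} {r c1 c2 δ : ℕ} (hr : 0 < r) (h : Ch2 G r c1 c2 δ) :
    Rk G r (c1 + c2) := by
  intro E h1 h2
  simpa using (h E h1 h2).card_le hr

theorem sm_zpowers {r : ℕ} (hr : r.Prime) {g : Perm α} (hg : g ^ r = 1) :
    Sm r (Subgroup.zpowers g) ∧
      (fx (Subgroup.zpowers g)).card + g.support.card = Fintype.card α := by
  refine ⟨⟨fun x => ⟨1, Subtype.ext ?_⟩, fun x => ?_⟩, ?_⟩
  · obtain ⟨_, k, rfl⟩ := x
    show (g ^ k) ^ r ^ 1 = 1
    rw [pow_one, ← zpow_natCast, ← zpow_mul, mul_comm, zpow_mul, zpow_natCast, hg, one_zpow]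
  · have : {y | ∃ e ∈ Subgroup.zpowers g, e x = y} ⊆ ((range r).image fun i => (g ^ i) x : Finset α) := by
      rintro _ ⟨e, he, rfl⟩
      obtain ⟨i, rfl⟩ := (mem_powers_iff_mem_zpowers.2 he : e ∈ Submonoid.powers g)
      exact mem_coe.2 (mem_image.2 ⟨i % r, mem_range.2 (Nat.mod_lt _ hr.pos), by
        show (g ^ (i % r)) x = (g ^ i) x
        rw [← pow_eq_pow_mod i hg]⟩)
    refine (Set.ncard_le_ncard this (Finset.finite_toSet _)).trans ?_
    rw [Set.ncard_coe_finset]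
    exact card_image_le.trans (card_range r).le
  · rw [show fx (Subgroup.zpowers g) = g.supportᶜ from Finset.ext fun x => by
      rw [mem_fx, mem_compl, Perm.notMem_support]
      exact ⟨fun k => k g (Subgroup.mem_zpowers g), by
        rintro k _ ⟨i, rfl⟩
        exact Perm.zpow_apply_eq_self_of_apply_eq_self k i⟩, card_compl_add_card]

theorem MinS.mono {G : Subgroup (Perm α)} {r w w' : ℕ} (h : MinS G r w) (hw : w' ≤ w) :
    MinS G r w' := by
  exact fun g hg h1 h2 => (Nat.mul_le_mul_right r hw).trans (h g hg h1 h2)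

theorem minS_of_le {G : Subgroup (Perm α)} {r m : ℕ} (hr : r.Prime)
    (h : ∀ g ∈ G, g ≠ 1 → g ^ r = 1 → m ≤ g.support.card) : MinS G r (cdiv m r) := by
  intro g hg h1 h2
  obtain ⟨X, hX, -⟩ := cyc_reps hr h2
  rw [hX]
  exact Nat.mul_le_mul_right r (cdiv_le hr.pos (hX ▸ h g hg h1 h2))

/-- all non-trivial `r`-elements have large support -/
theorem MinS.pow {G : Subgroup (Perm α)} {r w k : ℕ} (h : MinS G r w) {g : Perm α} (hg : g ∈ G)
    (h1 : g ≠ 1) (hk : g ^ r ^ k = 1) : w * r ≤ g.support.card := by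
  induction k generalizing g with
  | zero => exact absurd (by simpa using hk) h1
  | succ k ih =>
    by_cases h2 : g ^ r = 1
    · exact h g hg h1 h2
    · exact (ih (pow_mem hg r) h2 (by rwa [← pow_mul, ← pow_succ'])).trans
        (card_le_card (Perm.support_pow_le g r))

theorem trans_res2 {p : ℕ} {G E : Subgroup (Perm α)} {Δ : Finset α} (hG : Tr G Δ.card)
    (hE : E ≤ G) (hS : Sm p E) (hf : Δ.card ≤ (fx E).card) :
    ∃ E' ≤ res G Δ, Sm p E' ∧ Nat.card E' = Nat.card E ∧ (fx E').card + Δ.card = (fx E).card ∧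
      ∀ E1' ≤ E', ∃ E1 ≤ E, Nat.card E1 = Nat.card E1' ∧
        (fx E1').card + Δ.card = (fx E1).card := by
  obtain ⟨ι⟩ := Function.Embedding.nonempty_of_card_le (α := Δ) (β := fx E) (by simpa using hf)
  obtain ⟨σ, hσ⟩ := Perm.exists_extending_pair (f := fun x : Δ => (x : α)) (g := fun x => (ι x : α))
    Subtype.val_injective (Subtype.val_injective.comp ι.injective)
  obtain ⟨g, hg, k⟩ := hG Δ le_rfl σ
  have hΔ : ∀ x ∈ Δ, g x ∈ fx E := fun x hx => by
    rw [k x hx, hσ ⟨x, hx⟩]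
    exact (ι _).2
  let φ : Perm {x // x ∉ Δ} →* Perm α := (MulAut.conj g).toMonoidHom.comp Perm.ofSubtype
  have hφ : Function.Injective φ := (MulAut.conj g).injective.comp Perm.ofSubtype_injective
  have ap : ∀ h (x : {x // x ∉ Δ}), φ h (g x) = g (h x) := fun h x => by
    simp [φ, Perm.ofSubtype_apply_coe]
  have on : ∀ e ∈ E, ∃ h, φ h = e := fun e he => by
    obtain ⟨h, -, e1, -⟩ := exists_res (G := ⊤) (Δ := Δ) (g := g⁻¹ * e * g) trivial fun x hx => by
      simp [mem_fx.1 (hΔ x hx) e he]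
    exact ⟨h, by simp [φ, e1, mul_assoc]⟩
  have key : ∀ K ≤ E, (fx (K.comap φ)).card + Δ.card = (fx K).card := fun K hK => by
    have hΔ' : ∀ x ∈ Δ, g x ∈ fx K := fun x hx => fx_mono hK (hΔ x hx)
    rw [← Finset.card_map (s := fx K) g.symm.toEmbedding, ← Finset.card_sdiff_add_card_eq_card (s := Δ)
      fun x hx => Finset.mem_map_equiv.2 (hΔ' x hx), ← Finset.card_map (.subtype _)]
    congr 2
    ext x
    rw [Finset.mem_sdiff, Finset.mem_map_equiv, Finset.mem_map]
    simp only [symm_symm, mem_fx]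
    refine ⟨?_, fun ⟨h1, h2⟩ => ⟨⟨x, h2⟩, fun h hh => Subtype.ext (g.injective ((ap h _).symm.trans (h1 _ hh))), rfl⟩⟩
    rintro ⟨x, hx, rfl⟩
    refine ⟨fun e he => ?_, x.2⟩
    obtain ⟨h, rfl⟩ := on e (hK he)
    exact (ap h x).trans (by rw [hx h he]; rfl)
  refine ⟨E.comap φ, fun h hh => (Subgroup.mul_mem_cancel_left G hg).1 ((Subgroup.mul_mem_cancel_right G
    (inv_mem hg)).1 (hE hh)), ⟨hS.1.comap_of_injective φ hφ, fun x => le_trans (Set.ncard_le_ncard_of_injOn
      (fun y => g y) ?_ (g.injective.comp Subtype.val_injective).injOn) (hS.2 (g x))⟩, ?_, key E le_rfl,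
    fun E1' h1 => ?_⟩
  · rintro _ ⟨h, hh, rfl⟩
    exact ⟨φ h, hh, ap h x⟩
  · rw [← Subgroup.card_map_of_injective hφ, Subgroup.map_comap_eq_self on]
  · have h2 : E1'.map φ ≤ E := Subgroup.map_le_iff_le_comap.2 h1
    refine ⟨E1'.map φ, h2, Subgroup.card_map_of_injective hφ, ?_⟩
    rw [← key _ h2, Subgroup.comap_map_eq_self_of_injective hφ]

end CfsgLib.KP3
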