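import Cfsg.Agent.Lib.KP3.Defs
import Cfsg.Agent.Lib.Psx.Bab4

/-! Distinguishing sets have at least five points in degree at least 15. -/

set_option autoImplicit false

namespace CfsgLib.KP3

open Equiv Finset CfsgLib.Psx
open CfsgLib.KPerm (kap rep cyc)
open scoped Classical

universe u

variable {α : Type u} [Fintype α]

theorem db4_tri {γ : Type*} [Fintype γ] [DecidableEq γ] (H : Subgroup (Perm γ)) {x u y : γ} (h1 : x ≠ u)
    (h2 : u ≠ y) : (Dist H x y).card + 1 ≤ (Dist H x u).card + (Dist H u y).card := by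
  have a1 := Finset.card_le_card (dist_tri H x u y)
  have a2 := Finset.card_union_add_card_inter (Dist H x u) (Dist H u y)
  have a3 := Finset.card_pos.2 ⟨u, Finset.mem_inter.2 ⟨right_mem_dist H h1, left_mem_dist H h2⟩⟩
  omega

theorem db4_diam {α : Type*} [Fintype α] [DecidableEq α] {H : Subgroup (Perm α)} (hP : Prim H) {a b x y : α} (hab : a ≠ b) (hxy : x ≠ y)
    (h1 : ¬ Adj H a b x y) (h2 : ¬ ∃ u, Adj H a b x u ∧ Adj H a b u y) :
    2 * Set.ncard {y | Adj H a b a y} + 4 ≤ 3 * (Dist H a b).card := by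
  have hN : ∀ x, (Finset.univ.filter fun y => Adj H a b x y).card = Set.ncard {y | Adj H a b a y} :=
    fun x => by rw [← adj_val hP.1 a b x, Set.ncard_eq_toFinset_card', Set.toFinset_ofPred]
  obtain ⟨w, hw, v, h3, h4⟩ := bab1_exit hP hab
    (S := {y | y = x ∨ Adj H a b x y ∨ ∃ u, Adj H a b x u ∧ Adj H a b u y}) (x := x) (y := y)
    (Or.inl rfl) (by rintro (e | e | e); exacts [hxy e.symm, h1 e, h2 e])
  have n0 : x ≠ v := fun e => h4 (Or.inl e.symm)
  have n1 : ¬ Adj H a b x v := fun e => h4 (Or.inr (Or.inl e))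
  have n2 : ∀ u, Adj H a b x u → ¬ Adj H a b v u := fun u e e' => h4 (Or.inr (Or.inr ⟨u, e, e'.symm⟩))
  obtain ⟨u, h5, h6⟩ : ∃ u, Adj H a b x u ∧ Adj H a b u w := by
    rcases hw with rfl | e | e
    · exact absurd h3 n1
    · exact absurd h3.symm (n2 w e)
    · exact e
  have up : (Dist H x v).card + 2 ≤ 3 * (Dist H a b).card := by
    have a1 := db4_tri H (h5.ne hab) (fun e : u = v => n1 (e ▸ h5))
    have a2 := db4_tri H (h6.ne hab) (h3.ne hab)
    rw [h5.dist] at a1
    rw [h6.dist, h3.dist] at a2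
    omega
  have sub : insert x (insert v ((Finset.univ.filter fun y => Adj H a b x y) ∪
      Finset.univ.filter fun y => Adj H a b v y)) ⊆ Dist H x v := by
    intro z hz
    simp only [Finset.mem_insert, Finset.mem_union, Finset.mem_filter, Finset.mem_univ,
      true_and] at hz
    rcases hz with rfl | rfl | e | e
    · exact left_mem_dist H n0
    · exact right_mem_dist H n0
    · exact mem_Dist.2 fun ⟨h, hh, e1, e2⟩ => n2 z e (by simpa [e1, e2] using e.smul hh)
    · refine mem_Dist.2 fun ⟨h, hh, e1, e2⟩ => n2 z ?_ e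
      have := e.smul (H.inv_mem hh)
      rwa [Perm.inv_eq_iff_eq.2 e2.symm, Perm.inv_eq_iff_eq.2 e1.symm] at this
  have := Finset.card_le_card sub
  rw [Finset.card_insert_of_notMem, Finset.card_insert_of_notMem, Finset.card_union_of_disjoint,
    hN, hN] at this
  · omega
  · exact Finset.disjoint_filter.2 fun u _ => n2 u
  · simp only [Finset.mem_union, Finset.mem_filter, Finset.mem_univ, true_and, not_or]
    exact ⟨n1, fun e => e.ne hab rfl⟩
  · simp only [Finset.mem_insert, Finset.mem_union, Finset.mem_filter, Finset.mem_univ, true_and,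
      not_or]
    exact ⟨n0, fun e => e.ne hab rfl, fun e => n1 e.symm⟩

theorem bab5 {γ : Type*} [Fintype γ] [DecidableEq γ] {H : Subgroup (Perm γ)} (hP : Prim H)
    (h2 : ¬ Tr H 2) (hn : 15 ≤ Fintype.card γ) {a b : γ} (hab : a ≠ b) :
    5 ≤ (Dist H a b).card := by
  by_contra d4
  by_cases far : ∃ x y, x ≠ y ∧ ¬ Adj H a b x y ∧ ¬ ∃ u, Adj H a b x u ∧ Adj H a b u y
  · obtain ⟨x, y, h0, h1, h3⟩ := far
    have k1 := bab_kd hP hab
    have k2 := db4_diam hP hab h0 h1 h3
    have := Nat.mul_le_mul_left (Set.ncard {y | Adj H a b a y}) (show (Dist H a b).card ≤ 4 by omega)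
    omega
  have hD : ∀ x y, (Dist H x y).card ≤ 7 := fun x y => by
    by_cases hxy : x = y
    · simp [hxy, Psx.dist_self]
    by_cases h1 : Adj H a b x y
    · rw [h1.dist]; omega
    obtain ⟨u, k1, k2⟩ : ∃ u, Adj H a b x u ∧ Adj H a b u y := by
      by_contra k
      exact far ⟨x, y, hxy, h1, k⟩
    have := db4_tri H (k1.ne hab) (k2.ne hab)
    rw [k1.dist, k2.dist] at this
    omega
  by_cases hs : ∀ z x, x ≠ z → 2 * Set.ncard {y | ∃ h ∈ H, h z = z ∧ h x = y} ≤ Fintype.card γ
  · have k := bab_q1 (by omega) hD hs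
    have := Nat.mul_le_mul_right (Fintype.card γ) hn
    omega
  · push Not at hs
    obtain ⟨z, x, hx, big⟩ := hs
    have k1 := bab_q2 hP.1 hD (z := z) (x := x) rfl
    have k2 := bab_w hP h2 hx rfl big
    have k3 : Set.ncard {y | ∃ h ∈ H, h z = z ∧ h x = y} ≤ Fintype.card γ :=
      Nat.card_eq_fintype_card (α := γ) ▸ Set.ncard_le_card _
    generalize Set.ncard {y | ∃ h ∈ H, h z = z ∧ h x = y} = r at *
    obtain ⟨w, hw⟩ := Nat.exists_eq_add_of_le k3
    rw [hw] at k1 k2 big hn
    rw [Nat.add_sub_cancel_left] at k1 k2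
    by_cases h7 : 7 ≤ w
    · have := Nat.mul_le_mul_left (2 * r) h7
      omega
    · have : w ≤ 6 := by omega
      interval_cases w <;> omega

end CfsgLib.KP3
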