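import Cfsg.Agent.Lib.KP3.Defs

/-! Class sums of `r`-groups of permutations. -/

set_option autoImplicit false

namespace CfsgLib.KP3

open Equiv Finset CfsgLib.Psx
open CfsgLib.KPerm (kap rep cyc)
open scoped Classical

universe u

variable {α : Type u} [Fintype α]

theorem hs_sum {p : ℕ} (hp : p.Prime) {c : ℝ} (hc : 1 ≤ c) {g : ℕ → ℝ} (hg : ∀ n, 0 ≤ g n)
    (h1 : c ≤ g 1) (hm : ∀ k : ℕ, g (p ^ k) ^ p ≤ g (p * p ^ k))
    (hs : ∀ k A : ℕ, A ^ (p - 1) ≤ p ^ (p ^ k - 1) →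
      g (p ^ k) ^ p + (p - 1) * A * c ^ (p * p ^ k) + p * (p - 1) * A * c ^ p ^ k ≤ p * g (p * p ^ k))
    {P : Subgroup (Perm α)} (hP : IsPGroup p P) :
    ∑ L : ConjClasses P, c ^ cyc (univ : Finset α) ((rep L : P) : Perm α) ≤ KPerm.bnd g P (univ : Finset α) := by
  have := Fact.mk hp
  have h3 := KPerm.As_le hc hg h1 hm hs P univ hP (KPerm.inv_univ P) P le_rfl 1 P.one_mem
  rw [KPerm.fx_univ, Nat.cast_one, mul_one] at h3
  refine le_of_mul_le_mul_left (le_trans (le_of_eq ?_) h3) (by exact_mod_cast KPerm.card_E_pos P)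
  rw [KPerm.card_E, KPerm.card_mul_sum_rep (fun x : P => c ^ cyc (univ : Finset α) (x : Perm α))
    (fun g x => by simp only [Subgroup.coe_mul, Subgroup.coe_inv, KPerm.cyc_conj]), KPerm.As,
    sum_subtype (KPerm.E P) (fun _ => KPerm.mem_E)]
  refine sum_congr rfl fun x _ => ?_
  rw [one_mul, Fgs.kcl_card_centralizer_subgroup, Fgs.kcl_card_inf_centralizer, KPerm.E, filter_filter]
  congr 3
  ext g
  simp [KPerm.cm, Equiv.ext_iff]

theorem hs_elt (P : Subgroup (Perm α)) {f : Perm α → ℝ} (hf : ∀ y, 0 ≤ f y) :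
    ∑ L : ConjClasses P, f (rep L : P) ≤ ∑ y ∈ KPerm.E P, f y := by
  rw [← sum_image (s := univ) (g := fun L : ConjClasses P => ((rep L : P) : Perm α)) (f := f)
    fun L _ L' _ h => by rw [← KPerm.mk_rep L, ← KPerm.mk_rep L', Subtype.ext h]]
  refine sum_le_sum_of_subset_of_nonneg (fun y hy => ?_) fun y _ _ => hf y
  obtain ⟨L, -, rfl⟩ := mem_image.1 hy
  exact KPerm.mem_E.2 (rep L).2

theorem hs_dvd (P : Subgroup (Perm α)) (Q : ℕ → Prop) [DecidablePred Q] {m : ℕ}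
    (h : ∀ a : α, Q (KPerm.orb P a).card → m ∣ (KPerm.orb P a).card) :
    m ∣ (univ.filter fun a : α => Q (KPerm.orb P a).card).card := by
  rw [card_eq_sum_card_image (KPerm.orb P)]
  refine dvd_sum fun B hB => ?_
  obtain ⟨a, ha, rfl⟩ := mem_image.1 hB
  have ha := (mem_filter.1 ha).2
  refine (h a ha).trans (dvd_of_eq (congrArg card (Finset.ext fun b => ?_)).symm)
  simp only [mem_filter, mem_univ, true_and]
  exact ⟨fun k => k.2 ▸ KPerm.self_mem_orb P b, fun k => ⟨by rwa [KPerm.orb_eq k], KPerm.orb_eq k⟩⟩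

theorem hs_b2 {i j n : ℕ} (h : 2 * i + 4 * j ≤ n) : 2 ^ i * 5 ^ j ≤ b2 n := by
  have h1 : 2 ^ i ≤ 5 ^ (i / 2) * 2 ^ (i % 2) := by
    conv_lhs => rw [← Nat.div_add_mod i 2, pow_add, pow_mul]
    exact Nat.mul_le_mul_right _ (Nat.pow_le_pow_left (by norm_num) _)
  refine (Nat.mul_le_mul_right _ h1).trans ?_
  rw [mul_right_comm, ← pow_add, b2]
  rcases (show i / 2 + j ≤ n / 4 by omega).eq_or_lt with e | e
  · exact e ▸ Nat.mul_le_mul_left _ (Nat.pow_le_pow_right two_pos (by omega))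
  · refine le_trans ?_ (Nat.le_mul_of_pos_right _ (by positivity))
    refine le_trans ?_ (Nat.pow_le_pow_right (by norm_num) e)
    rw [pow_succ]
    exact Nat.mul_le_mul_left _ ((Nat.pow_le_pow_right two_pos (by omega : i % 2 ≤ 1)).trans (by norm_num))

theorem k2_le (P : Subgroup (Perm α)) (hP : IsPGroup 2 P) : kk P ≤ b2 (Fintype.card α) := by
  have := Fact.mk Nat.prime_two
  obtain ⟨t, t0, t4⟩ : ∃ t : ℝ, 0 ≤ t ∧ t ^ 4 = 5 :=
    ⟨_, by positivity, Real.rpow_inv_natCast_pow (by norm_num) four_ne_zero⟩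
  obtain ⟨s, s0, s2⟩ : ∃ s : ℝ, 0 ≤ s ∧ s ^ 2 = 2 := ⟨_, Real.sqrt_nonneg 2, Real.sq_sqrt two_pos.le⟩
  have h4 : ∀ k, 4 ≤ 2 ^ (k + 1 + 1) := fun k => by rw [pow_succ, pow_succ]; have := k.two_pow_pos; omega
  let g : ℕ → ℝ := fun n => if n = 1 then 1 else if n = 2 then 2 else t ^ n
  have gn : ∀ n, 4 ≤ n → g n = t ^ n := fun n hn => by simp only [g]; rw [if_neg (by omega), if_neg (by omega)]
  have hg : ∀ n, 0 ≤ g n := fun n => by simp only [g]; split_ifs <;> positivity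
  have h1 := hs_sum Nat.prime_two le_rfl hg (by simp [g]) (fun k => ?_) (fun k A hA => ?_) hP
  · have h2 : KPerm.bnd g P (univ : Finset α) ≤ ∏ a : α, (if (KPerm.orb P a).card = 2 then s else 1) *
        if 4 ≤ (KPerm.orb P a).card then t else 1 := by
      refine prod_le_prod (fun _ _ => Real.rpow_nonneg (hg _) _) fun a _ => le_of_eq ?_
      obtain ⟨k, hk⟩ := KPerm.card_orb_pow hP a
      rw [hk]
      rcases k with _ | _ | k
      · simp [g]
      · rw [show g (2 ^ (0 + 1)) = s ^ 2 ^ (0 + 1) by simp [g, s2], Real.pow_rpow_inv_natCast s0 (by norm_num)]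
        simp
      · have := h4 k
        rw [gn _ this, Real.pow_rpow_inv_natCast t0 (by omega), if_neg (by omega), if_pos this, one_mul]
    rw [prod_mul_distrib, ← prod_filter, ← prod_filter, prod_const, prod_const] at h2
    obtain ⟨i, hi⟩ := hs_dvd P (· = 2) (m := 2) fun a h => h ▸ dvd_rfl
    obtain ⟨j, hj⟩ := hs_dvd P (4 ≤ ·) (m := 4) fun a h => by
      obtain ⟨k, hk⟩ := KPerm.card_orb_pow hP a
      rw [hk] at h ⊢
      exact pow_dvd_pow 2 ((Nat.pow_le_pow_iff_right one_lt_two).1 (show 2 ^ 2 ≤ 2 ^ k from h))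
    have h3 : 2 * i + 4 * j ≤ Fintype.card α := by
      rw [← hi, ← hj, ← card_union_of_disjoint (disjoint_filter.2 fun a _ h => by omega)]
      exact card_le_univ _
    rw [hi, hj, pow_mul, pow_mul, s2, t4] at h2
    have h5 := h1.trans h2
    simp only [one_pow, sum_const, card_univ, nsmul_eq_mul, mul_one] at h5
    rw [kk, Nat.card_eq_fintype_card]
    exact le_trans (by exact_mod_cast h5) (hs_b2 h3)
  · rcases k with _ | _ | k
    · norm_num [g]
    · norm_num [g, t4]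
    · have := h4 k
      rw [gn _ this, gn _ (by omega), ← pow_mul, mul_comm]
  · rcases k with _ | _ | k
    · have : (A : ℝ) ≤ 1 := by exact_mod_cast (by simpa using hA)
      norm_num [g]; linarith
    · have : (A : ℝ) ≤ 2 := by exact_mod_cast (by simpa using hA)
      norm_num [g, t4]; linarith
    · have := h4 k
      rw [gn _ this, gn _ (by omega), ← pow_mul, mul_comm _ 2]
      obtain ⟨m, hm⟩ := Nat.exists_eq_add_of_le this
      rw [hm] at hA ⊢
      have h5 : (A : ℝ) ≤ 8 * 2 ^ m := by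
        exact_mod_cast (by rw [show 4 + m - 1 = 3 + m by omega, pow_add] at hA; simpa using hA)
      have h6 : (2 : ℝ) ^ m ≤ (t ^ 2) ^ m := pow_le_pow_left₀ two_pos.le
        (le_of_pow_le_pow_left₀ two_ne_zero (by positivity) (by rw [← pow_mul, t4]; norm_num)) m
      have h7 : t ^ (2 * (4 + m)) = 25 * (t ^ 2) ^ m := by
        rw [show (25 : ℝ) = (t ^ 4) ^ 2 by rw [t4]; norm_num]; ring
      have h8 : (0 : ℝ) ≤ 2 ^ m := by positivity
      rw [h7]
      norm_num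
      linarith

theorem hs_gen {r : ℕ} (hr : r.Prime) {τ h : ℝ} (h0 : 0 < τ) (hh : 1 ≤ h)
    (H : ∀ a : ℝ, τ⁻¹ ≤ a → a ^ r = τ⁻¹ ^ r * h → ∀ (β : Type u) [Fintype β] (P : Subgroup (Perm β)),
      IsPGroup r P → ∑ L : ConjClasses P, τ⁻¹ ^ cyc (univ : Finset β) ((rep L : P) : Perm β) ≤
        τ⁻¹ ^ (Fintype.card β - r * (Fintype.card β / r)) * a ^ (r * (Fintype.card β / r))) : HS.{u} r τ h := by
  intro β _ P hP
  have e : (τ⁻¹ * h ^ (r : ℝ)⁻¹) ^ r = τ⁻¹ ^ r * h := by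
    rw [mul_pow, Real.rpow_inv_natCast_pow (by positivity) hr.ne_zero]
  have h1 := mul_le_mul_of_nonneg_left (H _ (le_mul_of_one_le_right (by positivity)
    (Real.one_le_rpow hh (by positivity))) e β P hP) (pow_pos h0 (Fintype.card β)).le
  rw [mul_sum, pow_mul, e, mul_pow, ← pow_mul, ← mul_assoc, ← mul_assoc, mul_assoc (τ ^ _), ← pow_add,
    Nat.sub_add_cancel (Nat.mul_div_le _ r), ← mul_pow, mul_inv_cancel₀ h0.ne', one_pow, one_mul] at h1
  refine le_trans (le_of_eq (sum_congr rfl fun L _ => ?_)) h1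
  rw [df, pow_sub₀ _ h0.ne' ((KPerm.cyc_le _ _).trans_eq card_univ), inv_pow]

theorem hs_cls {r : ℕ} (hr : r.Prime) {τ x h : ℝ} (h0 : 0 < τ) (h1 : τ ≤ 1) (hx : τ ^ (r - 1) = x)
    (hh : 1 + (r - 1) * x ≤ h)
    (H : ∀ N A : ℕ, r ≤ N → A ^ (r - 1) ≤ r ^ (N - 1) → A * (1 + r * x ^ N) ≤ h ^ N) : HX.{u} r x h := by
  have r1 : (0 : ℝ) ≤ r - 1 := sub_nonneg.2 (by exact_mod_cast hr.pos)
  have x0 : 0 ≤ x := hx ▸ by positivity
  have hh1 : 1 ≤ h := le_trans (le_add_of_nonneg_right (mul_nonneg r1 x0)) hh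
  refine ⟨hh1, τ, h0, h1, hx.ge, hs_gen hr h0 hh1 fun a ha e β _ P hP => ?_⟩
  have hc : 1 ≤ τ⁻¹ := (one_le_inv₀ h0).2 h1
  have ex : τ⁻¹ ^ r * x = τ⁻¹ := by
    conv_lhs => rw [← hx, ← Nat.sub_add_cancel hr.pos, pow_succ', mul_assoc, Nat.add_sub_cancel, ← mul_pow,
      inv_mul_cancel₀ h0.ne', one_pow, mul_one]
  generalize τ⁻¹ = c at *
  have a0 : 0 ≤ a := by linarith
  have hne : ∀ k, r * r ^ k ≠ 1 := fun k h => hr.ne_one (Nat.eq_one_of_mul_eq_one_right h)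
  let g : ℕ → ℝ := fun n => if n = 1 then c else a ^ n
  have hg : ∀ n, 0 ≤ g n := fun n => by simp only [g]; split_ifs <;> positivity
  refine (hs_sum hr hc hg (by simp [g]) (fun k => ?_) (fun k A hA => ?_) hP).trans
    (KPerm.bnd_univ hr hg ha (by simp [g]) (fun n hn => by simp only [g, if_neg (by omega : n ≠ 1), le_rfl]) hP)
  all_goals simp only [g, if_neg (hne k)]
  all_goals rcases k with _ | k
  · simpa using pow_le_pow_left₀ (by positivity) ha r
  · rw [if_neg (pow_succ' r k ▸ hne k), ← pow_mul, mul_comm]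
  · simp only [pow_zero, mul_one, if_true, pow_one, Nat.sub_self] at hA ⊢
    have h2 : (A : ℝ) ≤ 1 := by
      exact_mod_cast (Nat.pow_le_one_iff (by have := hr.two_le; omega)).1 hA
    have h3 : 0 ≤ c ^ r := by positivity
    have h4 := mul_le_mul_of_nonneg_left h2 (mul_nonneg r1 h3)
    have h5 := mul_le_mul_of_nonneg_left h2 (by positivity : 0 ≤ r * (r - 1) * c)
    have h6 := mul_le_mul_of_nonneg_left hh (by positivity : 0 ≤ r * c ^ r)
    have h7 : r * c ^ r * ((r - 1) * x) = r * (r - 1) * c := by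
      conv_rhs => rw [← ex]
      ring
    rw [e]
    linarith
  · rw [if_neg (pow_succ' r k ▸ hne k), ← pow_mul, mul_comm _ r]
    have h2 := mul_le_mul_of_nonneg_left (H (r ^ (k + 1)) A (Nat.le_self_pow k.succ_ne_zero r) hA)
      (by positivity : 0 ≤ (r - 1) * (c ^ r) ^ r ^ (k + 1))
    have h3 : c ^ r ^ (k + 1) = (c ^ r) ^ r ^ (k + 1) * x ^ r ^ (k + 1) := by rw [← mul_pow, ex]
    rw [h3, pow_mul, pow_mul, e, mul_pow]
    linarith

theorem hs_one {r : ℕ} (hr : r.Prime) (h3 : 3 ≤ r) (N A : ℕ) (hN : r ≤ N) (hA : A ^ (r - 1) ≤ r ^ (N - 1)) :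
    A * (1 + r) ≤ r ^ N := by
  rcases A.eq_zero_or_pos with rfl | A0
  · simp
  have h1 : A ^ 2 ≤ r ^ (N - 1) := (Nat.pow_le_pow_right A0 (by omega)).trans hA
  have h2 : (1 + r) ^ 2 ≤ r ^ (N + 1) := le_trans (by
    rw [show 4 = 2 * 2 from rfl, pow_mul]
    exact Nat.pow_le_pow_left (by nlinarith) 2) (Nat.pow_le_pow_right hr.pos (by omega : 4 ≤ N + 1))
  refine (Nat.pow_le_pow_iff_left two_ne_zero).1 ?_
  rw [mul_pow, ← pow_mul, show N * 2 = N - 1 + (N + 1) by omega, pow_add]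
  exact Nat.mul_le_mul h1 h2

theorem hx_one {r : ℕ} (hr : r.Prime) (h3 : 3 ≤ r) : HX.{u} r 1 r :=
  hs_cls hr one_pos le_rfl (one_pow _) (by simp) fun N A hN hA => by
    rw [one_pow, mul_one]
    exact_mod_cast hs_one hr h3 N A hN hA

theorem kodd_le {r : ℕ} (hr : r.Prime) (h3 : 3 ≤ r) (P : Subgroup (Perm α)) (hP : IsPGroup r P) :
    kk P ≤ r ^ (Fintype.card α / r) := by
  obtain ⟨-, τ, h0, h1, h2, H⟩ := hx_one.{u} hr h3
  have := H α P hP
  rw [le_antisymm h1 ((one_le_pow_iff_of_nonneg h0.le (by omega)).1 h2)] at this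
  simp only [one_pow, sum_const, card_univ, nsmul_eq_mul, mul_one] at this
  rw [kk, Nat.card_eq_fintype_card]
  exact_mod_cast this

theorem hx_three {x : ℝ} (h0 : 38 / 100 ≤ x) (h1 : x ≤ 1) : HX.{u} 3 x (1 + 2 * x) := by
  have x0 : 0 < x := by linarith
  refine hs_cls Nat.prime_three (Real.sqrt_pos.2 x0) (Real.sqrt_le_one.2 h1) (Real.sq_sqrt x0.le) (by norm_num)
    fun N A hN hA => ?_
  obtain ⟨m, rfl⟩ := Nat.exists_eq_add_of_le hN
  have h2 : (A : ℝ) ≤ 3 * (1 + 2 * x) ^ m := by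
    refine le_of_pow_le_pow_left₀ two_ne_zero (by positivity) ?_
    have h3 : (A : ℝ) ^ 2 ≤ 3 ^ 2 * 3 ^ m := by
      rw [show 3 + m - 1 = 2 + m by omega, pow_add] at hA
      exact_mod_cast hA
    rw [mul_pow, ← pow_mul, mul_comm m, pow_mul]
    exact h3.trans (mul_le_mul_of_nonneg_left (pow_le_pow_left₀ (by norm_num) (by nlinarith) m) (by norm_num))
  have h3 : x ^ (3 + m) ≤ x ^ 3 := pow_le_pow_of_le_one x0.le h1 (by omega)
  have h4 : x ^ 3 ≤ x := pow_le_of_le_one x0.le h1 three_ne_zero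
  refine (mul_le_mul_of_nonneg_right h2 (by positivity)).trans ?_
  rw [pow_add (1 + 2 * x), mul_right_comm]
  refine mul_le_mul_of_nonneg_right ?_ (by positivity)
  push_cast
  nlinarith

theorem hx_five {x : ℝ} (h0 : 0 < x) (h1 : x ≤ 1 / 400) :
    HX.{u} 5 x ((1 + 4 * x) * (10001 / 10000)) := by
  obtain ⟨τ, t0, t4⟩ : ∃ τ : ℝ, 0 < τ ∧ τ ^ 4 = x :=
    ⟨_, by positivity, Real.rpow_inv_natCast_pow h0.le four_ne_zero⟩
  have t1 : τ ≤ 1 := (pow_le_one_iff_of_nonneg t0.le four_ne_zero).1 (by linarith)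
  refine ⟨by nlinarith, τ, t0, t1, t4.ge, hs_gen Nat.prime_five t0 (by nlinarith) fun a ha e β _ P hP => ?_⟩
  have hc : 1 ≤ τ⁻¹ := (one_le_inv₀ t0).2 t1
  have ex : τ⁻¹ ^ 5 * x = τ⁻¹ := by rw [← t4]; field_simp
  generalize τ⁻¹ = c at *
  have h2 : 0 ≤ c ^ 5 := by positivity
  have h3 := mul_le_mul_of_nonneg_left h1 h2
  refine (hs_elt P (f := fun y => c ^ cyc (univ : Finset β) y) fun _ => by positivity).trans (KPerm.W_le
    Nat.prime_five ⟨hc, ha, 10000 / 10001, 3 / 2, 1 / 50, by norm_num, by norm_num, by norm_num, by norm_num,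
      ?_, by norm_num, ?_, by norm_num⟩ hP)
  all_goals rw [e]; push_cast; linarith

end CfsgLib.KP3
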