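import Cfsg.Agent.Lib.KP3.Chn

/-! Plotkin and Singleton bounds. -/

set_option autoImplicit false
set_option linter.unusedSectionVars false

namespace CfsgLib.KP3

open Equiv Finset CfsgLib.Psx
open CfsgLib.KPerm (kap rep cyc)
open scoped Classical

universe u

variable {α : Type u} [Fintype α]

theorem plo_supp {E : Subgroup (Perm α)} {e : Perm α} (he : e ∈ E) :
    e.support.card + (fx E).card ≤ Fintype.card α := by
  rw [← Finset.card_union_of_disjoint (Finset.disjoint_left.2 fun x hx h =>
    Perm.mem_support.1 hx (mem_fx.1 h e he))]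
  exact Finset.card_le_univ _

theorem plo_sum {G E : Subgroup (Perm α)} {r w : ℕ} (hr : r.Prime) (h : MinS G r w) (hle : E ≤ G)
    (hE : Sm r E) :
    r * (w * r * (Nat.card E - 1)) ≤ (Fintype.card α - (fx E).card) * ((r - 1) * Nat.card E) := by
  let T : Finset (Perm α) := univ.filter (· ∈ E)
  have hT : T.card = Nat.card E := by
    rw [Nat.card_eq_fintype_card, Fintype.card_subtype]
  have h1 : w * r * (Nat.card E - 1) ≤ ∑ e ∈ T, e.support.card := by
    have m1 : (1 : Perm α) ∈ T := by simp [T]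
    rw [← hT, ← Finset.card_erase_of_mem m1, mul_comm, ← smul_eq_mul]
    refine (Finset.card_nsmul_le_sum _ (fun e : Perm α => e.support.card) _ fun e he => ?_).trans
      (Finset.sum_le_sum_of_subset (Finset.erase_subset _ _))
    have k : e ∈ E := by simpa [T] using Finset.mem_of_mem_erase he
    exact h e (hle k) (Finset.ne_of_mem_erase he) (hE.pow_eq_one hr k)
  have h2 : ∑ e ∈ T, e.support.card = ∑ u ∈ (fx E)ᶜ, (T.filter fun e => e u ≠ u).card := by
    simp only [Finset.card_filter]
    rw [Finset.sum_comm]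
    refine Finset.sum_congr rfl fun e he => ?_
    rw [← Finset.card_filter]
    congr 1
    ext u
    simp only [Perm.mem_support, Finset.mem_filter, Finset.mem_compl]
    exact ⟨fun k => ⟨fun c => k (mem_fx.1 c e (by simpa [T] using he)), k⟩, fun k => k.2⟩
  have h3 : ∀ u, r * (T.filter fun e => e u ≠ u).card ≤ (r - 1) * Nat.card E := fun u => by
    have k1 := Finset.card_filter_add_card_filter_not (s := T) fun e : Perm α => e u = u
    have k2 : (T.filter fun e : Perm α => e u = u).card = Nat.card (St E u) := by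
      rw [Nat.card_eq_fintype_card, Fintype.card_subtype]
      congr 1
      ext e
      simp [T, mem_St]
    have k3 := hE.card_le hr u
    rw [k2, hT] at k1
    have k4 : r * Nat.card (St E u) + r * (T.filter fun e => e u ≠ u).card = r * Nat.card E := by
      rw [← mul_add]; exact congrArg _ k1
    rw [Nat.sub_one_mul]
    omega
  refine (Nat.mul_le_mul_left _ h1).trans ?_
  rw [h2, Finset.mul_sum, ← Finset.card_compl, ← smul_eq_mul]
  exact Finset.sum_le_card_nsmul _ _ _ fun u _ => h3 u

/-- Plotkin bound -/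
theorem plotkin {G : Subgroup (Perm α)} {r w : ℕ} (hr : r.Prime) (h : MinS G r w) (a : ℕ) :
    Rk G r (pc (Fintype.card α / r) w r a + a) := by
  intro E hle hE
  obtain ⟨E1, h1, h2, h3⟩ := first hr (pc (Fintype.card α / r) w r a) hE
  rw [pow_add]
  refine h2.trans (Nat.mul_le_mul_left _ ?_)
  have r0 := hr.pos
  have r1 := hr.one_lt
  by_cases hb : E1 = ⊥
  · rw [hb, Subgroup.card_bot]; exact Nat.one_le_pow _ _ r0
  replace h3 := h3.resolve_left hb
  have hE1 := hE.mono h1
  have k1 := plo_sum hr h (h1.trans hle) hE1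
  have k0 : (fx E1).card < Fintype.card α :=
    (Finset.card_lt_iff_ne_univ _).2 fun e => hb (fx_eq_univ.1 e)
  rw [pc] at h3
  set m := w / r ^ a + 1 with hm
  set Sb := (w * r - m) / (r - 1) with hSb
  have k2 : Fintype.card α - (fx E1).card ≤ Sb * r := by
    have e1 := Nat.div_add_mod (Fintype.card α) r
    have e2 : Fintype.card α / r * r ≤ (Fintype.card α / r - Sb) * r + Sb * r := by
      rw [← add_mul]; exact Nat.mul_le_mul_right _ (by omega)
    rw [mul_comm] at e1
    omega
  have k3 : Sb * (r - 1) ≤ w * r - m := Nat.div_mul_le_self _ _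
  have k4 : m ≤ w * r := by
    by_contra c
    have : Sb = 0 := by rw [hSb, Nat.sub_eq_zero_of_le (by omega), Nat.zero_div]
    rw [this] at k2
    omega
  have : Fact r.Prime := ⟨hr⟩
  obtain ⟨j, hj⟩ := hE1.1.exists_card_eq
  rw [hj] at k1 ⊢
  by_contra c
  have k5 : r ^ a * r ≤ r ^ j := by
    rw [← pow_succ]
    exact Nat.pow_le_pow_right r0 ((Nat.pow_lt_pow_iff_right r1).1 (not_le.1 c))
  have k6 : w < r ^ a * m := Nat.lt_mul_div_succ _ (pow_pos r0 a)
  generalize r ^ j = N at *
  have k7 : w * r * (N - 1) ≤ (w * r - m) * N := by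
    refine Nat.le_of_mul_le_mul_left (k1.trans ?_) r0
    calc _ ≤ Sb * r * ((r - 1) * N) := Nat.mul_le_mul_right _ k2
      _ = r * (Sb * (r - 1) * N) := by ring
      _ ≤ _ := Nat.mul_le_mul_left _ (Nat.mul_le_mul_right _ k3)
  have N1 : 1 ≤ N := le_trans (Nat.mul_pos (pow_pos r0 a) r0) k5
  have k8 : m * N ≤ w * r := by
    zify [N1, k4] at k7 ⊢
    linarith
  have k9 : r ^ a * m * r ≤ w * r := le_trans (by nlinarith) k8
  exact absurd (Nat.le_of_mul_le_mul_right k9 r0) (not_le.2 k6)

theorem rk_rk {G : Subgroup (Perm α)} {r : ℕ} (hr : r.Prime) {D : Dt}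
    (h1 : Ch2 G r D.c1 D.c2 D.dl) (h2 : MinS G r D.w) : Rk G r (rk (Fintype.card α) r D) := by
  rw [rk]
  induction List.range 6 with
  | nil => exact h1.rk hr.pos
  | cons a l ih =>
    rw [List.foldr_cons]
    rcases min_choice (pc (Fintype.card α / r) D.w r a + a)
      (l.foldr (fun a m => min (pc (Fintype.card α / r) D.w r a + a) m) (D.c1 + D.c2)) with e | e <;> rw [e]
    exacts [plotkin hr h2 a, ih]

/-- Singleton bound for a subgroup with many fixed points -/
theorem sing_fix {G E : Subgroup (Perm α)} {r w L : ℕ} (hr : r.Prime) (h : MinS G r w)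
    (hle : E ≤ G) (hE : Sm r E) (hL : Fintype.card α < (fx E).card + (L + 1) * r) :
    Nat.card E ≤ r ^ (L + 1 - w) := by
  obtain ⟨E1, h1, h2, h3⟩ := desc hr (L + 1 - w) (fun i => (fx E).card + i * r) hE (by simp)
    fun E' k1 k2 i _ k3 => by
      obtain ⟨x, hx⟩ : ∃ x, x ∉ fx E' := by
        by_contra hc
        push Not at hc
        exact k2 (fx_eq_univ.1 (Finset.eq_univ_iff_forall.2 hc))
      have := (hE.mono k1).fx_St hr hx
      refine ⟨x, hx, ?_⟩
      simp only [add_mul, one_mul] at k3 ⊢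
      omega
  by_cases hb : E1 = ⊥
  · rwa [hb, Subgroup.card_bot, mul_one] at h2
  replace h3 := h3.resolve_left hb
  obtain ⟨⟨e, he⟩, e1⟩ := Subgroup.ne_bot_iff_exists_ne_one.1 hb
  have k1 := h e (hle (h1 he)) (fun c => e1 (Subtype.ext c)) ((hE.mono h1).pow_eq_one hr he)
  have k2 := plo_supp he
  have k3 : (L + 1) * r ≤ (L + 1 - w) * r + w * r := by
    rw [← add_mul]; exact Nat.mul_le_mul_right _ (by omega)
  omega

end CfsgLib.KP3
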