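import Cfsg.Agent.Lib.KP3.Lay
import Cfsg.Agent.Lib.KP3.Hs
import Cfsg.Agent.Lib.KP3.Plo

/-! Centralisers acting on the non-trivial cycles. -/

set_option autoImplicit false

namespace CfsgLib.KP3

open Equiv Finset CfsgLib.Psx
open CfsgLib.KPerm (kap rep cyc)
open scoped Classical

universe u

variable {α : Type u} [Fintype α]

theorem fix_kk {X Y : Type*} [Group X] [Group Y] [Finite X] (φ : X →* Y) :
    kk X ≤ kk φ.ker * kk φ.range := by
  have : Finite φ.range := Finite.of_surjective _ φ.rangeRestrict_surjective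
  refine (Fgs.card_conjClasses_le_mul_quotient φ.ker).trans (Nat.mul_le_mul_left _ ?_)
  exact KPerm.k_le_of_surj (QuotientGroup.quotientKerEquivRange φ).symm.toMonoidHom
    (QuotientGroup.quotientKerEquivRange φ).symm.surjective

omit [Fintype α] in
theorem fix_zp {r k : ℕ} {y : Perm α} (hy : y ^ r ^ k = 1) : IsPGroup r (Subgroup.zpowers y) :=
  Invol.isPGroup_zpowers_of_pow_eq_one hy

theorem fix_foldr (g : ℕ → ℕ) (w x : ℕ) (hw : w ≤ x) (l : List ℕ) (hx : x ∈ l) :
    g x ≤ l.foldr (fun x m => if w ≤ x then max (g x) m else m) 0 := by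
  induction l with
  | nil => simp at hx
  | cons a l ih =>
    rw [List.foldr_cons]
    rcases List.mem_cons.1 hx with rfl | h
    · rw [if_pos hw]; exact le_max_left _ _
    · split_ifs
      exacts [(ih h).trans (le_max_right _ _), ih h]

open Pointwise KPerm in
/-- the action of a group commuting with `y` on the non-trivial cycles of `y` -/
theorem cyc_act {r k : ℕ} (hr : r.Prime) {y : Perm α} (hy : y ^ r ^ k = 1) {X : Type*} [Group X]
    (ι : X →* Perm α) (hc : ∀ x, Commute (ι x) y) :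
    ∃ (β : Type u) (_ : Fintype β) (ψ : X →* Perm β), Fintype.card β * r ≤ y.support.card ∧
      ∀ x ∈ ψ.ker, ∀ a ∈ y.support, (ι x ^ r ^ k) a = a := by
  have := Fact.mk hr
  have key : ∀ (c : Subgroup.centralizer {y}) (a : α),
      c • orb (Subgroup.zpowers y) a = orb (Subgroup.zpowers y) (c • a) := fun c a => by
    have h := orb_conj (c : Perm α) y a
    rw [Subgroup.mem_centralizer_singleton_iff.1 c.2, mul_inv_cancel_right] at h
    exact h.symm
  let S : SubMulAction (Subgroup.centralizer {y}) (Finset α) :=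
    ⟨(y.support.image (orb (Subgroup.zpowers y)) : Finset (Finset α)), fun c B hB => by
      obtain ⟨a, ha, rfl⟩ := mem_image.1 (mem_coe.1 hB)
      refine mem_coe.2 (mem_image.2 ⟨c • a, Perm.mem_support.2 fun h => Perm.mem_support.1 ha ?_,
        (key c a).symm⟩)
      have h1 := Equiv.congr_fun (Subgroup.mem_centralizer_singleton_iff.1 c.2) a
      exact (c : Perm α).injective (h1.trans h)⟩
  let φ := MulAction.toPermHom (Subgroup.centralizer {y}) S
  let I : Fintype S := inferInstanceAs (Fintype (y.support.image (orb (Subgroup.zpowers y)) :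
    Finset (Finset α)))
  let j : X →* Subgroup.centralizer {y} :=
    ι.codRestrict _ fun x => Subgroup.mem_centralizer_singleton_iff.2 (hc x).eq
  refine ⟨S, I, φ.comp j, ?_, fun x hx a ha => ?_⟩
  · have h3 := mul_cyc_le (Δ := y.support) (fix_zp hy) (fun g hg a ha => by
      obtain ⟨k, rfl⟩ := hg
      exact Perm.zpow_apply_mem_support.2 ha) fun a ha => Perm.mem_support.1 ha
    rw [mul_comm] at h3
    exact (Nat.mul_le_mul_right _ (Fintype.card_coe _).le).trans h3
  have h1 := congrArg Subtype.val (Equiv.congr_fun (MonoidHom.mem_ker.1 hx)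
    ⟨_, mem_coe.2 (mem_image_of_mem _ ha)⟩)
  have h2 : orb (Subgroup.zpowers y) (j x • a) = orb (Subgroup.zpowers y) a :=
    (key (j x) a).symm.trans h1
  obtain ⟨i, hi⟩ := mem_orb_zpowers.1 (h2 ▸ self_mem_orb _ (j x • a))
  have h3 : ∀ m : ℕ, ι x ^ m • a = (y ^ i) ^ m • a := fun m => by
    induction m with
    | zero => simp
    | succ m ih =>
      rw [pow_succ', mul_smul, ih, ← mul_smul, (((hc x).pow_right i).pow_right m).eq, mul_smul,
        pow_succ, mul_smul, hi]
      rfl
  refine (h3 _).trans ?_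
  rw [← pow_mul, mul_comm, pow_mul, hy, one_pow, one_smul]

theorem cb_one {G : Subgroup (Perm α)} {r : ℕ} (hr : r.Prime) (h4 : Deg4 G)
    (h1 : Fintype.card α < 2 * r) (h2 : Fintype.card α < r + 4) : CB G r fun _ => ((1 : ℕ) : ℝ) := by
  rintro y y1 ⟨k, hk⟩
  have hy : (y : Perm α) ^ r ^ k = 1 := congrArg Subtype.val hk
  obtain ⟨β, _, ψ, hβ, hψ⟩ := cyc_act hr hy
    (G.subtype.comp (Subgroup.centralizer ({y} : Set G)).subtype) fun x =>
      congrArg Subtype.val (Subgroup.mem_centralizer_singleton_iff.1 x.2)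
  have hn := card_le_univ (y : Perm α).support
  have hs : r ≤ (y : Perm α).support.card := Nat.le_of_dvd (Nat.pos_of_ne_zero fun h =>
    y1 (Subtype.ext (Perm.card_support_eq_zero.1 h))) (KPerm.dvd_card_support hr (fix_zp hy))
  have : Subsingleton β := Fintype.card_le_one_iff_subsingleton.1 (by
    by_contra h
    have := Nat.mul_le_mul_right r (show 2 ≤ Fintype.card β by omega)
    omega)
  refine Nat.cast_le.2 ((KPerm.kap_le_of_surj hr le_rfl (1 : _ →* PUnit.{1})
    (fun _ => ⟨1, rfl⟩) fun x => ⟨k, Subtype.ext (Subtype.ext ?_)⟩).trans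
    ((KPerm.kap_le_card _).trans ((KPerm.k_le_card _).trans Nat.card_unique.le)))
  by_contra h
  have h5 := h4 _ (x.1.1 ^ r ^ k).2 fun e => h (Subtype.ext e)
  have h6 : ((x.1.1 : Perm α) ^ r ^ k).support ⊆ (y : Perm α).supportᶜ := fun a ha =>
    mem_compl.2 fun hb => Perm.mem_support.1 ha (hψ x.1 (Subsingleton.elim _ _) a hb)
  have h7 := card_le_card h6
  rw [Finset.card_compl] at h7
  rw [Subgroup.coe_pow] at h5
  omega

theorem k2f {G Q : Subgroup (Perm α)} {w2 f : ℕ} (h : MinS G 2 w2) (hle : Q ≤ G)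
    (hQ : IsPGroup 2 Q) (hf : Fintype.card α ≤ (fx Q).card + f) : kk Q ≤ K2f f w2 := by
  unfold K2f
  split_ifs with hw
  · refine (KPerm.k_le_card _).trans (Subgroup.card_eq_one.2 (eq_bot_iff.2 fun g hg => ?_)).le
    by_contra g1
    obtain ⟨k, hk⟩ := hQ ⟨g, hg⟩
    have h1 := h.pow (hle hg) g1 (congrArg Subtype.val hk)
    have h2 := card_le_card (show g.support ⊆ (fx Q)ᶜ from fun a ha =>
      mem_compl.2 fun hb => Perm.mem_support.1 ha (mem_fx.1 hb g hg))
    rw [Finset.card_compl] at h2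
    omega
  obtain ⟨β, _, φ, hβ, hS, -⟩ := layer Nat.prime_two Q hQ
  have h1 := card_le_card (fx_mono (Subgroup.map_subtype_le φ.ker))
  have h2 := sing_fix (L := f / 2) Nat.prime_two h ((Subgroup.map_subtype_le φ.ker).trans hle) hS
    (by omega)
  rw [Subgroup.card_subtype, show f / 2 + 1 - w2 = f / 2 - w2 + 1 by omega] at h2
  exact (fix_kk φ).trans (Nat.mul_le_mul ((KPerm.k_le_card _).trans h2)
    ((k2_le _ (hQ.of_surjective _ φ.rangeRestrict_surjective)).trans (b2_mono (by omega))))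

theorem cb_fix {G : Subgroup (Perm α)} {w w2 : ℕ} (h2 : MinS G 2 w2) (h3 : MinS G 3 w) :
    CB G 3 fun _ => (fixW (Fintype.card α) w w2 : ℝ) := by
  rintro y y1 ⟨k, hk⟩
  have hy : (y : Perm α) ^ 3 ^ k = 1 := congrArg Subtype.val hk
  obtain ⟨Q⟩ : Nonempty (Sylow 2 (Subgroup.centralizer ({y} : Set G))) := inferInstance
  have h4 : kap (Subgroup.centralizer ({y} : Set G)) 3 ≤ kk Q.toSubgroup := by
    refine (KPerm.kap_le_sum Nat.prime_two Q.toSubgroup.subtype fun x ⟨j, hj⟩ => ?_).trans ?_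
    · obtain ⟨g, hg⟩ := Invol.exists_conj_mem_sylow_of_isPGroup Q
        (Invol.isPGroup_zpowers_of_pow_eq_one (hj ▸ pow_orderOf_eq_one x))
      exact ⟨g, ⟨_, hg x (Subgroup.mem_zpowers x)⟩, rfl⟩
    · refine (sum_le_card_nsmul _ _ 1 fun L _ => KPerm.kap_two).trans ?_
      rw [smul_eq_mul, mul_one, card_univ, kk, Nat.card_eq_fintype_card]
  let ι : Q.toSubgroup →* Perm α :=
    G.subtype.comp ((Subgroup.centralizer ({y} : Set G)).subtype.comp Q.toSubgroup.subtype)
  have hι : Function.Injective ι := fun a b e => Subtype.ext (Subtype.ext (Subtype.ext e))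
  obtain ⟨β, _, ψ, hβ, hψ⟩ := cyc_act Nat.prime_three hy ι fun x =>
    congrArg Subtype.val (Subgroup.mem_centralizer_singleton_iff.1 x.1.2)
  obtain ⟨x, hx⟩ := KPerm.dvd_card_support Nat.prime_three (fix_zp hy)
  have hn := card_le_univ (y : Perm α).support
  have hw := h3.pow y.2 (fun e => y1 (Subtype.ext e)) hy
  have h5 : (y : Perm α).support ⊆ fx (ψ.ker.map ι) := fun a ha => mem_fx.2 (by
    rintro _ ⟨g, hg, rfl⟩
    obtain ⟨j, hj⟩ := Q.2 g
    obtain ⟨m, hm⟩ := (mem_zpowers_pow_iff (g := ι g) (k := 3 ^ k)).2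
      (Nat.Coprime.coprime_dvd_right (orderOf_dvd_of_pow_eq_one (by rw [← map_pow, hj, map_one]))
        (Nat.Coprime.pow k j (by norm_num)))
    rw [← hm]
    exact Perm.zpow_apply_eq_self_of_apply_eq_self (hψ g hg a ha) m)
  have h6 := card_le_card h5
  have h7 := k2f (Q := ψ.ker.map ι) (f := Fintype.card α - 3 * x) h2
    (by rintro _ ⟨g, -, rfl⟩; exact g.1.1.2) ((Q.2.to_subgroup _).map ι) (by omega)
  refine Nat.cast_le.2 (h4.trans ((fix_kk ψ).trans (le_trans ?_ (fix_foldr
    (fun x => K2f (Fintype.card α - 3 * x) w2 * b2 x) w x (by omega) _ (List.mem_range.2 (by omega))))))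
  exact Nat.mul_le_mul ((KPerm.k_le_of_surj (ψ.ker.equivMapOfInjective ι hι).symm.toMonoidHom
    (ψ.ker.equivMapOfInjective ι hι).symm.surjective).trans h7)
    ((k2_le _ (Q.2.of_surjective _ ψ.rangeRestrict_surjective)).trans (b2_mono (by omega)))

end CfsgLib.KP3
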