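import Cfsg.Agent.Lib.KP3.Chn

/-! Weight enumerators along a chain. -/

set_option autoImplicit false

namespace CfsgLib.KP3

open Equiv Finset CfsgLib.Psx
open CfsgLib.KPerm (kap rep cyc)
open scoped Classical

universe u

variable {α : Type u} [Fintype α]

theorem gf_two {ϑ : ℝ} (h0 : 0 ≤ ϑ) (h1 : ϑ ≤ 1) {d a b : ℕ} (h : a + b ≤ d) :
    ϑ ^ (d - a) + ϑ ^ (d - b) ≤ ϑ ^ (d - (a + b)) + ϑ ^ d := by
  obtain ⟨c, rfl⟩ := Nat.exists_eq_add_of_le h
  have e1 : a + b + c - a = b + c := by omega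
  have e2 : a + b + c - b = a + c := by omega
  have e3 : a + b + c - (a + b) = c := by omega
  rw [e1, e2, e3, pow_add, pow_add, pow_add, pow_add]
  have ha : ϑ ^ a ≤ 1 := pow_le_one₀ h0 h1
  have hb : ϑ ^ b ≤ 1 := pow_le_one₀ h0 h1
  have hc : 0 ≤ ϑ ^ c := pow_nonneg h0 c
  nlinarith [mul_nonneg hc (mul_nonneg (sub_nonneg.2 ha) (sub_nonneg.2 hb))]

theorem gf_sum {ϑ : ℝ} (h0 : 0 ≤ ϑ) (h1 : ϑ ≤ 1) (d : ℕ) (f : ℕ → ℕ) (n : ℕ)
    (h : ∑ k ∈ range n, f k ≤ d) :
    ∑ k ∈ range n, ϑ ^ (d - f k) ≤ ϑ ^ (d - ∑ k ∈ range n, f k) + ((n : ℝ) - 1) * ϑ ^ d := by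
  induction n with
  | zero => simp
  | succ n ih =>
    rw [sum_range_succ] at h
    rw [sum_range_succ, sum_range_succ]
    have := ih (le_trans (Nat.le_add_right _ _) h)
    have := gf_two h0 h1 h
    push_cast
    linarith

theorem gf_prod {r : ℕ} (hr : 1 ≤ r) {ϑ : ℝ} (h0 : 0 ≤ ϑ) (δ : ℕ) :
    1 ≤ 1 + ((r : ℝ) - 1) * ϑ ^ δ := by
  have : (1 : ℝ) ≤ r := by exact_mod_cast hr
  have := mul_nonneg (sub_nonneg.2 this) (pow_nonneg h0 δ)
  linarith

theorem gf_one_le {r : ℕ} (hr : 1 ≤ r) {ϑ : ℝ} (h0 : 0 ≤ ϑ) (l : List ℕ) :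
    1 ≤ (l.map fun δ => 1 + ((r : ℝ) - 1) * ϑ ^ (δ * r)).prod := by
  induction l with
  | nil => simp
  | cons δ l ih =>
    rw [List.map_cons, List.prod_cons]
    exact one_le_mul_of_one_le_of_one_le (gf_prod hr h0 _) ih

theorem gf_bot {ϑ : ℝ} (y : Perm α) :
    ∑ e ∈ KPerm.E (⊥ : Subgroup (Perm α)),
      ϑ ^ ((fx (⊥ : Subgroup (Perm α)))ᶜ.filter fun u => (y * e) u ≠ u).card = 1 := by
  have h1 : KPerm.E (⊥ : Subgroup (Perm α)) = {1} := by
    ext g; simp
  rw [h1, fx_eq_univ.2 rfl]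
  simp

theorem gf_pow_mem {r : ℕ} (hr : r.Prime) {E1 : Subgroup (Perm α)} {g : Perm α} (hg : g ^ r = 1)
    (hn : g ∉ E1) {i : ℕ} (hi : i < r) (h : g ^ i ∈ E1) : i = 0 := by
  by_contra hi0
  have hc : Nat.Coprime i r :=
    (hr.coprime_iff_not_dvd.2 (Nat.not_dvd_of_pos_of_lt (Nat.pos_of_ne_zero hi0) hi)).symm
  obtain ⟨m, -, hm⟩ := Nat.exists_mul_mod_eq_one_of_coprime hc hr.one_lt
  apply hn
  have : g = (g ^ i) ^ m := by
    rw [← pow_mul, pow_eq_pow_mod (i * m) hg, hm, pow_one]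
  rw [this]
  exact pow_mem h m

/-- coset decomposition -/
theorem gf_dec {r : ℕ} (hr : r.Prime) {E E1 : Subgroup (Perm α)} (hle : E1 ≤ E)
    (hc : Nat.card E ≤ r * Nat.card E1) {g : Perm α} (hg : g ^ r = 1) (hgE : g ∈ E) (hn : g ∉ E1) :
    Set.InjOn (fun p : ℕ × Perm α => g ^ p.1 * p.2) ↑(range r ×ˢ KPerm.E E1) ∧
      KPerm.E E = (range r ×ˢ KPerm.E E1).image fun p : ℕ × Perm α => g ^ p.1 * p.2 := by
  have key : ∀ i j : ℕ, i ≤ j → j < r → ∀ a ∈ E1, ∀ b ∈ E1, g ^ i * a = g ^ j * b → i = j := by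
    intro i j hij hj a ha b hb h
    obtain ⟨c, rfl⟩ := Nat.exists_eq_add_of_le hij
    have h2 : g ^ c = a * b⁻¹ := by
      rw [pow_add, mul_assoc] at h
      rw [mul_left_cancel h]; group
    have := gf_pow_mem hr hg hn (i := c) (by omega) (h2 ▸ E1.mul_mem ha (E1.inv_mem hb))
    omega
  have hinj : Set.InjOn (fun p : ℕ × Perm α => g ^ p.1 * p.2) ↑(range r ×ˢ KPerm.E E1) := by
    rintro ⟨i, a⟩ hi ⟨j, b⟩ hj h
    simp only [coe_product, Set.mem_prod, mem_coe, mem_range, KPerm.mem_E] at hi hj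
    have hij : i = j := by
      rcases le_total i j with h' | h'
      · exact key i j h' hj.1 a hi.2 b hj.2 h
      · exact (key j i h' hi.1 b hj.2 a hi.2 h.symm).symm
    subst hij
    have : a = b := mul_left_cancel h
    rw [this]
  refine ⟨hinj, (eq_of_subset_of_card_le ?_ ?_).symm⟩
  · intro x hx
    obtain ⟨⟨i, a⟩, hp, rfl⟩ := mem_image.1 hx
    simp only [mem_product, mem_range, KPerm.mem_E] at hp
    exact KPerm.mem_E.2 (E.mul_mem (pow_mem hgE i) (hle hp.2))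
  · rw [card_image_of_injOn hinj, card_product, card_range, KPerm.card_E, KPerm.card_E]
    exact hc

theorem gf {r : ℕ} (hr : r.Prime) {ϑ : ℝ} (h0 : 0 ≤ ϑ) (h1 : ϑ ≤ 1) (l : List ℕ) :
    ∀ E : Subgroup (Perm α), Sm r E → Chain r l E → ∀ y : Perm α,
      ∑ e ∈ KPerm.E E, ϑ ^ ((fx E)ᶜ.filter fun u => (y * e) u ≠ u).card ≤
        (l.map fun δ => 1 + ((r : ℝ) - 1) * ϑ ^ (δ * r)).prod := by
  induction l with
  | nil =>
    intro E _ hC y
    have : E = ⊥ := hC
    subst this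
    rw [gf_bot]; simp
  | cons δ l ih =>
    intro E hE hC y
    rcases hC with rfl | ⟨E1, hle, hc, hf, hC⟩
    · rw [gf_bot]; exact gf_one_le hr.one_le h0 _
    rw [List.map_cons, List.prod_cons]
    have hP := gf_one_le hr.one_le h0 l
    have hF := gf_prod hr.one_le h0 (δ * r)
    by_cases hEE : E ≤ E1
    · have : E1 = E := le_antisymm hle hEE
      subst this
      exact (ih E1 hE hC y).trans (le_mul_of_one_le_left (by linarith) hF)
    obtain ⟨g, hgE, hn⟩ := SetLike.not_le_iff_exists.1 hEE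
    have hg := hE.pow_eq_one hr hgE
    obtain ⟨hinj, hdec⟩ := gf_dec hr hle hc hg hgE hn
    have hsub : fx E ⊆ fx E1 := fx_mono hle
    set D := fx E1 \ fx E with hD
    have hmv : ∀ u ∈ D, g u ≠ u := by
      intro u hu hgu
      obtain ⟨hu1, hu2⟩ := mem_sdiff.1 hu
      apply hu2
      refine mem_fx.2 fun e he => ?_
      have he' := KPerm.mem_E.2 he
      rw [hdec] at he'
      obtain ⟨⟨i, a⟩, hp, rfl⟩ := mem_image.1 he'
      simp only [mem_product, mem_range, KPerm.mem_E] at hp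
      rw [Perm.mul_apply, mem_fx.1 hu1 a hp.2]
      exact Perm.pow_apply_eq_self_of_apply_eq_self hgu i
    set f : ℕ → ℕ := fun k => (D.filter fun u => (y * g ^ k) u = u).card with hf'
    have hfs : ∑ k ∈ range r, f k ≤ D.card := by
      rw [hf', ← card_biUnion]
      · exact card_le_card (biUnion_subset.2 fun k _ => filter_subset _ _)
      · intro i hi j hj hij
        refine disjoint_left.2 fun u hu hu' => hij ?_
        obtain ⟨hu1, hu2⟩ := mem_filter.1 hu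
        obtain ⟨-, hu3⟩ := mem_filter.1 hu'
        refine pow_apply_inj hr hg (hmv u hu1) (mem_range.1 hi) (mem_range.1 hj) ?_
        apply y.injective
        rw [Perm.mul_apply] at hu2 hu3
        rw [hu2, hu3]
    have hcnt : ∀ k : ℕ, ∀ a ∈ E1,
        ((fx E)ᶜ.filter fun u => (y * (g ^ k * a)) u ≠ u).card =
          (D.card - f k) + ((fx E1)ᶜ.filter fun u => (y * g ^ k * a) u ≠ u).card := by
      intro k a ha
      have e1 : ((fx E)ᶜ.filter fun u => (y * (g ^ k * a)) u ≠ u) =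
          (D.filter fun u => ¬ (y * g ^ k) u = u) ∪
            ((fx E1)ᶜ.filter fun u => (y * g ^ k * a) u ≠ u) := by
        ext u
        simp only [mem_filter, mem_compl, mem_union, hD, mem_sdiff, ← mul_assoc]
        by_cases hu : u ∈ fx E1
        · have : (y * g ^ k * a) u = (y * g ^ k) u := by
            rw [Perm.mul_apply, mem_fx.1 hu a ha]
          rw [this]; tauto
        · have : u ∉ fx E := fun h => hu (hsub h)
          tauto
      rw [e1, card_union_of_disjoint]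
      · congr 1
        have := card_filter_add_card_filter_not (s := D) (fun u => (y * g ^ k) u = u)
        simp only [hf']
        omega
      · refine disjoint_left.2 fun u hu hu' => ?_
        exact mem_compl.1 (mem_filter.1 hu').1 (mem_sdiff.1 (mem_filter.1 hu).1).1
    have hDc : δ * r ≤ D.card := by
      rw [hD, card_sdiff_of_subset hsub]; omega
    rw [hdec, sum_image hinj, sum_product]
    calc ∑ k ∈ range r, ∑ a ∈ KPerm.E E1,
          ϑ ^ ((fx E)ᶜ.filter fun u => (y * (g ^ k * a)) u ≠ u).card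
        = ∑ k ∈ range r, ϑ ^ (D.card - f k) * ∑ a ∈ KPerm.E E1,
          ϑ ^ ((fx E1)ᶜ.filter fun u => (y * g ^ k * a) u ≠ u).card := by
          refine sum_congr rfl fun k _ => ?_
          rw [mul_sum]
          refine sum_congr rfl fun a ha => ?_
          rw [hcnt k a (KPerm.mem_E.1 ha), pow_add]
      _ ≤ ∑ k ∈ range r, ϑ ^ (D.card - f k) *
            (l.map fun δ => 1 + ((r : ℝ) - 1) * ϑ ^ (δ * r)).prod :=
          sum_le_sum fun k _ => mul_le_mul_of_nonneg_left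
            (ih E1 (hE.mono hle) hC (y * g ^ k)) (pow_nonneg h0 _)
      _ ≤ _ := by
          rw [← sum_mul]
          refine mul_le_mul_of_nonneg_right ?_ (by linarith)
          refine (gf_sum h0 h1 D.card f r hfs).trans (add_le_add (pow_le_one₀ h0 h1) ?_)
          have : (1 : ℝ) ≤ r := by exact_mod_cast hr.one_le
          exact mul_le_mul_of_nonneg_left (pow_le_pow_of_le_one h0 h1 hDc) (by linarith)

theorem gf2 {G E : Subgroup (Perm α)} {r c1 c2 δ : ℕ} (hr : r.Prime) (h : Ch2 G r c1 c2 δ)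
    (hle : E ≤ G) (hE : Sm r E) {σ : ℝ} (h0 : 0 < σ) (h1 : σ ≤ 1) (y : Perm α)
    (hd : ∀ e ∈ E, r ∣ (y * e).support.card) :
    ∑ e ∈ KPerm.E E, σ ^ ((y * e).support.card / r) ≤ GF r σ c1 c2 δ := by
  set ϑ : ℝ := σ ^ ((r : ℝ)⁻¹) with hϑ
  have hϑr : ϑ ^ r = σ := Real.rpow_inv_natCast_pow h0.le hr.ne_zero
  have t0 : 0 ≤ ϑ := Real.rpow_nonneg h0.le _
  have t1 : ϑ ≤ 1 := Real.rpow_le_one h0.le h1 (by positivity)
  have := gf hr t0 t1 _ E hE (h E hle hE) y
  refine le_trans (sum_le_sum fun e he => ?_) (this.trans (le_of_eq ?_))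
  · obtain ⟨m, hm⟩ := hd e (KPerm.mem_E.1 he)
    rw [hm, Nat.mul_div_cancel_left _ hr.pos, ← hϑr, ← pow_mul, ← hm]
    refine pow_le_pow_of_le_one t0 t1 (card_le_card fun u hu => ?_)
    exact Perm.mem_support.2 (mem_filter.1 hu).2
  · rw [List.map_append, List.prod_append, List.map_replicate, List.map_replicate,
      List.prod_replicate, List.prod_replicate, GF, one_mul, hϑr, mul_comm δ r, pow_mul, hϑr]

theorem gf_w {G E : Subgroup (Perm α)} {r w : ℕ} (hr : r.Prime) (hw : MinS G r w) (hle : E ≤ G)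
    (hE : Sm r E) {e : Perm α} (he : e ∈ (KPerm.E E).erase 1) : w ≤ e.support.card / r := by
  obtain ⟨h1, h2⟩ := mem_erase.1 he
  have h2 := KPerm.mem_E.1 h2
  exact (Nat.le_div_iff_mul_le hr.pos).2 (hw e (hle h2) h1 (hE.pow_eq_one hr h2))

theorem pe_rk {G : Subgroup (Perm α)} {r ρ w : ℕ} (hr : r.Prime) (h : Rk G r ρ) (hw : MinS G r w)
    {s : ℝ} (h0 : 0 ≤ s) (h1 : s ≤ 1) : PE G r s (s ^ w * ((r : ℝ) ^ ρ - 1)) := by
  intro E hle hE
  refine (sum_le_card_nsmul _ _ (s ^ w) fun e he =>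
    pow_le_pow_of_le_one h0 h1 (gf_w hr hw hle hE he)).trans ?_
  rw [nsmul_eq_mul, mul_comm, card_erase_of_mem (KPerm.mem_E.2 E.one_mem), KPerm.card_E]
  refine mul_le_mul_of_nonneg_left ?_ (pow_nonneg h0 _)
  have hp : 1 ≤ Nat.card E := Nat.card_pos
  have : (Nat.card E : ℝ) ≤ (r : ℝ) ^ ρ := by exact_mod_cast h E hle hE
  rw [Nat.cast_sub hp]; push_cast; linarith

theorem pe_gf {G : Subgroup (Perm α)} {r c1 c2 δ w : ℕ} (hr : r.Prime) (h : Ch2 G r c1 c2 δ)
    (hw : MinS G r w) {s σ : ℝ} (h0 : 0 < s) (h1 : s ≤ σ) (h2 : σ ≤ 1) :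
    PE G r s ((s / σ) ^ w * (GF r σ c1 c2 δ - 1)) := by
  intro E hle hE
  have hσ : 0 < σ := lt_of_lt_of_le h0 h1
  have hq0 : 0 ≤ s / σ := by positivity
  have hq1 : s / σ ≤ 1 := (div_le_one hσ).2 h1
  have hg := gf2 hr h hle hE hσ h2 1 (fun e he => by
    obtain ⟨X, hX, -⟩ := cyc_reps hr (hE.pow_eq_one hr he)
    rw [one_mul, hX]; exact dvd_mul_left _ _)
  simp only [one_mul] at hg
  rw [← add_sum_erase _ _ (KPerm.mem_E.2 E.one_mem)] at hg
  simp only [Perm.support_one, card_empty, Nat.zero_div, pow_zero] at hg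
  calc ∑ e ∈ (KPerm.E E).erase 1, s ^ (e.support.card / r)
      ≤ ∑ e ∈ (KPerm.E E).erase 1, (s / σ) ^ w * σ ^ (e.support.card / r) := by
        refine sum_le_sum fun e he => ?_
        have : s ^ (e.support.card / r) = (s / σ) ^ (e.support.card / r) * σ ^ (e.support.card / r) := by
          rw [← mul_pow, div_mul_cancel₀ _ hσ.ne']
        rw [this]
        exact mul_le_mul_of_nonneg_right (pow_le_pow_of_le_one hq0 hq1 (gf_w hr hw hle hE he))
          (pow_nonneg hσ.le _)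
    _ ≤ _ := by
        rw [← mul_sum]
        exact mul_le_mul_of_nonneg_left (by linarith) (pow_nonneg hq0 _)

theorem one_le_GF {r c1 c2 δ : ℕ} (hr : 1 ≤ r) {σ : ℝ} (h0 : 0 ≤ σ) : 1 ≤ GF r σ c1 c2 δ := by
  have h1 := gf_prod hr h0 1
  rw [pow_one] at h1
  exact one_le_mul_of_one_le_of_one_le (one_le_pow₀ h1) (one_le_pow₀ (gf_prod hr h0 δ))

end CfsgLib.KP3
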