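import Cfsg.Agent.Lib.KP3.Defs

/-! Very large degrees and few blocks. -/

set_option autoImplicit false

namespace CfsgLib.KP3

open Equiv Finset CfsgLib.Psx
open CfsgLib.KPerm (kap rep cyc)
open scoped Classical

universe u

variable {α : Type u} [Fintype α]

theorem huu_bern (x d m : ℕ) : x ^ m * (x + (m + 1) * d) ≤ (x + d) ^ (m + 1) := by
  induction m with
  | zero => simp
  | succ m ih =>
    calc x ^ (m + 1) * (x + (m + 1 + 1) * d) = x ^ m * (x * (x + (m + 1 + 1) * d)) := by ring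
      _ ≤ x ^ m * ((x + (m + 1) * d) * (x + d)) := Nat.mul_le_mul_left _ (by nlinarith [Nat.zero_le (m * d * d), Nat.zero_le (d * d)])
      _ = x ^ m * (x + (m + 1) * d) * (x + d) := by ring
      _ ≤ (x + d) ^ (m + 1) * (x + d) := Nat.mul_le_mul_right _ ih
      _ = (x + d) ^ (m + 1 + 1) := by ring

theorem huu_two {E N : ℕ} (h : 2 * E ≤ 3 * N) : 2 ^ E ≤ 3 ^ N := by
  refine (Nat.pow_le_pow_iff_left two_ne_zero).1 ?_
  calc (2 ^ E) ^ 2 = 2 ^ (2 * E) := by ring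
    _ ≤ 2 ^ (3 * N) := Nat.pow_le_pow_right (by norm_num) h
    _ = 8 ^ N := by rw [pow_mul]; norm_num
    _ ≤ 9 ^ N := Nat.pow_le_pow_left (by norm_num) _
    _ = (3 ^ N) ^ 2 := by rw [← pow_mul, mul_comm, pow_mul]; norm_num

theorem huu_four (L : ℕ) (hL : 22 ≤ L) : 14 * (L + 1) ^ 4 ≤ 2 ^ L := by
  induction L, hL using Nat.le_induction with
  | base => norm_num
  | succ L hL ih =>
    have h1 : (L + 1 + 1) ^ 4 ≤ 2 * (L + 1) ^ 4 := by
      obtain ⟨j, rfl⟩ := Nat.exists_eq_add_of_le hL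
      ring_nf
      nlinarith [Nat.zero_le j, Nat.zero_le (j ^ 2), Nat.zero_le (j ^ 3), Nat.zero_le (j ^ 4)]
    rw [pow_succ 2]; omega

theorem huu_sq (L : ℕ) (hL : 9 ≤ L) : 8 * ((L + 1) * (L + 6)) + 3 ≤ 3 * 2 ^ L := by
  induction L, hL using Nat.le_induction with
  | base => norm_num
  | succ L hL ih => rw [pow_succ 2]; nlinarith

theorem huu_lt {a n L : ℕ} (h : a ≤ n) (hn : n < 2 ^ (L + 1)) : a * (a - 1) < 2 ^ (2 * L + 2) := by
  calc a * (a - 1) ≤ n * n := Nat.mul_le_mul h (by omega)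
    _ < 2 ^ (L + 1) * 2 ^ (L + 1) := Nat.mul_lt_mul'' hn hn
    _ = 2 ^ (2 * L + 2) := by ring

theorem huge_u {n t : ℕ} (hn : 2 ^ 22 ≤ n) (h1 : 1 ≤ t) (ht : t ≤ 6) :
    ∃ d b, LowD (n + 1 - t) d ∧
      (n + 1 - t) * (n + 1 - t - 1) * (n + 1 - t - d) ^ b < (n + 1 - t) ^ b ∧
      (n ^ (t - 1 + b)) ^ 2 ≤ 3 ^ (n - 1) := by
  obtain ⟨L, hL⟩ : ∃ L, L = Nat.log 2 n := ⟨_, rfl⟩
  have hn1 : n < 2 ^ (L + 1) := hL ▸ Nat.lt_pow_succ_log_self (by norm_num) n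
  have hn0 : 2 ^ L ≤ n := hL ▸ Nat.pow_log_le_self 2 (by omega)
  have hL22 : 22 ≤ L := by
    have : 2 ^ 22 < 2 ^ (L + 1) := lt_of_le_of_lt hn hn1
    have := (Nat.pow_lt_pow_iff_right (by norm_num : 1 < 2)).1 this
    omega
  have h4 := huu_four L hL22
  obtain ⟨n1, hn1'⟩ : ∃ n1, n1 = n + 1 - t := ⟨_, rfl⟩
  rw [← hn1']
  have ha : n1 ≤ n := by omega
  have hb : n ≤ n1 + 5 := by omega
  obtain ⟨s, hs⟩ : ∃ s, s = Nat.sqrt n1 := ⟨_, rfl⟩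
  have s1 : s * s ≤ n1 := hs ▸ Nat.sqrt_le n1
  have s2 : n1 < (s + 1) * (s + 1) := hs ▸ Nat.lt_succ_sqrt n1
  obtain ⟨v, hv⟩ : ∃ v, v = (L + 1) * (L + 1) := ⟨_, rfl⟩
  have v1 : 529 ≤ v := by nlinarith
  have v2 : 14 * (v * v) ≤ n := by
    have : v * v = (L + 1) ^ 4 := by rw [hv]; ring
    omega
  have v3 : 37 * v ≤ 10 * s := by
    by_contra hc
    have h5 : 10 * (s + 1) ≤ 37 * v + 10 := by omega
    have h6 := Nat.mul_le_mul h5 h5
    nlinarith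
  have s3 : 1900 ≤ s := by omega
  obtain ⟨d, hd⟩ : ∃ d, d = 4 * s / 5 := ⟨_, rfl⟩
  have d1 : 5 * d ≤ 4 * s := by omega
  have d2 : 4 * s ≤ 5 * d + 4 := by omega
  have d3 : d < n1 := by nlinarith
  obtain ⟨m, hm⟩ : ∃ m, m = n1 / d := ⟨_, rfl⟩
  have m1 : m * d ≤ n1 := hm ▸ Nat.div_mul_le_self n1 d
  have m2 : n1 < (m + 1) * d := by
    rw [hm, mul_comm]; exact Nat.lt_mul_div_succ n1 (by omega)
  have m3 : 10 * m ≤ 13 * s := by
    by_contra hc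
    have h5 : 13 * s ≤ 10 * m := by omega
    have h6 := Nat.mul_le_mul_right d h5
    have h7 := Nat.mul_le_mul_left s d2
    have e5 : 1900 * s ≤ s * s := Nat.mul_le_mul_right _ s3
    have e1 : 13 * s * d = 13 * (s * d) := by ring
    have e2 : 10 * m * d = 10 * (m * d) := by ring
    have e3 : s * (4 * s) = 4 * (s * s) := by ring
    have e4 : s * (5 * d + 4) = 5 * (s * d) + 4 * s := by ring
    have e6 : (s + 1) * (s + 1) = s * s + 2 * s + 1 := by ring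
    omega
  refine ⟨d, (m + 1) * (2 * L + 2), fun d' h3 hDB _ => ?_, ?_, ?_⟩
  · by_contra hc
    have h5 : 5 * (d' + 1) ≤ 4 * s := by omega
    have h6 := Nat.mul_le_mul h5 h5
    rcases hDB with h7 | h7
    · have h8 : 3 * d' * (d' - 1) ≤ 3 * d' * d' := Nat.mul_le_mul_left _ (by omega)
      have h9 : 2 * n1 ≤ 3 * d' * d' + 2 := by omega
      nlinarith
    · nlinarith
  · obtain ⟨x, rfl⟩ := Nat.exists_eq_add_of_lt d3
    have e : d + x + 1 - d = x + 1 := by omega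
    rw [e]
    have h5 : 2 * (x + 1) ^ (m + 1) ≤ (d + x + 1) ^ (m + 1) := by
      calc 2 * (x + 1) ^ (m + 1) = (x + 1) ^ m * (x + 1 + (x + 1)) := by ring
        _ ≤ (x + 1) ^ m * (x + 1 + (m + 1) * d) := Nat.mul_le_mul_left _ (by omega)
        _ ≤ (x + 1 + d) ^ (m + 1) := huu_bern _ _ _
        _ = _ := by congr 1; omega
    calc _ < 2 ^ (2 * L + 2) * (x + 1) ^ ((m + 1) * (2 * L + 2)) :=
          Nat.mul_lt_mul_of_pos_right (huu_lt ha hn1) (by positivity)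
      _ = (2 * (x + 1) ^ (m + 1)) ^ (2 * L + 2) := by rw [mul_pow, ← pow_mul]
      _ ≤ ((d + x + 1) ^ (m + 1)) ^ (2 * L + 2) := Nat.pow_le_pow_left h5 _
      _ = _ := by rw [← pow_mul]
  · calc _ ≤ ((2 ^ (L + 1)) ^ (t - 1 + (m + 1) * (2 * L + 2))) ^ 2 :=
          Nat.pow_le_pow_left (Nat.pow_le_pow_left hn1.le _) _
      _ = 2 ^ ((L + 1) * (t - 1 + (m + 1) * (2 * L + 2)) * 2) := by rw [← pow_mul, ← pow_mul, mul_assoc]
      _ ≤ _ := huu_two ?_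
    have e1 : (L + 1) * (t - 1 + (m + 1) * (2 * L + 2)) ≤ (L + 1) * (5 + (m + 1) * (2 * L + 2)) :=
      Nat.mul_le_mul_left _ (by omega)
    have e2 : (L + 1) * (5 + (m + 1) * (2 * L + 2)) = 5 * (L + 1) + 2 * (m * v) + 2 * v := by
      rw [hv]; ring
    have e3 : L + 1 ≤ v := by nlinarith
    have e4 := Nat.mul_le_mul m3 v3
    have e5 : 1900 * s ≤ s * s := Nat.mul_le_mul_right _ s3
    have e6 : 10 * m * (37 * v) = 370 * (m * v) := by ring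
    have e7 : 13 * s * (10 * s) = 130 * (s * s) := by ring
    omega

theorem large_i1 {n t k : ℕ} (hn : 700 ≤ n) (h1 : 2 ≤ t) (ht : t ≤ 6) (hk : 2 ≤ k)
    (hh : 2 * k + 1 ≤ n + 2 - t) (hm : (n + 2 - t - 1) / k ≤ 3) :
    ∃ b, (n + 2 - t) * (n + 2 - t - 1) * (k - 1) ^ b < (n + 2 - t) ^ b ∧
      (n ^ (t - 2) * ((n + 2 - t) * ((n + 2 - t - 1) / k).factorial) ^ b) ^ 2 ≤ 3 ^ (n - 1) := by
  obtain ⟨L, hL⟩ : ∃ L, L = Nat.log 2 n := ⟨_, rfl⟩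
  have hn1 : n < 2 ^ (L + 1) := hL ▸ Nat.lt_pow_succ_log_self (by norm_num) n
  have hn0 : 2 ^ L ≤ n := hL ▸ Nat.pow_log_le_self 2 (by omega)
  have hL9 : 9 ≤ L := by
    have : 2 ^ 9 < 2 ^ (L + 1) := lt_of_le_of_lt (by omega) hn1
    have := (Nat.pow_lt_pow_iff_right (by norm_num : 1 < 2)).1 this
    omega
  have h4 := huu_sq L hL9
  obtain ⟨n2, hn2⟩ : ∃ n2, n2 = n + 2 - t := ⟨_, rfl⟩
  rw [← hn2] at hh hm ⊢
  have ha : n2 ≤ n := by omega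
  refine ⟨2 * L + 2, ?_, ?_⟩
  · calc _ < 2 ^ (2 * L + 2) * (k - 1) ^ (2 * L + 2) :=
          Nat.mul_lt_mul_of_pos_right (huu_lt ha hn1) (Nat.pow_pos (by omega))
      _ = (2 * (k - 1)) ^ (2 * L + 2) := by rw [mul_pow]
      _ ≤ _ := Nat.pow_le_pow_left (by omega) _
  · have h5 : ((n2 - 1) / k).factorial ≤ 8 := (Nat.factorial_le hm).trans (by decide)
    have h6 : n2 * ((n2 - 1) / k).factorial ≤ 2 ^ (L + 4) := by
      calc _ ≤ 2 ^ (L + 1) * 8 := Nat.mul_le_mul (by omega) h5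
        _ = _ := by ring
    have h7 : n ^ (t - 2) ≤ (2 ^ (L + 1)) ^ 4 :=
      (Nat.pow_le_pow_left hn1.le _).trans (Nat.pow_le_pow_right (by positivity) (by omega))
    calc _ ≤ ((2 ^ (L + 1)) ^ 4 * (2 ^ (L + 4)) ^ (2 * L + 2)) ^ 2 :=
          Nat.pow_le_pow_left (Nat.mul_le_mul h7 (Nat.pow_le_pow_left h6 _)) _
      _ = 2 ^ (4 * ((L + 1) * (L + 6))) := by
          rw [← pow_mul, ← pow_mul, ← pow_add, ← pow_mul]; congr 1; ring
      _ ≤ _ := huu_two (by omega)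

end CfsgLib.KP3
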