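import Cfsg.Agent.Lib.KP3.Lay
import Cfsg.Agent.Lib.KP3.Hs
import Cfsg.Agent.Lib.KP3.Plo

/-! Class numbers of the `r`-subgroups. -/

set_option autoImplicit false

namespace CfsgLib.KP3

open Equiv Finset CfsgLib.Psx
open CfsgLib.KPerm (kap rep cyc)
open scoped Classical

universe u

variable {α : Type u} [Fintype α]

theorem kr_layer {G P : Subgroup (Perm α)} {r ρ : ℕ} (hr : r.Prime) (h : Rk G r ρ) (hle : P ≤ G)
    (hP : IsPGroup r P) : ∃ (β : Type u) (_ : Fintype β) (Q : Subgroup (Perm β)), IsPGroup r Q ∧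
      Fintype.card β ≤ Fintype.card α / r ∧ kk P ≤ r ^ ρ * kk Q ∧
      Nat.card P ≤ r ^ ρ * Nat.card Q := by
  obtain ⟨β, _, f, h1, h2, -⟩ := layer hr P hP
  have h3 : Nat.card f.ker ≤ r ^ ρ := by
    rw [← Subgroup.card_map_of_injective P.subtype_injective]
    exact h _ ((Subgroup.map_subtype_le _).trans hle) h2
  refine ⟨β, inferInstance, f.range, hP.of_surjective _ f.rangeRestrict_surjective,
    (Nat.le_div_iff_mul_le hr.pos).2 (by omega), ?_, ?_⟩
  · exact (Fgs.card_conjClasses_le_mul_quotient f.ker).trans (Nat.mul_le_mul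
      ((KPerm.k_le_card _).trans h3) (KPerm.k_le_of_surj
        (QuotientGroup.quotientKerEquivRange f).symm.toMonoidHom (MulEquiv.surjective _)))
  · rw [← f.ker.card_mul_index, Subgroup.index_ker]
    exact Nat.mul_le_mul_right _ h3

theorem kall_two {G : Subgroup (Perm α)} {ρ : ℕ} (h : Rk G 2 ρ) :
    KAll G 2 (2 ^ ρ * b2 (Fintype.card α / 2)) := by
  intro P hle hP
  obtain ⟨β, _, Q, hQ, h1, h2, -⟩ := kr_layer Nat.prime_two h hle hP
  exact h2.trans (Nat.mul_le_mul_left _ ((k2_le Q hQ).trans (b2_mono h1)))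

theorem kall_odd {G : Subgroup (Perm α)} {r ρ : ℕ} (hr : r.Prime) (h3 : 3 ≤ r) (h : Rk G r ρ) :
    KAll G r (r ^ (ρ + Fintype.card α / r / r)) := by
  intro P hle hP
  obtain ⟨β, _, Q, hQ, h1, h2, -⟩ := kr_layer hr h hle hP
  rw [pow_add]
  exact h2.trans (Nat.mul_le_mul_left _ ((kodd_le hr h3 Q hQ).trans
    (Nat.pow_le_pow_right hr.pos (Nat.div_le_div_right h1))))

theorem kall_not_dvd {G : Subgroup (Perm α)} {r : ℕ} (hr : r.Prime) (h : ¬ r ∣ Nat.card G) :
    KAll G r 1 := by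
  intro P hle hP
  have := Fact.mk hr
  refine (KPerm.k_le_card _).trans ?_
  rcases hP.card_eq_or_dvd with e | e
  · exact e.le
  · exact absurd (e.trans (Subgroup.card_dvd_of_le hle)) h

theorem kall_big {G : Subgroup (Perm α)} {r w : ℕ} (hr : r.Prime) (h : MinS G r w)
    (hw : Fintype.card α / r < w) : KAll G r 1 := by
  intro P hle hP
  refine (KPerm.k_le_card _).trans (Subgroup.card_eq_one.2 (eq_bot_iff.2 fun g hg => ?_)).le
  by_contra h1
  obtain ⟨k, hk⟩ := hP ⟨g, hg⟩
  have h2 := h.pow (hle hg) h1 (k := k) (congrArg Subtype.val hk)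
  exact hw.not_ge ((Nat.le_div_iff_mul_le hr.pos).2 (h2.trans (card_le_univ _)))

theorem kk_nonab {P : Type*} [Group P] [Finite P] {r : ℕ} (hr : r.Prime) (hP : IsPGroup r P)
    (hc : ∃ a b : P, a * b ≠ b * a) : kk P * r ^ 3 ≤ Nat.card P * (r * r + r - 1) := by
  have := Fact.mk hr
  have := Fintype.ofFinite P
  have := Fintype.ofFinite (ConjClasses P)
  obtain ⟨a, b, hab⟩ := hc
  have h1 : Nat.card (Subgroup.center P) * (r * r) ≤ Nat.card P := by
    obtain ⟨j, hj⟩ := hP.index (Subgroup.center P)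
    rw [← (Subgroup.center P).card_mul_index, hj, ← sq]
    refine Nat.mul_le_mul_left _ (Nat.pow_le_pow_right hr.pos (not_lt.1 fun h2 => hab ?_))
    have : IsCyclic (P ⧸ Subgroup.center P) := isCyclic_of_card_dvd_prime (p := r) (by
      rw [← Subgroup.index, hj]
      interval_cases j <;> simp)
    exact (isMulCommutative_of_isCyclic_quotient_center_self P).is_comm.comm a b
  have h2 : Nat.card P * kk P = ∑ x : P, Nat.card (Subgroup.centralizer ({x} : Set P)) := by
    have := KPerm.card_mul_sum_rep (X := P) (fun _ => 1) fun _ _ => rfl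
    simp only [sum_const, card_univ, nsmul_eq_mul, mul_one, ← Nat.card_eq_fintype_card] at this
    exact_mod_cast this
  obtain ⟨s, rfl⟩ : ∃ s, r = s + 1 := ⟨r - 1, (Nat.sub_add_cancel hr.pos).symm⟩
  have h3 : ∀ x : P, Nat.card (Subgroup.centralizer ({x} : Set P)) * (s + 1) ≤
      Nat.card P + if x ∈ Subgroup.center P then Nat.card P * s else 0 := fun x => by
    split_ifs with hx
    · rw [add_comm (Nat.card P), ← Nat.mul_succ]
      exact Nat.mul_le_mul_right _ (Subgroup.card_le_card_group _)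
    · obtain ⟨j, hj⟩ := hP.index (Subgroup.centralizer ({x} : Set P))
      rw [add_zero, ← (Subgroup.centralizer ({x} : Set P)).card_mul_index, hj]
      refine Nat.mul_le_mul_left _ (Nat.le_self_pow (fun e => hx ?_) _)
      rw [e, pow_zero, Subgroup.index_eq_one] at hj
      exact Subgroup.mem_center_iff.2 fun g =>
        Subgroup.mem_centralizer_singleton_iff.1 (hj ▸ Subgroup.mem_top g)
  have h4 := sum_le_sum fun x (_ : x ∈ (univ : Finset P)) => h3 x
  rw [← sum_mul, ← h2, sum_add_distrib, ← sum_filter, sum_const, sum_const, card_univ,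
    ← Nat.card_eq_fintype_card, ← Fintype.card_subtype, ← Nat.card_eq_fintype_card, smul_eq_mul,
    smul_eq_mul, mul_assoc, mul_left_comm _ (Nat.card P) s, ← mul_add] at h4
  have h5 := Nat.le_of_mul_le_mul_left h4 Nat.card_pos
  have h6 := Nat.mul_le_mul_right ((s + 1) * (s + 1)) h5
  have h7 := Nat.mul_le_mul_right s h1
  rw [show (s + 1) * (s + 1) + (s + 1) - 1 = (s + 1) * (s + 1) + s from rfl]
  nlinarith

theorem kall_nab {G : Subgroup (Perm α)} {r ρ w : ℕ} (hr : r.Prime) (h : Rk G r ρ)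
    (hw : MinS G r w) (h1 : Fintype.card α < r ^ 3) (h2 : Fintype.card α < r * r + w * r) :
    KAll G r (nab r ρ (ρ + Fintype.card α / r / r)) := by
  intro P hle hP
  have := Fact.mk hr
  by_cases hc : ∃ a b : P, a * b ≠ b * a
  · refine le_max_of_le_right ((Nat.le_div_iff_mul_le (pow_pos hr.pos 3)).2
      ((kk_nonab hr hP hc).trans (Nat.mul_le_mul_right _ ?_)))
    obtain ⟨β, _, Q, hQ, h3, -, h4⟩ := kr_layer hr h hle hP
    rw [pow_add]
    refine h4.trans (Nat.mul_le_mul_left _ (KPerm.card_le_pow hr hQ (KPerm.card_dvd_fac Q) ?_))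
    have h5 : Fintype.card β < r ^ 2 :=
      h3.trans_lt ((Nat.div_lt_iff_lt_mul hr.pos).2 (by rwa [← pow_succ]))
    rw [hr.pow_dvd_factorial_iff (Nat.log_lt_of_lt_pow' two_ne_zero h5)]
    simpa [Nat.lt_succ_iff] using Nat.div_le_div_right h3
  refine (KPerm.k_le_card _).trans (le_max_of_le_left ?_)
  by_cases hs : Sm r P
  · exact le_max_of_le_left (h P hle hs)
  refine le_max_of_le_right ?_
  obtain ⟨x, hx⟩ := not_forall.1 fun e => hs ⟨hP, e⟩
  rw [show {y | ∃ e ∈ P, e x = y} = (KPerm.orb P x : Set α) from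
    Set.ext fun y => KPerm.mem_orb.symm, Set.ncard_coe_finset, not_le] at hx
  obtain ⟨k, hk⟩ := KPerm.card_orb_pow hP x
  have h3 : k = 2 := by
    have h4 := (card_le_univ _).trans_lt h1 |> hk.ge.trans_lt
    rw [hk, ← pow_one r, ← pow_mul, one_mul] at hx
    rw [Nat.pow_lt_pow_iff_right hr.one_lt] at hx h4
    omega
  have h4 : P ⊓ KPerm.fx (Perm α) {x} = ⊥ := eq_bot_iff.2 fun g hg => by
    by_contra h5
    obtain ⟨j, hj⟩ := hP ⟨g, hg.1⟩
    have h6 := hw.pow (hle hg.1) h5 (k := j) (congrArg Subtype.val hj)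
    have h7 : g.support ⊆ (KPerm.orb P x)ᶜ := fun y hy => mem_compl.2 fun h8 => by
      obtain ⟨e, he, rfl⟩ := KPerm.mem_orb.1 h8
      have h9 : g * e = e * g :=
        congrArg Subtype.val (not_not.1 fun h9 => hc ⟨⟨g, hg.1⟩, ⟨e, he⟩, h9⟩)
      refine Perm.mem_support.1 hy ?_
      change (g * e) x = e x
      rw [h9, Perm.mul_apply]
      exact congrArg e (KPerm.mem_fx.1 hg.2 x (mem_singleton_self x))
    have h8 := card_le_card h7
    have h9 := card_le_univ (KPerm.orb P x)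
    rw [Finset.card_compl, hk, h3, sq] at h8
    rw [hk, h3, sq] at h9
    omega
  have h5 := KPerm.card_orb_mul P x
  rw [h4, hk, h3, KPerm.card_E, KPerm.card_E, Subgroup.card_bot, mul_one, sq] at h5
  exact h5.ge

theorem kall_KK {G : Subgroup (Perm α)} {p0 r : ℕ} (hr : r.Prime) (h0 : ¬ p0 ∣ Nat.card G) {D : Dt}
    (h1 : Ch2 G r D.c1 D.c2 D.dl) (h2 : MinS G r D.w) :
    KAll G r (KK (Fintype.card α) p0 r D) := by
  have h3 := rk_rk hr h1 h2
  have h4 : KAll G r (K0 (Fintype.card α) r (rk (Fintype.card α) r D)) := by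
    rw [K0]
    split_ifs with e
    · subst e
      exact fun P hle hP => le_min (k2_le P hP) (kall_two h3 P hle hP)
    · exact kall_odd hr (lt_of_le_of_ne hr.two_le (Ne.symm e)) h3
  rw [KK]
  split_ifs with e1 e2
  · exact e1.elim (fun e => kall_not_dvd hr (e ▸ h0)) (kall_big hr h2)
  · exact fun P hle hP => le_min (h4 P hle hP) (kall_nab hr h3 h2 e2.1 e2.2 P hle hP)
  · exact h4

theorem kall_KL {G : Subgroup (Perm α)} {p0 r : ℕ} (hr : r.Prime) (h0 : ¬ p0 ∣ Nat.card G)
    {D : ℕ → Dt} (h : Loc G D) : KAll G r (KL (Fintype.card α) p0 D r) := by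
  have h3 := (h r hr).1.rk hr.pos
  rw [KL]
  split_ifs with e1 e2
  · exact kall_not_dvd hr (e1 ▸ h0)
  · subst e2
    exact kall_two h3
  · exact kall_odd hr (lt_of_le_of_ne hr.two_le (Ne.symm e2)) h3

end CfsgLib.KP3
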