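import Cfsg.Agent.Lib.KP3.Defs
import Cfsg.Agent.Lib.Psx.Lay

/-! The bottom layer of an `r`-group of permutations. -/

set_option autoImplicit false

namespace CfsgLib.KP3

open Equiv Finset CfsgLib.Psx
open CfsgLib.KPerm (kap rep cyc)
open scoped Classical

universe u

variable {α : Type u} [Fintype α]

omit [Fintype α] in
theorem lay_pg {r k : ℕ} {y : Perm α} (hy : y ^ r ^ k = 1) : IsPGroup r (Subgroup.zpowers y) := fun g => ⟨k, by
  obtain ⟨_, i, rfl⟩ := g
  exact Subtype.ext (by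
    simp only [SubgroupClass.coe_pow, OneMemClass.coe_one]
    rw [← zpow_natCast, ← zpow_mul, mul_comm, zpow_mul, zpow_natCast, hy, one_zpow])⟩

theorem lay_cyc {β : Type u} [Fintype β] {r : ℕ} (y : Perm α) (y' : Perm β) (M : Finset α)
    (blk : β → Finset α) (hb : ∀ b, (blk b).card ≤ r) (hM : ∀ x ∈ M, ∃ b, ∀ k : ℕ, (y ^ k) x ∈ blk ((y' ^ k) b)) :
    r * df y' + cyc M y ≤ r * Fintype.card β := by
  have h1 : df y' + cyc (univ : Finset β) y' = Fintype.card β := Nat.sub_add_cancel (KPerm.cyc_le univ y')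
  rw [← h1, mul_add, add_le_add_iff_left]
  have h2 : ∀ C : Finset β, ∃ B : Finset α, B.card ≤ r ∧ (C.Nonempty → ∃ b ∈ C, blk b = B) := fun C => by
    by_cases h : C.Nonempty
    · obtain ⟨b, hb'⟩ := h
      exact ⟨_, hb b, fun _ => ⟨b, hb', rfl⟩⟩
    · exact ⟨∅, by simp, fun k => absurd k h⟩
  choose b hb1 hb2 using h2
  rw [mul_comm]
  refine (card_le_card (t := (univ.image (KPerm.orb (Subgroup.zpowers y'))).biUnion
    fun C => (b C).image (KPerm.orb (Subgroup.zpowers y))) fun O hO => ?_).trans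
    (card_biUnion_le_card_mul _ _ _ fun C _ => card_image_le.trans (hb1 C))
  obtain ⟨x, hx, rfl⟩ := mem_image.1 hO
  obtain ⟨c, hc⟩ := hM x hx
  obtain ⟨B, hB, e⟩ := hb2 _ ⟨_, KPerm.self_mem_orb (Subgroup.zpowers y') c⟩
  obtain ⟨k, rfl⟩ := KPerm.mem_orb_zpowers.1 hB
  exact mem_biUnion.2 ⟨_, mem_image_of_mem _ (mem_univ _), mem_image.2 ⟨_, e ▸ hc k,
    KPerm.orb_eq (KPerm.mem_orb_zpowers.2 ⟨k, rfl⟩)⟩⟩

open Pointwise in
theorem layer {r : ℕ} (hr : r.Prime) (P : Subgroup (Perm α)) (hP : IsPGroup r P) :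
    ∃ (β : Type u) (_ : Fintype β) (f : P →* Perm β),
      Fintype.card β * r + (fx P).card ≤ Fintype.card α ∧ Sm r (f.ker.map P.subtype) ∧
        ∀ g : P, r * df (f g) ≤ df (g : Perm α) := by
  have := Fact.mk hr
  obtain ⟨z, hz1, hz2, hz3⟩ := lay_z hr P hP
  have key : ∀ (c : P) (a : α),
      c • KPerm.orb (Subgroup.zpowers z) a = KPerm.orb (Subgroup.zpowers z) (c • a) := fun c a => by
    have h := KPerm.orb_conj (c : Perm α) z a
    rw [(hz2 c c.2).eq, mul_inv_cancel_right] at h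
    exact h.symm
  have mv : ∀ (c : P) (a : α), a ∈ (fx P)ᶜ → c • a ∈ (fx P)ᶜ := fun c a ha =>
    mem_compl.2 fun h => mem_compl.1 ha (mem_fx.2 fun e he => c.1.injective (by
      simpa [Subgroup.smul_def] using mem_fx.1 h _ (P.mul_mem (P.mul_mem c.2 he) (P.inv_mem c.2))))
  let S : SubMulAction P (Finset α) :=
    ⟨((fx P)ᶜ.image (KPerm.orb (Subgroup.zpowers z)) : Finset (Finset α)), fun c B hB => by
      obtain ⟨a, ha, rfl⟩ := mem_image.1 (mem_coe.1 hB)
      exact mem_coe.2 (mem_image.2 ⟨c • a, mv c a ha, (key c a).symm⟩)⟩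
  let I : Fintype S := inferInstanceAs (Fintype ((fx P)ᶜ.image (KPerm.orb (Subgroup.zpowers z)) :
    Finset (Finset α)))
  have hr' : ∀ a : α, (KPerm.orb (Subgroup.zpowers z) a).card ≤ r := fun a => by
    have h1 := KPerm.card_orb_mul (Subgroup.zpowers z) a
    rw [KPerm.card_E (Subgroup.zpowers z), Nat.card_zpowers] at h1
    exact Nat.le_of_dvd hr.pos ((Dvd.intro _ h1).trans (orderOf_dvd_of_pow_eq_one hz1))
  have h1 : Fintype.card S * r + (fx P).card ≤ Fintype.card α := by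
    have h2 := KPerm.mul_cyc_le (p := r) (Δ := (fx P)ᶜ) (x := z)
      (lay_pg (k := 1) (by rwa [pow_one]))
      (by
        rintro _ ⟨k, rfl⟩ a ha
        refine mem_compl.2 fun h => mem_compl.1 ha (mem_fx.2 fun e he => (z ^ k).injective ?_)
        rw [← Perm.mul_apply, ← ((hz2 e he).zpow_right k).eq, Perm.mul_apply]
        exact mem_fx.1 h e he)
      fun a ha h => mem_compl.1 ha (mem_fx.2 fun e he => hz3 e he a h)
    have h3 : Fintype.card S = cyc (fx P)ᶜ z := Fintype.card_coe _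
    rw [card_compl] at h2
    have := card_le_univ (fx P)
    rw [h3, mul_comm]
    omega
  refine ⟨S, I, MulAction.toPermHom P S, h1, ⟨(hP.to_subgroup _).map _, fun x => ?_⟩, fun g => ?_⟩
  · refine (Set.ncard_le_ncard (t := KPerm.orb (Subgroup.zpowers z) x) ?_).trans
      (by rw [Set.ncard_coe_finset]; exact hr' x)
    rintro _ ⟨_, ⟨e, he, rfl⟩, rfl⟩
    by_cases hx : x ∈ fx P
    · exact (mem_fx.1 hx e e.2).symm ▸ KPerm.self_mem_orb _ x
    · have h2 := congrArg Subtype.val (Equiv.congr_fun (MonoidHom.mem_ker.1 he)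
        ⟨_, mem_coe.2 (mem_image_of_mem _ (mem_compl.2 hx))⟩)
      exact ((key e x).symm.trans h2).le (KPerm.self_mem_orb _ (e • x))
  · have h2 := lay_cyc (r := r) (g : Perm α) (MulAction.toPermHom P S g) (fx P)ᶜ Subtype.val
      (fun b => by
        obtain ⟨a, -, ha⟩ := mem_image.1 (mem_coe.1 b.2)
        rw [← ha]; exact hr' a)
      fun x hx => ⟨⟨_, mem_coe.2 (mem_image_of_mem _ hx)⟩, fun k => by
        rw [← map_pow]
        exact (key (g ^ k) x).ge (KPerm.self_mem_orb _ _)⟩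
    have h4 := KPerm.cyc_union_le (fx P) (fx P)ᶜ (g : Perm α)
    have h5 := KPerm.cyc_le (fx P) (g : Perm α)
    rw [union_compl] at h4
    rw [mul_comm] at h1
    refine Nat.le_sub_of_add_le ?_
    omega

theorem le_df {r k j : ℕ} (hr : r.Prime) {y : Perm α} (hy : y ^ r ^ k = 1)
    (hj : j * r ≤ y.support.card) : j * (r - 1) ≤ df y := by
  have := KPerm.cyc_add_le hr (lay_pg hy) hj
  rw [df]
  omega

theorem df_one : df (1 : Perm α) = 0 := by
  rw [df, KPerm.cyc_one, Nat.sub_self]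

theorem df_conj (g y : Perm α) : df (g * y * g⁻¹) = df y := by
  rw [df, df, KPerm.cyc_conj]

theorem cyc_lt {y : Perm α} (hy : y ≠ 1) :
    1 ≤ cyc (univ : Finset α) y ∧ cyc (univ : Finset α) y < Fintype.card α := by
  obtain ⟨a, ha⟩ : ∃ a, y a ≠ a := by
    by_contra! h
    exact hy (Equiv.ext h)
  refine ⟨card_pos.2 ⟨_, mem_image_of_mem _ (mem_univ a)⟩, (card_image_le.lt_of_ne fun h => ha ?_)⟩
  exact card_image_iff.1 h (mem_coe.2 (mem_univ _)) (mem_coe.2 (mem_univ _))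
    (KPerm.orb_eq (KPerm.mem_orb_zpowers.2 ⟨1, by simp⟩))

end CfsgLib.KP3
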