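import Cfsg.Agent.Lib.KP3.Ar

/-! Case I, large degree, many blocks. -/

set_option autoImplicit false

namespace CfsgLib.KP3

open Equiv Finset CfsgLib.Psx
open CfsgLib.KPerm (kap rep cyc)
open scoped Classical

universe u

variable {α : Type u} [Fintype α]

theorem lgi_le {a : ℝ} {p q : ℕ} (hq : q ≠ 0) (h : a ^ q ≤ 3 ^ p) : a ≤ (3 : ℝ) ^ ((p : ℝ) / q) := by
  refine le_of_pow_le_pow_left₀ hq (by positivity) ?_
  rwa [← Real.rpow_natCast ((3 : ℝ) ^ ((p : ℝ) / q)), ← Real.rpow_mul (by norm_num),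
    div_mul_cancel₀ _ (by exact_mod_cast hq), Real.rpow_natCast]

theorem lgi_pow {a l : ℝ} (ha : 0 ≤ a) (h : a ≤ (3 : ℝ) ^ l) (e : ℕ) : a ^ e ≤ (3 : ℝ) ^ (l * e) := by
  rw [Real.rpow_mul (by norm_num), Real.rpow_natCast]
  exact pow_le_pow_left₀ ha h e

theorem lgi_mono {x y : ℝ} (h : x ≤ y) : (3 : ℝ) ^ x ≤ (3 : ℝ) ^ y :=
  Real.rpow_le_rpow_of_exponent_le (by norm_num) h

theorem lgi_mul {a b x y z : ℝ} (hb : 0 ≤ b) (h1 : a ≤ (3 : ℝ) ^ x) (h2 : b ≤ (3 : ℝ) ^ y)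
    (h : x + y ≤ z) : a * b ≤ (3 : ℝ) ^ z := by
  refine le_trans (mul_le_mul h1 h2 hb (by positivity)) ?_
  rw [← Real.rpow_add (by norm_num)]
  exact lgi_mono h

theorem lgi_b2 (m : ℕ) : (b2 m : ℝ) ≤ (3 : ℝ) ^ (3 / 8 * (m : ℝ)) := by
  have := lgi_le (a := 14954 / 10000) (p := 3) (q := 8) (by norm_num) (by norm_num)
  exact (b2_le_pow m).trans (lgi_pow (by norm_num) (by exact_mod_cast this) m)

theorem lgi_sqrt (m : ℕ) : √3 ^ m = (3 : ℝ) ^ (1 / 2 * (m : ℝ)) := by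
  rw [Real.sqrt_eq_rpow, Real.rpow_mul (by norm_num), Real.rpow_natCast]

theorem lgi_log {n : ℕ} (hn : 700 ≤ n) : 64 * (Nat.log 2 n + 1) ≤ n ∧
    64 * ((Nat.log 2 n + 1) * (Nat.log 2 n + 3)) ≤ 11 * n := by
  have k : ∀ L, 10 ≤ L → 64 * (L + 1) ≤ 2 ^ L ∧ 64 * ((L + 1) * (L + 3)) ≤ 11 * 2 ^ L :=
    fun L hL => by
      induction L, hL using Nat.le_induction with
      | base => norm_num
      | succ L hL ih => rw [pow_succ]; constructor <;> nlinarith [ih.1, ih.2]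
  have l := Nat.pow_log_le_self 2 (show n ≠ 0 by omega)
  by_cases h : 10 ≤ Nat.log 2 n
  · have := k _ h
    omega
  · have : Nat.log 2 n ≤ 9 := by omega
    constructor
    · omega
    · nlinarith

theorem lgi_n {n r : ℕ} (h : r ≤ n + 1) : (r : ℝ) ≤ (3 : ℝ) ^ (16 / 25 * ((Nat.log 2 n + 1 : ℕ) : ℝ)) := by
  have h1 := lgi_le (a := 2) (p := 16) (q := 25) (by norm_num) (by norm_num)
  refine le_trans ?_ (lgi_pow (a := 2) (by norm_num) (by exact_mod_cast h1) _)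
  exact_mod_cast h.trans (Nat.lt_pow_succ_log_self (by norm_num) n)

theorem lgi_cube {r : ℕ} (h : 3 ≤ r) : (r : ℝ) ≤ (3 : ℝ) ^ ((r : ℝ) / 3) := by
  have : r ^ 3 ≤ 3 ^ r := by
    induction r, h using Nat.le_induction with
    | base => norm_num
    | succ r hr ih => rw [pow_succ 3 r]; nlinarith [Nat.mul_le_mul hr hr, Nat.mul_le_mul hr (Nat.mul_le_mul hr hr)]
  exact_mod_cast lgi_le (a := r) (p := r) (q := 3) (by norm_num) (by exact_mod_cast this)

theorem lgi_dat {n t k r : ℕ} (hn : 700 ≤ n) (h1 : 2 ≤ t) (ht : t ≤ 6) (hk : 2 ≤ k)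
    (hm : 4 ≤ (n + 2 - t - 1) / k) (hr : 3 ≤ r) :
    3 * (n - 4) ≤ 8 * ((dI n t k r).w * r) ∧ (dI n t k r).c2 ≤ Nat.log 2 n + 1 ∧
      ∃ x, 3 * x * (r * (r - 1)) ≤ n ∧ (dI n t k r).c1 * r ≤ (x + 2) * r + 3 := by
  rw [Nat.le_div_iff_mul_le (by omega)] at hm
  obtain ⟨m, hm2⟩ : ∃ m, m = n + 2 - t := ⟨_, rfl⟩
  have p1 : pm m k r ≤ k - 1 := min_le_left _ _
  have p2 : 3 * pm m k r * (r - 1) ≤ m := by
    have a : pm m k r * ((r - 1) * (m - k + 1)) ≤ m * (k - 1) :=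
      (Nat.mul_le_mul_right _ (min_le_right _ _)).trans (Nat.div_mul_le_self _ _)
    have b : 3 * (k - 1) ≤ m - k + 1 := by omega
    refine Nat.le_of_mul_le_mul_right (c := k - 1) (le_trans ?_ a) (by omega)
    calc _ = pm m k r * ((r - 1) * (3 * (k - 1))) := by ring
      _ ≤ _ := by gcongr
  refine ⟨?_, ?_, pm m k r / r, ?_, ?_⟩
  · have a : 8 * phI m k r ≤ 5 * m := by
      unfold phI
      split_ifs
      · have := min_le_right (m - r * k) ((m + k - (1 + r)) / 2)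
        rcases max_choice (pm m k r) (min (m - r * k) ((m + k - (1 + r)) / 2)) with e | e <;>
          rw [e] <;> omega
      · omega
    have b := le_cdiv_mul (a := m - phI m k r) (show 0 < r by omega)
    have c : cdiv (m - phI m k r) r * r ≤ (dI n t k r).w * r :=
      Nat.mul_le_mul_right _ (by rw [hm2]; exact le_max_left _ _)
    omega
  · change outs (n + 2 - t) k r (pm (n + 2 - t) k r + 1) ≤ _
    rw [← hm2]
    unfold outs
    split_ifs with c
    · omega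
    · rw [add_comm]
      refine Nat.succ_le_succ (Nat.log_mono_right ?_)
      have a : r * 2 ≤ r * k := Nat.mul_le_mul_left _ hk
      have b : 3 * k ≤ r * k := Nat.mul_le_mul_right _ hr
      refine Nat.div_le_of_le_mul (le_trans ?_ (Nat.mul_le_mul_right n (show 2 ≤ _ by omega)))
      omega
  · have := Nat.div_mul_le_self (pm m k r) r
    calc _ = 3 * (pm m k r / r * r) * (r - 1) := by ring
      _ ≤ 3 * pm m k r * (r - 1) := by gcongr
      _ ≤ n := by omega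
  · have a : (dI n t k r).c1 * r ≤ pm m k r + 1 + (t - 2) - n % r + r - 1 := by
      rw [hm2]; exact Nat.div_mul_le_self _ _
    have b := Nat.div_add_mod' (pm m k r) r
    have c := Nat.mod_lt (pm m k r) (show 0 < r by omega)
    rw [add_mul]
    omega

theorem lgi_KL (n p0 : ℕ) (D : ℕ → Dt) {r : ℕ} (hr : 3 ≤ r) :
    (KL n p0 D r : ℝ) ≤ (r : ℝ) ^ ((D r).c1 + (D r).c2 + n / r / r) := by
  have : KL n p0 D r ≤ r ^ ((D r).c1 + (D r).c2 + n / r / r) := by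
    unfold KL
    split_ifs
    · exact Nat.one_le_pow _ _ (by omega)
    · omega
    · rfl
  exact_mod_cast this

theorem lgi_big {n r x y e : ℕ} (hn : 700 ≤ n) (hr : r.Prime) (h4 : 4 ≤ r) (hrn : r ≤ n)
    (hx : 3 * x * (r * (r - 1)) ≤ n) (hy : y * r * r ≤ n) (he : e ≤ x + y + (Nat.log 2 n + 3)) :
    (r : ℝ) ^ e ≤ (3 : ℝ) ^ (136 / 1000 * (n : ℝ)) := by
  obtain ⟨l1, l2⟩ := lgi_log hn
  have r0 : (0 : ℝ) ≤ r := Nat.cast_nonneg r
  have small : ∀ (a p q : ℕ), a ≤ r → q ≠ 0 → r ^ q ≤ 3 ^ p →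
      (3 * x * (a * (a - 1)) ≤ n → y * a * a ≤ n → 1000 * p * e ≤ 136 * q * n) →
      (r : ℝ) ^ e ≤ (3 : ℝ) ^ (136 / 1000 * (n : ℝ)) := fun a p q ha hq h k => by
    have := k (le_trans (by gcongr) hx) (le_trans (by gcongr) hy)
    refine (lgi_pow r0 (lgi_le hq (by exact_mod_cast h)) e).trans (lgi_mono ?_)
    have q0 : (0 : ℝ) < q := by positivity
    rw [div_mul_eq_mul_div, div_le_iff₀ q0]
    have : (1000 : ℝ) * p * e ≤ 136 * q * n := by exact_mod_cast this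
    linarith
  by_cases c1 : r ≤ 6
  · obtain rfl : r = 5 := by
      interval_cases r <;> first | rfl | exact absurd hr (by norm_num)
    exact small 5 3 2 le_rfl (by norm_num) (by norm_num) fun a b => by omega
  by_cases c2 : r ≤ 9
  · exact small 7 2 1 (by omega) (by norm_num) (by rw [pow_one]; exact c2) fun a b => by omega
  by_cases c3 : r ≤ 27
  · exact small 10 3 1 (by omega) (by norm_num) (by rw [pow_one]; exact c3) fun a b => by omega
  refine (pow_le_pow_right₀ (by exact_mod_cast hr.one_le) he).trans ?_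
  rw [pow_add]
  refine lgi_mul (by positivity) (lgi_pow r0 (lgi_cube (by omega)) _)
    (lgi_pow r0 (lgi_n (n := n) (by omega)) _) ?_
  have a : 81 * (r * x) ≤ n := le_trans (by
    calc 81 * (r * x) = 3 * x * (r * 27) := by ring
      _ ≤ _ := by gcongr; omega) hx
  have b : 28 * (r * y) ≤ n := le_trans (by
    calc 28 * (r * y) = y * r * 28 := by ring
      _ ≤ _ := by gcongr; omega) hy
  have a' : (81 : ℝ) * (r * x) ≤ n := by exact_mod_cast a
  have b' : (28 : ℝ) * (r * y) ≤ n := by exact_mod_cast b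
  have c' : (64 : ℝ) * (((Nat.log 2 n + 1 : ℕ) : ℝ) * ((Nat.log 2 n + 3 : ℕ) : ℝ)) ≤ 11 * n := by
    exact_mod_cast l2
  rw [Nat.cast_add x y]
  have : (0 : ℝ) ≤ n := Nat.cast_nonneg n
  linarith

theorem large_i2 {n p0 t k : ℕ} (hn : 700 ≤ n) (h1 : 2 ≤ t) (ht : t ≤ 6) (hk : 2 ≤ k)
    (hm : 4 ≤ (n + 2 - t - 1) / k) :
    b2 n + KL n p0 (dI n t k) 3 * b2 (n - (3 - 1) * (dI n t k 3).w) +
      ∑ r ∈ (range (n + 1)).filter (fun r => r.Prime ∧ 4 ≤ r),
        KL n p0 (dI n t k) r * Fu (n - (r - 1) * (dI n t k r).w) ≤ Tl n := by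
  obtain ⟨l1, -⟩ := lgi_log hn
  have n0 : (700 : ℝ) ≤ n := by exact_mod_cast hn
  have a1 : (b2 n : ℝ) ≤ (3 : ℝ) ^ (1 / 2 * (n : ℝ) - 2) := (lgi_b2 n).trans (lgi_mono (by linarith))
  have a2 : (KL n p0 (dI n t k) 3 : ℝ) * b2 (n - (3 - 1) * (dI n t k 3).w) ≤
      (3 : ℝ) ^ (1 / 2 * (n : ℝ) - 2) := by
    obtain ⟨d1, d2, x, d3, d4⟩ := lgi_dat hn h1 ht hk hm (le_refl 3)
    refine lgi_mul (by positivity) ((lgi_KL n p0 _ le_rfl).trans
      (lgi_pow (l := 1) (by norm_num) (by norm_num) _)) (lgi_b2 _) ?_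
    generalize (dI n t k 3).w = w at *
    have : 8 * ((dI n t k 3).c1 + (dI n t k 3).c2 + n / 3 / 3) + 3 * (n - (3 - 1) * w) + 16 ≤ 4 * n := by
      omega
    have : (8 : ℝ) * ((dI n t k 3).c1 + (dI n t k 3).c2 + n / 3 / 3 : ℕ) +
      3 * (n - (3 - 1) * w : ℕ) + 16 ≤ 4 * n := by exact_mod_cast this
    linarith
  have a3 : ∀ r ∈ (range (n + 1)).filter (fun r => r.Prime ∧ 4 ≤ r),
      ((KL n p0 (dI n t k) r * Fu (n - (r - 1) * (dI n t k r).w) : ℕ) : ℝ) ≤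
        (3 : ℝ) ^ (49 / 100 * (n : ℝ) - 2) := fun r hr => by
    obtain ⟨r1, r2, r3⟩ := mem_filter.1 hr
    rw [mem_range] at r1
    obtain ⟨d1, d2, x, d3, d4⟩ := lgi_dat hn h1 ht hk hm (show 3 ≤ r by omega)
    have r5 : 5 ≤ r := by
      rcases r3.eq_or_lt with e | e
      · exact absurd (e ▸ r2) (by norm_num)
      · exact e
    have d5 : (dI n t k r).c1 ≤ x + 2 := by
      by_contra c
      have := Nat.mul_le_mul_right r (show x + 2 + 1 ≤ (dI n t k r).c1 by omega)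
      rw [add_mul (x + 2)] at this
      omega
    rw [Nat.cast_mul]
    refine lgi_mul (by positivity) ((lgi_KL n p0 _ (by omega)).trans (lgi_big (y := n / r / r) hn r2
      r3 (by omega) d3 ((Nat.mul_le_mul_right r (Nat.div_mul_le_self _ _)).trans
        (Nat.div_mul_le_self _ _)) (by omega))) ((Fu_le_sqrt _).trans (lgi_sqrt _).le) ?_
    generalize (dI n t k r).w = w at *
    have e1 : 4 * (w * r) ≤ 5 * ((r - 1) * w) := by
      obtain ⟨j, rfl⟩ := Nat.exists_eq_add_of_le r5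
      rw [show 5 + j - 1 = 4 + j by omega]; nlinarith
    have : 500 * (n - (r - 1) * w) + 2000 ≤ 354 * n := by omega
    have : (500 : ℝ) * (n - (r - 1) * w : ℕ) + 2000 ≤ 354 * n := by exact_mod_cast this
    linarith
  have a4 := sum_le_card_nsmul _ _ _ a3
  rw [nsmul_eq_mul, ← Nat.cast_sum] at a4
  have a5 := a4.trans (lgi_mul (z := 1 / 2 * (n : ℝ) - 2) (by positivity) (lgi_n (n := n)
    ((card_filter_le _ _).trans (card_range _).le)) le_rfl (by
      have : (64 : ℝ) * (Nat.log 2 n + 1 : ℕ) ≤ n := by exact_mod_cast l1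
      linarith))
  have a6 := sqrt_le_Tl (show 10 ≤ n by omega)
  rw [lgi_sqrt, show 1 / 2 * (n : ℝ) = 1 / 2 * (n : ℝ) - 2 + (2 : ℕ) by norm_num,
    Real.rpow_add (by norm_num), Real.rpow_natCast] at a6
  have a7 : (0 : ℝ) ≤ (3 : ℝ) ^ (1 / 2 * (n : ℝ) - 2) := by positivity
  have : ((b2 n + KL n p0 (dI n t k) 3 * b2 (n - (3 - 1) * (dI n t k 3).w) +
      ∑ r ∈ (range (n + 1)).filter (fun r => r.Prime ∧ 4 ≤ r),
        KL n p0 (dI n t k) r * Fu (n - (r - 1) * (dI n t k r).w) : ℕ) : ℝ) ≤ Tl n := by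
    rw [Nat.cast_add, Nat.cast_add, Nat.cast_mul]
    linarith
  exact_mod_cast this

end CfsgLib.KP3
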