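import Cfsg.Agent.Lib.KP3.Ar

/-! Case U, degrees from 700 to `2 ^ 22`. -/

set_option autoImplicit false

namespace CfsgLib.KP3

open Equiv Finset CfsgLib.Psx
open CfsgLib.KPerm (kap rep cyc)
open scoped Classical

universe u

variable {α : Type u} [Fintype α]

def lguMu (lo d r : ℕ) : ℕ := max d (min (r * r) (min (r * cdiv d 2) ((lo - 5) / 2)))

def lguP (r : ℕ) : Bool := [2, 3, 5, 7, 11, 13, 17, 19, 23].all fun p => r == p || r % p != 0

def lguE (lo d p0 n r : ℕ) : ℕ :=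
  if r = p0 then 0 else if r = 2 then 64 * (4 + n / lguMu lo d r) + 147 * (n / 8)
  else Nat.clog 3 (r ^ 100) * (cdiv 5 r + n / lguMu lo d r + n / (r * r))

def lguS (lo d p0 r : ℕ) : ℕ :=
  if r = p0 then 0 else if r = 2 then 64 * cdiv 1000000000 (lguMu lo d r) + 147 * cdiv 1000000000 8
  else Nat.clog 3 (r ^ 100) * (cdiv 1000000000 (lguMu lo d r) + cdiv 1000000000 (r * r))

def lguI (p0 r : ℕ) : ℕ :=
  if r = p0 then 0 else if r = 2 then 256 else Nat.clog 3 (r ^ 100) * cdiv 5 r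

def lguSum (R : ℕ) (f : ℕ → ℕ) : ℕ := ∑ r ∈ range (R + 1), if lguP r then f r else 0

/-- the numerical conditions for the degrees `lo ≤ n < hi` -/
def LguC (lo hi R d L : ℕ) : Prop :=
  (10 ≤ lo ∧ hi ≤ 2 ^ L ∧ 5 ≤ R ∧ 5 ≤ d ∧ d + 4 ≤ lo ∧ 3 * (d - 1) * (d - 1 - 1) < 2 * (lo - 5 - 1) ∧
    (d - 1) * (d - 1) + (d - 1) + 1 < lo - 5) ∧
  (∀ p0 ∈ [3, 5, 7], lguSum R (lguS lo d p0) ≤ 50 * 1000000000 ∧
    1000000000 * (lguSum R (lguI p0) + 200) + lo * lguSum R (lguS lo d p0) ≤ 50 * 1000000000 * lo) ∧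
  (∀ r < d + 1, R < r → lguP r = true → (r - 1) * cdiv (lguMu lo d r) r ≤ lo ∧
    r ^ (1 + hi / lguMu lo d r + hi / (r * r)) * (3 * 2 ^ L) ≤
      3 ^ ((r - 1) * cdiv (lguMu lo d r) r / 2)) ∧
  0 < min (d * cdiv d 2) ((lo - 5) / 2) ∧
  (2 ^ L) ^ (1 + hi / min (d * cdiv d 2) ((lo - 5) / 2) + hi / (d * d)) * (3 * 2 ^ L) ≤
    3 ^ (min (d * cdiv d 2) ((lo - 5) / 2) / 3)

instance lguDec (lo hi R d L : ℕ) : Decidable (LguC lo hi R d L) := by
  unfold LguC; infer_instance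

theorem lgu_p {r : ℕ} (hr : r.Prime) : lguP r = true := by
  simp only [lguP, List.all_eq_true, Bool.or_eq_true, beq_iff_eq, bne_iff_ne]
  intro p hp
  by_contra hc
  push Not at hc
  rcases (Nat.dvd_prime hr).1 (Nat.dvd_of_mod_eq_zero hc.2) with e | e
  · simp [e] at hp
  · exact hc.1 e.symm

theorem lgu_sum (R : ℕ) (f : ℕ → ℕ) : ∑ r ∈ (range (R + 1)).filter Nat.Prime, f r ≤ lguSum R f := by
  rw [sum_filter]
  refine sum_le_sum fun r _ => ?_
  split_ifs with h1 h2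
  · exact le_rfl
  · exact absurd (lgu_p h1) h2
  · exact Nat.zero_le _
  · exact le_rfl

section
variable {lo d n t r : ℕ}

theorem lgu_mu (hr : 0 < r) (hn : lo ≤ n) (ht : t ≤ 6) : lguMu lo d r ≤ qU (n + 1 - t) d r * r := by
  obtain ⟨h1, h2⟩ := qU_ge (n1 := n + 1 - t) (d := d) hr
  refine max_le h1 ?_
  rcases h2 with h | h | h
  · exact (min_le_left _ _).trans (Nat.mul_le_mul_right r h)
  · refine ((min_le_right _ _).trans (min_le_left _ _)).trans ?_
    rw [mul_comm]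
    exact Nat.mul_le_mul_right r (cdiv_le two_pos (by omega))
  · refine ((min_le_right _ _).trans (min_le_right _ _)).trans ?_
    omega

theorem lgu_w (hr : 0 < r) (hn : lo ≤ n) (ht : t ≤ 6) (hd : d + 4 ≤ lo) :
    lguMu lo d r ≤ (dU n t d r).w * r := by
  refine le_trans ?_ (Nat.mul_le_mul_right r (le_max_left _ _))
  rw [← Nat.mul_min_mul_right]
  refine le_min (lgu_mu hr hn ht) (le_trans ?_ (le_cdiv_mul hr))
  refine max_le (by omega) (((min_le_right _ _).trans (min_le_right _ _)).trans (by omega))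

theorem lgu_c (hr : 0 < r) (hn : lo ≤ n) (ht : t ≤ 6) (hd : 0 < d) :
    (dU n t d r).c1 + (dU n t d r).c2 ≤ cdiv 5 r + n / lguMu lo d r :=
  add_le_add (cdiv_le hr (le_trans (by omega) (le_cdiv_mul (a := 5) hr)))
    (Nat.div_le_div (Nat.sub_le _ _) (lgu_mu hr hn ht) (hd.trans_le (le_max_left _ _)).ne')

theorem lgu_kl {p0 : ℕ} (hr : 0 < r) (hn : lo ≤ n) (ht : t ≤ 6) (hd : 0 < d) (h2 : r ≠ 2) :
    KL n p0 (dU n t d) r ≤ r ^ (cdiv 5 r + n / lguMu lo d r + n / (r * r)) := by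
  unfold KL
  rw [if_neg h2]
  split_ifs
  · exact Nat.one_le_pow _ _ hr
  · rw [Nat.div_div_eq_div_mul]
    exact Nat.pow_le_pow_right hr (add_le_add (lgu_c hr hn ht hd) le_rfl)

theorem lgu_e {p0 : ℕ} (hr : 0 < r) (hn : lo ≤ n) (ht : t ≤ 6) (hd : 0 < d) :
    KL n p0 (dU n t d) r ^ 100 ≤ 3 ^ lguE lo d p0 n r := by
  unfold lguE
  split_ifs with h1 h2
  · simp [KL, h1]
  · subst h2
    have h3 := lgu_c (lo := lo) two_pos hn ht hd
    have h4 : KL n p0 (dU n t d) 2 ≤ 2 ^ (4 + n / lguMu lo d 2) * 5 ^ (n / 8) := by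
      unfold KL b2
      rw [if_neg h1, if_pos rfl, Nat.div_div_eq_div_mul, mul_comm (5 ^ _), ← mul_assoc, ← pow_add]
      refine Nat.mul_le_mul_right _ (Nat.pow_le_pow_right two_pos ?_)
      rw [show cdiv 5 2 = 3 from rfl] at h3
      omega
    refine (Nat.pow_le_pow_left h4 100).trans ?_
    rw [mul_pow, pow_add 3, pow_mul, pow_mul, pow_right_comm 2, pow_right_comm 5]
    exact Nat.mul_le_mul (Nat.pow_le_pow_left (by norm_num) _) (Nat.pow_le_pow_left (by norm_num) _)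
  · refine (Nat.pow_le_pow_left (lgu_kl hr hn ht hd h2) 100).trans ?_
    rw [pow_mul, pow_right_comm]
    exact Nat.pow_le_pow_left (Nat.le_pow_clog (by norm_num) _) _

theorem lgu_div (M n : ℕ) {m : ℕ} (hm : 0 < m) : M * (n / m) ≤ n * cdiv M m :=
  calc M * (n / m) ≤ cdiv M m * m * (n / m) := Nat.mul_le_mul_right _ (le_cdiv_mul hm)
    _ = cdiv M m * (m * (n / m)) := mul_assoc _ _ _
    _ ≤ cdiv M m * n := Nat.mul_le_mul_left _ (Nat.mul_div_le n m)
    _ = _ := mul_comm _ _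

theorem lgu_lin {p0 : ℕ} (hr : 0 < r) (hd : 0 < d) :
    1000000000 * lguE lo d p0 n r ≤ 1000000000 * lguI p0 r + n * lguS lo d p0 r := by
  have h1 := lgu_div 1000000000 n (m := lguMu lo d r) (hd.trans_le (le_max_left _ _))
  have h2 := lgu_div 1000000000 n (m := 8) (by norm_num)
  have h3 := lgu_div 1000000000 n (Nat.mul_pos hr hr)
  unfold lguE lguI lguS
  split_ifs
  · simp
  · nlinarith
  · generalize Nat.clog 3 (r ^ 100) = c
    have := Nat.mul_le_mul_left c (add_le_add h1 h3)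
    nlinarith

theorem lgu_sq (k : ℕ) : √3 ^ (2 * k) = (3 : ℝ) ^ k := by
  rw [pow_mul, Real.sq_sqrt (by norm_num)]

theorem lgu_term {K w h c : ℕ} (h1 : 2 * h ≤ w) (h2 : 2 * h ≤ n) (h3 : K * c ≤ 3 ^ h) :
    ((K * Fu (n - w) : ℕ) : ℝ) * c ≤ √3 ^ n := by
  have h4 : (Fu (n - w) : ℝ) ≤ √3 ^ (n - 2 * h) :=
    (Nat.cast_le.2 (Fu_mono (by omega))).trans (Fu_le_sqrt _)
  have h5 : (K : ℝ) * c ≤ 3 ^ h := by exact_mod_cast h3
  calc ((K * Fu (n - w) : ℕ) : ℝ) * c = K * c * Fu (n - w) := by push_cast; ring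
    _ ≤ 3 ^ h * √3 ^ (n - 2 * h) := by gcongr
    _ = _ := by rw [← lgu_sq, ← pow_add, Nat.add_sub_cancel' h2]

end

theorem lgu_chunk {lo hi R d L : ℕ} (hc : LguC lo hi R d L) {n p0 t : ℕ} (h7 : lo ≤ n) (hn : n < hi)
    (hp : p0 = 3 ∨ p0 = 5 ∨ p0 = 7) (ht : t ≤ 6) : LowD (n + 1 - t) d ∧
      ∏ r ∈ (range (R + 1)).filter Nat.Prime, KL n p0 (dU n t d) r +
        ∑ r ∈ (range (n + 1)).filter (fun r => r.Prime ∧ R + 1 ≤ r),
          KL n p0 (dU n t d) r * Fu (n - (r - 1) * (dU n t d r).w) ≤ Tl n := by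
  obtain ⟨⟨a1, a2, a3, a4, a5, a6, a7⟩, hs, hm, m0, hb⟩ := hc
  have d0 : 0 < d := by omega
  refine ⟨fun d' _ hD _ => ?_, ?_⟩
  · by_contra hlt
    have h1 : d' ≤ d - 1 := by omega
    have h2 := Nat.mul_le_mul (Nat.mul_le_mul_left 3 h1) (Nat.sub_le_sub_right h1 1)
    have h3 := Nat.mul_le_mul h1 h1
    rcases hD with h | h <;> omega
  obtain ⟨s1, s2⟩ := hs p0 (by simpa using hp)
  have hP : (∏ r ∈ (range (R + 1)).filter Nat.Prime, KL n p0 (dU n t d) r : ℕ) * (9 : ℝ) ≤ √3 ^ n := by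
    have h1 : (∏ r ∈ (range (R + 1)).filter Nat.Prime, KL n p0 (dU n t d) r) ^ 100 ≤
        3 ^ ∑ r ∈ (range (R + 1)).filter Nat.Prime, lguE lo d p0 n r := by
      rw [← prod_pow, ← prod_pow_eq_pow_sum]
      exact prod_le_prod' fun r hr => lgu_e (mem_filter.1 hr).2.pos h7 ht d0
    have h2 : 1000000000 * ∑ r ∈ (range (R + 1)).filter Nat.Prime, lguE lo d p0 n r ≤
        1000000000 * lguSum R (lguI p0) + n * lguSum R (lguS lo d p0) := by
      rw [mul_sum]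
      refine (sum_le_sum fun r hr => lgu_lin (mem_filter.1 hr).2.pos d0).trans ?_
      rw [sum_add_distrib, ← mul_sum, ← mul_sum]
      exact add_le_add (Nat.mul_le_mul_left _ (lgu_sum _ _)) (Nat.mul_le_mul_left _ (lgu_sum _ _))
    generalize ∏ r ∈ (range (R + 1)).filter Nat.Prime, KL n p0 (dU n t d) r = P at h1 ⊢
    generalize ∑ r ∈ (range (R + 1)).filter Nat.Prime, lguE lo d p0 n r = E at h1 h2
    have h3 : E + 200 ≤ 50 * n := by
      obtain ⟨k, rfl⟩ := Nat.exists_eq_add_of_le h7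
      have := Nat.mul_le_mul_left k s1
      nlinarith
    have h4 : ((P * 9) ^ 2) ^ 50 ≤ (3 ^ n) ^ 50 := by
      rw [← pow_mul, ← pow_mul, mul_pow, show 2 * 50 = 100 from rfl, show (9 : ℕ) ^ 100 = 3 ^ 200 by norm_num]
      refine (Nat.mul_le_mul_right _ h1).trans ?_
      rw [← pow_add]
      exact Nat.pow_le_pow_right (by norm_num) (by omega)
    have h5 : ((P : ℝ) * 9) ^ 2 ≤ (√3 ^ n) ^ 2 := by
      rw [← pow_mul, mul_comm n, lgu_sq]
      exact_mod_cast (Nat.pow_le_pow_iff_left (by norm_num)).1 h4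
    exact (pow_le_pow_iff_left₀ (by positivity) (by positivity) two_ne_zero).1 h5
  have hT : ∀ r ∈ (range (n + 1)).filter (fun r => r.Prime ∧ R + 1 ≤ r),
      ((KL n p0 (dU n t d) r * Fu (n - (r - 1) * (dU n t d r).w) : ℕ) : ℝ) * (3 * 2 ^ L : ℕ) ≤ √3 ^ n := by
    intro r hr
    obtain ⟨r1, r2, r3⟩ := mem_filter.1 hr
    rw [mem_range] at r1
    have h1 := lgu_kl (lo := lo) (p0 := p0) r2.pos h7 ht d0 (by omega)
    have h2 := lgu_w (lo := lo) r2.pos h7 ht a5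
    have h3 : cdiv 5 r ≤ 1 := cdiv_le r2.pos (by omega)
    rcases lt_or_ge r (d + 1) with hd | hd
    · obtain ⟨b1, b2⟩ := hm r hd r3 (lgu_p r2)
      have h4 := Nat.mul_le_mul_left (r - 1) (cdiv_le r2.pos h2)
      refine lgu_term (by omega) (by omega) (le_trans (Nat.mul_le_mul_right _ (h1.trans ?_)) b2)
      exact Nat.pow_le_pow_right r2.pos (add_le_add (add_le_add h3 (Nat.div_le_div_right hn.le))
        (Nat.div_le_div_right hn.le))
    · have h4 : min (d * cdiv d 2) ((lo - 5) / 2) ≤ lguMu lo d r := by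
        have h5 : cdiv d 2 ≤ r := cdiv_le two_pos (by omega)
        refine le_max_of_le_right (le_min ((min_le_left _ _).trans (Nat.mul_le_mul (by omega) h5))
          (min_le_min_right _ (Nat.mul_le_mul_right _ (by omega))))
      have h5 := min_le_right (d * cdiv d 2) ((lo - 5) / 2)
      generalize min (d * cdiv d 2) ((lo - 5) / 2) = m at *
      have h6 : 2 * ((dU n t d r).w * r) ≤ 3 * ((r - 1) * (dU n t d r).w) := by
        have := Nat.mul_le_mul_right (dU n t d r).w (show 2 * r ≤ 3 * (r - 1) by omega)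
        linarith
      refine lgu_term (by omega) (by omega) (le_trans (Nat.mul_le_mul_right _ (h1.trans ?_)) hb)
      refine (Nat.pow_le_pow_left (show r ≤ 2 ^ L by omega) _).trans
        (Nat.pow_le_pow_right (by positivity) (add_le_add (add_le_add h3 ?_) ?_))
      · exact Nat.div_le_div hn.le h4 m0.ne'
      · exact Nat.div_le_div hn.le (Nat.mul_le_mul (by omega) (by omega)) (Nat.mul_pos d0 d0).ne'
  have h1 := sum_le_card_nsmul _ _ _ hT
  rw [← sum_mul, ← Nat.cast_sum, nsmul_eq_mul] at h1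
  have h2 : (((range (n + 1)).filter (fun r => r.Prime ∧ R + 1 ≤ r)).card : ℝ) ≤ 2 ^ L := by
    have := (card_filter_le (range (n + 1)) (fun r => r.Prime ∧ R + 1 ≤ r)).trans
      (show _ ≤ 2 ^ L by rw [card_range]; omega)
    exact_mod_cast this
  have h3 := sqrt_le_Tl (show 10 ≤ n by omega)
  have h4 : (0 : ℝ) ≤ √3 ^ n := by positivity
  have h5 := h1.trans (mul_le_mul_of_nonneg_right h2 h4)
  generalize ∑ r ∈ (range (n + 1)).filter (fun r => r.Prime ∧ R + 1 ≤ r),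
    KL n p0 (dU n t d) r * Fu (n - (r - 1) * (dU n t d r).w) = S at h5 ⊢
  have h6 : (S : ℝ) * 3 ≤ √3 ^ n := by
    refine le_of_mul_le_mul_left (a := 2 ^ L) ?_ (by positivity)
    push_cast at h5
    linarith
  rw [← Nat.cast_le (α := ℝ), Nat.cast_add]
  linarith

theorem lgu_1 : LguC 700 1330 7 23 11 := by decide +kernel
theorem lgu_2 : LguC 1330 2534 11 31 12 := by decide +kernel
theorem lgu_3 : LguC 2534 7224 13 42 13 := by decide +kernel
theorem lgu_4 : LguC 7224 22217 19 70 15 := by decide +kernel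
theorem lgu_5 : LguC 22217 69191 29 123 17 := by decide +kernel
theorem lgu_6 : LguC 69191 900481 59 216 20 := by decide +kernel
theorem lgu_7 : LguC 900481 4194304 89 776 22 := by decide +kernel

theorem large_u {n p0 t : ℕ} (h7 : 700 ≤ n) (hn : n < 2 ^ 22) (hp : p0 = 3 ∨ p0 = 5 ∨ p0 = 7)
    (h1 : 1 ≤ t) (ht : t ≤ 6) : ∃ d R, LowD (n + 1 - t) d ∧
      ∏ r ∈ (range (R + 1)).filter Nat.Prime, KL n p0 (dU n t d) r +
        ∑ r ∈ (range (n + 1)).filter (fun r => r.Prime ∧ R + 1 ≤ r),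
          KL n p0 (dU n t d) r * Fu (n - (r - 1) * (dU n t d r).w) ≤ Tl n := by
  rcases lt_or_ge n 1330 with a | h7
  · exact ⟨_, _, lgu_chunk lgu_1 h7 a hp ht⟩
  rcases lt_or_ge n 2534 with a | h7
  · exact ⟨_, _, lgu_chunk lgu_2 h7 a hp ht⟩
  rcases lt_or_ge n 7224 with a | h7
  · exact ⟨_, _, lgu_chunk lgu_3 h7 a hp ht⟩
  rcases lt_or_ge n 22217 with a | h7
  · exact ⟨_, _, lgu_chunk lgu_4 h7 a hp ht⟩
  rcases lt_or_ge n 69191 with a | h7
  · exact ⟨_, _, lgu_chunk lgu_5 h7 a hp ht⟩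
  rcases lt_or_ge n 900481 with a | h7
  · exact ⟨_, _, lgu_chunk lgu_6 h7 a hp ht⟩
  · exact ⟨_, _, lgu_chunk lgu_7 h7 (by omega) hp ht⟩

end CfsgLib.KP3
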