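import Cfsg.Agent.Lib.KP3.LocU
import Cfsg.Agent.Lib.Psx.II

/-! Local data in case I. -/

set_option autoImplicit false

namespace CfsgLib.KP3

open Equiv Finset CfsgLib.Psx
open CfsgLib.KPerm (kap rep cyc)
open scoped Classical

universe u

variable {α : Type u} [Fintype α]

theorem loc_i {G : Subgroup (Perm α)} (hP : Prim G) (hA : ¬ alternatingGroup α ≤ G)
    (hn : 5 ≤ Fintype.card α) {t k : ℕ} (ht : 2 ≤ t) (hT : Tr G t) {Δ : Finset α}
    (hΔ : Δ.card = t - 2) {R : _} (h2 : Tr (res G Δ) 2) (hR : Tri (res G Δ) R k) :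
    Loc G (dI (Fintype.card α) t k) := by
  intro p hp
  have hd := Δ.card_le_univ
  have hn2 : Fintype.card {x // x ∉ Δ} = Fintype.card α + 2 - t := by
    rw [Psx.card_compl]
    omega
  have kn := hn2 ▸ hR.half
  have kp : k ≤ p * k := Nat.le_mul_of_pos_left k hp.pos
  have st : ∀ E ≤ G, Sm p E → E ≠ ⊥ → pm (Fintype.card α + 2 - t) k p + 1 + (t - 2) ≤ (fx E).card →
      ∃ E1 ≤ E, Nat.card E ≤ p * Nat.card E1 ∧ (fx E).card + p * k ≤ (fx E1).card ∧
        2 * (fx E).card + 1 + p ≤ (fx E1).card + k + (t - 2) := fun E h1 hE h0 hf => by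
    obtain ⟨E', a1, a2, a3, a4, a5⟩ := trans_res2 (Δ := Δ) (hT.mono (by omega)) h1 hE (by omega)
    obtain ⟨x, -, b1, b2⟩ := tri_stp h2 hR hp a2 a1
      (fun e => h0 (Subgroup.card_eq_one.1 (by rw [← a3, e, Subgroup.card_bot]))) (by rw [hn2]; omega)
    obtain ⟨E1, c1, c2, c3⟩ := a5 _ (St_le E' x)
    exact ⟨E1, c1, by rw [← a3, c2]; exact a2.card_le hp x, by omega, by omega⟩
  refine ⟨fun E h1 hE => chain_first hp _ _ hE fun E' h3 h4 => ?_, ?_⟩
  · have h7 := ii_cdiv (a := pm (Fintype.card α + 2 - t) k p + 1 + (t - 2) - Fintype.card α % p) hp.pos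
    have hφ : pm (Fintype.card α + 2 - t) k p + 1 + (t - 2) ≤ (fx E').card := by
      change _ + cdiv _ _ * _ ≤ _ at h4
      omega
    have st' := fun E'' (k1 : E'' ≤ E') k2 => st E'' (k1.trans (h3.trans h1)) (hE.mono (k1.trans h3)) k2
      (hφ.trans (Finset.card_le_card (fx_mono k1)))
    change Chain p (List.replicate (outs _ _ _ _) k) E'
    generalize pm (Fintype.card α + 2 - t) k p + 1 = ph at hφ
    rw [outs]
    split_ifs with h
    · by_contra ne
      obtain ⟨E1, -, -, h5, -⟩ := st' E' le_rfl ne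
      have := (fx E1).card_le_univ
      omega
    have hψ : ph + p * k + 1 + p - k + k = ph + p * k + 1 + p := by omega
    generalize ph + p * k + 1 + p - k = ψ at hψ
    let φ : ℕ → ℕ := fun i => (Nat.casesOn i ph fun j => 2 ^ j * ψ + k - 1 - p) + (t - 2)
    have step : ∀ E'' ≤ E', E'' ≠ ⊥ → ∀ i, φ i ≤ (fx E'').card → ∃ E1 ≤ E'',
        Nat.card E'' ≤ p * Nat.card E1 ∧ (fx E'').card + k * p ≤ (fx E1).card ∧
          φ (i + 1) ≤ (fx E1).card := fun E'' k1 k2 i hi => by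
      obtain ⟨E1, a1, a2, a3, a4⟩ := st' E'' k1 k2
      refine ⟨E1, a1, a2, by rwa [mul_comm k], ?_⟩
      rcases i with _ | j
      · change 2 ^ 0 * ψ + k - 1 - p + (t - 2) ≤ _
        change ph + (t - 2) ≤ _ at hi
        omega
      · change 2 ^ (j + 1) * ψ + k - 1 - p + (t - 2) ≤ _
        change 2 ^ j * ψ + k - 1 - p + (t - 2) ≤ _ at hi
        have : ψ ≤ 2 ^ j * ψ := Nat.le_mul_of_pos_left _ (by positivity)
        rw [pow_succ', mul_assoc]
        omega
    rw [← List.append_nil (List.replicate _ _)]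
    refine chain_desc _ k φ [] hφ (fun E'' k1 k2 i _ => step E'' k1 k2 i) fun E'' k1 k3 => ?_
    by_contra ne
    obtain ⟨E1, -, -, -, h4⟩ := step E'' k1 ne _ k3
    have h5 := (fx E1).card_le_univ
    have h6 := (Nat.div_lt_iff_lt_mul (by omega : 0 < ψ)).1
      (Nat.lt_pow_succ_log_self one_lt_two ((Fintype.card α + 2 - t + 1 + p - k) / ψ))
    change 2 ^ (1 + Nat.log 2 ((Fintype.card α + 2 - t + 1 + p - k) / ψ)) * ψ + k - 1 - p + (t - 2) ≤ _ at h4
    rw [add_comm 1] at h4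
    rw [Nat.succ_eq_add_one] at h6
    omega
  · change MinS G p (max _ _)
    rcases max_choice (cdiv (Fintype.card α + 2 - t - phI (Fintype.card α + 2 - t) k p) p)
      (cdiv (muG (Fintype.card α) t p) p) with e | e <;> rw [e]
    swap
    · exact minS_muG hP hA hn hT hp
    refine minS_of_le hp fun g hg g1 gp => ?_
    obtain ⟨a1, a2⟩ := sm_zpowers hp gp
    rw [phI]
    by_cases hf : pm (Fintype.card α + 2 - t) k p + 1 + (t - 2) ≤ (fx (Subgroup.zpowers g)).card
    · obtain ⟨E1, -, -, b1, b2⟩ := st _ (Subgroup.zpowers_le.2 hg) a1 (Subgroup.zpowers_ne_bot.2 g1) hf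
      have := (fx E1).card_le_univ
      rw [if_pos (by omega)]
      omega
    · split_ifs <;> omega

end CfsgLib.KP3
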