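import Cfsg.Agent.Lib.KP3.Chn
import Cfsg.Agent.Lib.KP3.Db4
import Cfsg.Agent.Lib.Psx.UU
import Cfsg.Agent.Lib.Psx.Com
import Cfsg.Agent.Lib.Psx.Gre0

/-! Local data in case U. -/

set_option autoImplicit false

namespace CfsgLib.KP3

open Equiv Finset CfsgLib.Psx
open CfsgLib.KPerm (kap rep cyc)
open scoped Classical

universe u

variable {α : Type u} [Fintype α]

theorem minS_muG {G : Subgroup (Perm α)} (hP : Prim G) (hA : ¬ alternatingGroup α ≤ G)
    (hn : 5 ≤ Fintype.card α) {t r : ℕ} (hT : Tr G t) (hr : r.Prime) :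
    MinS G r (cdiv (muG (Fintype.card α) t r) r) :=
  minS_of_le hr fun _ hg h1 hp => min_deg hP hA hn hT hr hg h1 hp

theorem deg4 {G : Subgroup (Perm α)} (hP : Prim G) (hA : ¬ alternatingGroup α ≤ G)
    (hn : 5 ≤ Fintype.card α) : Deg4 G := by
  intro g hg h1
  obtain ⟨p, hp, hd⟩ := Nat.exists_prime_and_dvd (mt orderOf_eq_one_iff.1 h1)
  have ho := orderOf_pow_orderOf_div (orderOf_pos g).ne' hd
  have h2 := min_deg hP hA hn hP.1 hp (G.pow_mem hg (orderOf g / p))
    (fun e => hp.ne_one (by rw [← ho, e, orderOf_one])) (orderOf_dvd_iff_pow_eq_one.1 ho.dvd)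
  exact ((le_max_left _ _).trans (le_max_left _ _)).trans
    (h2.trans (Finset.card_le_card (Perm.support_pow_le g _)))

theorem t_le {G : Subgroup (Perm α)} (hA : ¬ alternatingGroup α ≤ G) {t p0 : ℕ} (hT : Tr G t)
    (hp : 0 < p0) (h0 : ¬ p0 ∣ Nat.card G) : t ≤ Fintype.card α % p0 := by
  have h1 : t ≤ Fintype.card α := by
    by_contra h
    refine hA fun σ _ => ?_
    obtain ⟨g, hg, e⟩ := hT univ (by rw [card_univ]; omega) σ
    exact (Equiv.ext fun x => e x (mem_univ x) : g = σ) ▸ hg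
  obtain ⟨S, -, hS⟩ := Finset.exists_subset_card_eq (s := (univ : Finset α)) (n := t) h1
  have h2 := MulAction.IsMultiplyPretransitive.index_of_fixingSubgroup_eq (G := G) (S : Set α)
    (by rw [Set.ncard_coe_finset, hS]; exact hT.isMultiply)
  rw [Set.ncard_coe_finset, hS, Nat.card_eq_fintype_card, mul_comm,
    ← Nat.descFactorial_eq_factorial_mul_choose, Nat.descFactorial_eq_prod_range] at h2
  by_contra h
  refine h0 (((Nat.dvd_sub_mod (Fintype.card α)).trans ?_).trans
    (Subgroup.index_dvd_card (fixingSubgroup G (S : Set α))))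
  rw [h2]
  exact Finset.dvd_prod_of_mem _ (Finset.mem_range.2 (not_le.1 h))

theorem locu_step {G E : Subgroup (Perm α)} {Δ : Finset α} (hT : Tr G Δ.card) (hR : Prim (res G Δ))
    {d r : ℕ} (hr : r.Prime) (hd : ∀ x y, x ≠ y → d ≤ (Dist (res G Δ) x y).card) (le : E ≤ G)
    (hE : Sm r E) (ne : E ≠ ⊥) (hf : Δ.card ≤ (fx E).card) : ∃ E1 ≤ E, Nat.card E ≤ r * Nat.card E1 ∧
      (fx E).card + qU (Fintype.card {x // x ∉ Δ}) d r * r ≤ (fx E1).card := by
  obtain ⟨E', h1, h2, h3, h4, h5⟩ := trans_res2 hT le hE hf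
  obtain ⟨x, -, hx⟩ := uu_step (μ := qU (Fintype.card {x // x ∉ Δ}) d r * r) hr hR hd
    (fun q q1 _ q2 q3 => Nat.mul_le_mul_right r (qU_le hr.pos q1 q2 q3)) h2 h1
    fun e => ne (Subgroup.card_eq_one.1 (by rw [← h3, e, Subgroup.card_bot]))
  obtain ⟨E1, a1, a2, a3⟩ := h5 _ (St_le E' x)
  exact ⟨E1, a1, by rw [← h3, a2]; exact h2.card_le hr x, by omega⟩

theorem loc_u {G : Subgroup (Perm α)} (hP : Prim G) (hA : ¬ alternatingGroup α ≤ G)
    (hn : 5 ≤ Fintype.card α) {t : ℕ} (ht : 1 ≤ t) (hT : Tr G t) {Δ : Finset α}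
    (hΔ : Δ.card = t - 1) (hR : Prim (res G Δ)) (h2 : ¬ Tr (res G Δ) 2) :
    3 ≤ Fintype.card α + 1 - t ∧ ∀ d, LowD (Fintype.card α + 1 - t) d →
      Loc G (dU (Fintype.card α) t d) ∧
      ∀ b, (Fintype.card α + 1 - t) * (Fintype.card α + 1 - t - 1) *
          (Fintype.card α + 1 - t - d) ^ b < (Fintype.card α + 1 - t) ^ b →
        Nat.card G ≤ Fintype.card α ^ (t - 1 + b) := by
  obtain ⟨a0, b0, h0⟩ : ∃ a b : {x // x ∉ Δ}, a ≠ b := by
    by_contra h
    push Not at h
    exact h2 fun _ _ _ => ⟨1, one_mem _, fun _ _ => h _ _⟩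
  have hn1 : Fintype.card {x // x ∉ Δ} = Fintype.card α + 1 - t := by
    rw [Psx.card_compl, hΔ]; omega
  have h3 := hn1 ▸ (bab hR h2 h0).1.trans (Finset.card_le_univ _)
  refine ⟨h3, fun d hL => ?_⟩
  have hd : ∀ x y, x ≠ y → d ≤ (Dist (res G Δ) x y).card := fun x y h =>
    hL _ (bab hR h2 h).1 (hn1 ▸ (bab hR h2 h).2) fun e => bab5 hR h2 (hn1 ▸ e) h
  refine ⟨fun r hr => ?_, fun b hb => ?_⟩
  · have st := fun E => locu_step (E := E) (hT.mono (by omega)) hR hr hd
    rw [hn1, hΔ] at st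
    refine ⟨fun E le hE => ?_, fun g hg g1 gp => ?_⟩
    · have hj := uu_cdiv (a := t - 1 - Fintype.card α % r) hr.pos
      have μ1 : 0 < qU (Fintype.card α + 1 - t) d r * r := Nat.mul_pos (qU_pos _ _ _) hr.pos
      simp only [dU]
      generalize cdiv (t - 1 - Fintype.card α % r) r = j at hj ⊢
      refine chain_first hr j _ hE fun E' le' hf => ?_
      have hm : t - 1 ≤ Fintype.card α % r + j * r := by omega
      generalize Fintype.card α % r + j * r = m at hf hm ⊢
      generalize qU (Fintype.card α + 1 - t) d r = δ at st μ1 ⊢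
      rw [← List.append_nil (List.replicate _ δ)]
      refine chain_desc _ δ (fun i => m + i * (δ * r)) [] (by omega) (fun E1 l1 ne i _ hi => ?_)
        fun E1 l1 hi => ?_
      · obtain ⟨E2, a1, a2, a3⟩ := st E1 ((l1.trans le').trans le) (hE.mono (l1.trans le')) ne (by omega)
        exact ⟨E2, a1, a2, a3, by simp only [add_mul, one_mul] at hi ⊢; omega⟩
      · by_contra ne
        obtain ⟨E2, -, -, a3⟩ := st E1 ((l1.trans le').trans le) (hE.mono (l1.trans le')) ne (by omega)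
        have h4 := Finset.card_le_univ (fx E2)
        have h5 := Nat.div_add_mod (Fintype.card α - m) (δ * r)
        have h6 := Nat.mod_lt (Fintype.card α - m) μ1
        simp only [mul_comm _ (δ * r)] at hi
        omega
    · simp only [dU]
      rw [max_mul]
      refine max_le ?_ (minS_muG hP hA hn hT hr g hg g1 gp)
      obtain ⟨a1, a2⟩ := sm_zpowers hr gp
      by_cases hf : t - 1 ≤ (fx (Subgroup.zpowers g)).card
      · obtain ⟨E2, -, -, a3⟩ := st _ (Subgroup.zpowers_le.2 hg) a1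
          (mt Subgroup.zpowers_eq_bot.1 g1) hf
        have h4 := Finset.card_le_univ (fx E2)
        exact (Nat.mul_le_mul_right r (min_le_left _ _)).trans (by omega)
      · obtain ⟨X, hX, -⟩ := cyc_reps hr gp
        rw [hX]
        exact Nat.mul_le_mul_right r ((min_le_right _ _).trans (cdiv_le hr.pos (by omega)))
  · have e : Fintype.card α - Δ.card = Fintype.card α + 1 - t := by omega
    exact hΔ ▸ u_base hd (e ▸ hb) (by omega)

end CfsgLib.KP3
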