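import Cfsg.Agent.Lib.KP3.NumS0

/-! The check for degrees below 700, part 2. -/

set_option autoImplicit false

namespace CfsgLib.KP3.NumS

theorem c130 : chkR 130 5 = true := by decide +kernel
theorem c135 : chkR 135 5 = true := by decide +kernel
theorem c140 : chkR 140 5 = true := by decide +kernel
theorem c145 : chkR 145 5 = true := by decide +kernel
theorem c150 : chkR 150 5 = true := by decide +kernel
theorem c155 : chkR 155 5 = true := by decide +kernel
theorem c160 : chkR 160 5 = true := by decide +kernel
theorem c165 : chkR 165 5 = true := by decide +kernel
theorem c170 : chkR 170 5 = true := by decide +kernel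
theorem c175 : chkR 175 5 = true := by decide +kernel
theorem c180 : chkR 180 5 = true := by decide +kernel
theorem c185 : chkR 185 5 = true := by decide +kernel
theorem c190 : chkR 190 5 = true := by decide +kernel
theorem c195 : chkR 195 5 = true := by decide +kernel
theorem c200 : chkR 200 5 = true := by decide +kernel
theorem c205 : chkR 205 5 = true := by decide +kernel
theorem c210 : chkR 210 5 = true := by decide +kernel
theorem c215 : chkR 215 5 = true := by decide +kernel
theorem c220 : chkR 220 5 = true := by decide +kernel
theorem c225 : chkR 225 5 = true := by decide +kernel
theorem c230 : chkR 230 5 = true := by decide +kernel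
theorem c235 : chkR 235 5 = true := by decide +kernel
theorem c240 : chkR 240 5 = true := by decide +kernel
theorem c245 : chkR 245 5 = true := by decide +kernel

theorem up2 (h : Up 130) : Up 250 :=
  step c245 <| step c240 <| step c235 <| step c230 <| step c225 <| step c220 <| step c215 <|
  step c210 <| step c205 <| step c200 <| step c195 <| step c190 <| step c185 <| step c180 <|
  step c175 <| step c170 <| step c165 <| step c160 <| step c155 <| step c150 <| step c145 <|
  step c140 <| step c135 <| step c130 <| h

end CfsgLib.KP3.NumS
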