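import Cfsg.Agent.Lib.KP3.NumS0

/-! The check for degrees below 700, part 3. -/

set_option autoImplicit false

namespace CfsgLib.KP3.NumS

theorem c250 : chkR 250 5 = true := by decide +kernel
theorem c255 : chkR 255 5 = true := by decide +kernel
theorem c260 : chkR 260 5 = true := by decide +kernel
theorem c265 : chkR 265 5 = true := by decide +kernel
theorem c270 : chkR 270 5 = true := by decide +kernel
theorem c275 : chkR 275 5 = true := by decide +kernel
theorem c280 : chkR 280 5 = true := by decide +kernel
theorem c285 : chkR 285 5 = true := by decide +kernel
theorem c290 : chkR 290 5 = true := by decide +kernel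
theorem c295 : chkR 295 5 = true := by decide +kernel
theorem c300 : chkR 300 5 = true := by decide +kernel
theorem c305 : chkR 305 5 = true := by decide +kernel
theorem c310 : chkR 310 5 = true := by decide +kernel
theorem c315 : chkR 315 5 = true := by decide +kernel
theorem c320 : chkR 320 5 = true := by decide +kernel
theorem c325 : chkR 325 5 = true := by decide +kernel
theorem c330 : chkR 330 5 = true := by decide +kernel
theorem c335 : chkR 335 5 = true := by decide +kernel
theorem c340 : chkR 340 5 = true := by decide +kernel
theorem c345 : chkR 345 5 = true := by decide +kernel

theorem up3 (h : Up 250) : Up 350 :=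
  step c345 <| step c340 <| step c335 <| step c330 <| step c325 <| step c320 <| step c315 <|
  step c310 <| step c305 <| step c300 <| step c295 <| step c290 <| step c285 <| step c280 <|
  step c275 <| step c270 <| step c265 <| step c260 <| step c255 <| step c250 <| h

end CfsgLib.KP3.NumS
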