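import Cfsg.Agent.Lib.KP3.NumS0

/-! The check for degrees below 700, part 4. -/

set_option autoImplicit false

namespace CfsgLib.KP3.NumS

theorem c350 : chkR 350 5 = true := by decide +kernel
theorem c355 : chkR 355 5 = true := by decide +kernel
theorem c360 : chkR 360 5 = true := by decide +kernel
theorem c365 : chkR 365 5 = true := by decide +kernel
theorem c370 : chkR 370 5 = true := by decide +kernel
theorem c375 : chkR 375 5 = true := by decide +kernel
theorem c380 : chkR 380 5 = true := by decide +kernel
theorem c385 : chkR 385 5 = true := by decide +kernel
theorem c390 : chkR 390 5 = true := by decide +kernel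
theorem c395 : chkR 395 5 = true := by decide +kernel
theorem c400 : chkR 400 5 = true := by decide +kernel
theorem c405 : chkR 405 5 = true := by decide +kernel
theorem c410 : chkR 410 5 = true := by decide +kernel
theorem c415 : chkR 415 5 = true := by decide +kernel
theorem c420 : chkR 420 5 = true := by decide +kernel
theorem c425 : chkR 425 5 = true := by decide +kernel
theorem c430 : chkR 430 5 = true := by decide +kernel
theorem c435 : chkR 435 5 = true := by decide +kernel

theorem up4 (h : Up 350) : Up 440 :=
  step c435 <| step c430 <| step c425 <| step c420 <| step c415 <| step c410 <| step c405 <|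
  step c400 <| step c395 <| step c390 <| step c385 <| step c380 <| step c375 <| step c370 <|
  step c365 <| step c360 <| step c355 <| step c350 <| h

end CfsgLib.KP3.NumS
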