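import Cfsg.Agent.Lib.KP3.NumS0

/-! The check for degrees below 700, part 5. -/

set_option autoImplicit false

namespace CfsgLib.KP3.NumS

theorem c440 : chkR 440 5 = true := by decide +kernel
theorem c445 : chkR 445 5 = true := by decide +kernel
theorem c450 : chkR 450 5 = true := by decide +kernel
theorem c455 : chkR 455 5 = true := by decide +kernel
theorem c460 : chkR 460 5 = true := by decide +kernel
theorem c465 : chkR 465 5 = true := by decide +kernel
theorem c470 : chkR 470 5 = true := by decide +kernel
theorem c475 : chkR 475 5 = true := by decide +kernel
theorem c480 : chkR 480 5 = true := by decide +kernel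
theorem c485 : chkR 485 5 = true := by decide +kernel
theorem c490 : chkR 490 5 = true := by decide +kernel
theorem c495 : chkR 495 5 = true := by decide +kernel
theorem c500 : chkR 500 5 = true := by decide +kernel
theorem c505 : chkR 505 5 = true := by decide +kernel
theorem c510 : chkR 510 5 = true := by decide +kernel
theorem c515 : chkR 515 5 = true := by decide +kernel

theorem up5 (h : Up 440) : Up 520 :=
  step c515 <| step c510 <| step c505 <| step c500 <| step c495 <| step c490 <| step c485 <|
  step c480 <| step c475 <| step c470 <| step c465 <| step c460 <| step c455 <| step c450 <|
  step c445 <| step c440 <| h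

end CfsgLib.KP3.NumS
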