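import Cfsg.Agent.Lib.KP3.NumS0

/-! The check for degrees below 700, part 6. -/

set_option autoImplicit false

namespace CfsgLib.KP3.NumS

theorem c520 : chkR 520 5 = true := by decide +kernel
theorem c525 : chkR 525 5 = true := by decide +kernel
theorem c530 : chkR 530 5 = true := by decide +kernel
theorem c535 : chkR 535 5 = true := by decide +kernel
theorem c540 : chkR 540 5 = true := by decide +kernel
theorem c545 : chkR 545 5 = true := by decide +kernel
theorem c550 : chkR 550 5 = true := by decide +kernel
theorem c555 : chkR 555 5 = true := by decide +kernel
theorem c560 : chkR 560 5 = true := by decide +kernel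
theorem c565 : chkR 565 5 = true := by decide +kernel
theorem c570 : chkR 570 5 = true := by decide +kernel
theorem c575 : chkR 575 5 = true := by decide +kernel
theorem c580 : chkR 580 5 = true := by decide +kernel
theorem c585 : chkR 585 5 = true := by decide +kernel

theorem up6 (h : Up 520) : Up 590 :=
  step c585 <| step c580 <| step c575 <| step c570 <| step c565 <| step c560 <| step c555 <|
  step c550 <| step c545 <| step c540 <| step c535 <| step c530 <| step c525 <| step c520 <| h

end CfsgLib.KP3.NumS
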