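import Cfsg.Agent.Lib.KP3.NumS0

/-! The check for degrees below 700, part 7. -/

set_option autoImplicit false

namespace CfsgLib.KP3.NumS

theorem c590 : chkR 590 5 = true := by decide +kernel
theorem c595 : chkR 595 5 = true := by decide +kernel
theorem c600 : chkR 600 5 = true := by decide +kernel
theorem c605 : chkR 605 5 = true := by decide +kernel
theorem c610 : chkR 610 5 = true := by decide +kernel
theorem c615 : chkR 615 5 = true := by decide +kernel
theorem c620 : chkR 620 5 = true := by decide +kernel
theorem c625 : chkR 625 5 = true := by decide +kernel
theorem c630 : chkR 630 5 = true := by decide +kernel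
theorem c635 : chkR 635 5 = true := by decide +kernel
theorem c640 : chkR 640 5 = true := by decide +kernel
theorem c645 : chkR 645 5 = true := by decide +kernel

theorem up7 (h : Up 590) : Up 650 :=
  step c645 <| step c640 <| step c635 <| step c630 <| step c625 <| step c620 <| step c615 <|
  step c610 <| step c605 <| step c600 <| step c595 <| step c590 <| h

end CfsgLib.KP3.NumS
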