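import Cfsg.Agent.Lib.KP3.NumS0

/-! The check for degrees below 700, part 8. -/

set_option autoImplicit false

namespace CfsgLib.KP3.NumS

theorem c650 : chkR 650 5 = true := by decide +kernel
theorem c655 : chkR 655 5 = true := by decide +kernel
theorem c660 : chkR 660 5 = true := by decide +kernel
theorem c665 : chkR 665 5 = true := by decide +kernel
theorem c670 : chkR 670 5 = true := by decide +kernel
theorem c675 : chkR 675 5 = true := by decide +kernel
theorem c680 : chkR 680 5 = true := by decide +kernel
theorem c685 : chkR 685 5 = true := by decide +kernel
theorem c690 : chkR 690 5 = true := by decide +kernel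
theorem c695 : chkR 695 5 = true := by decide +kernel

theorem up8 (h : Up 650) : Up 700 :=
  step c695 <| step c690 <| step c685 <| step c680 <| step c675 <| step c670 <| step c665 <|
  step c660 <| step c655 <| step c650 <| h

end CfsgLib.KP3.NumS
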