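import Cfsg.Agent.Lib.KP3.NumS1
import Cfsg.Agent.Lib.KP3.NumS2
import Cfsg.Agent.Lib.KP3.NumS3
import Cfsg.Agent.Lib.KP3.NumS4
import Cfsg.Agent.Lib.KP3.NumS5
import Cfsg.Agent.Lib.KP3.NumS6
import Cfsg.Agent.Lib.KP3.NumS7
import Cfsg.Agent.Lib.KP3.NumS8

/-! The check for degrees below 700. -/

set_option autoImplicit false

namespace CfsgLib.KP3

open Equiv Finset CfsgLib.Psx
open CfsgLib.KPerm (kap rep cyc)
open scoped Classical

universe u

variable {α : Type u} [Fintype α]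

namespace NumS

theorem all : Up 700 :=
  up8 <| up7 <| up6 <| up5 <| up4 <| up3 <| up2 <| up1 fun _ h1 h2 => absurd h1 h2.not_ge

theorem good {n p0 : ℕ} {D : ℕ → Dt} (h : goodB n p0 (bigN n) D = true) : Good n p0 D := by
  rcases Bool.or_eq_true_iff.1 h with h | h
  · exact .inl (Nat.le_of_ble_eq_true h)
  · exact .inr (of_decide_eq_true h)

end NumS

theorem num_small {n p0 t : ℕ} (h5 : 5 ≤ n) (hn : n < 700) (hp : p0 = 3 ∨ p0 = 5 ∨ p0 = 7)
    (h1 : 1 ≤ t) (ht : t ≤ n % p0) (hj : ∀ p, p.Prime → p + 3 ≤ n → t + p ≤ n) :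
    (3 ≤ n + 1 - t → Good n p0 (dU n t (DD (n + 1 - t)))) ∧
    ∀ k, 2 ≤ t → 2 ≤ k → k ∣ n + 2 - t - 1 → 2 * k + 1 ≤ n + 2 - t → Good n p0 (dI n t k) := by
  have h := List.all_eq_true.1 (List.all_eq_true.1 (NumS.all n h5 hn) p0 (by simpa using hp)) (t - 1)
    (List.mem_range.2 (by omega))
  rw [Nat.sub_add_cancel h1] at h
  rcases Bool.or_eq_true_iff.1 h with h | h
  · exfalso
    have h23 := hj 23 (by norm_num)
    have h29 := hj 29 (by norm_num)
    simp only [jorB, Bool.or_eq_true, Bool.and_eq_true, beq_iff_eq, Nat.ble_eq] at h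
    omega
  obtain ⟨ha, hb⟩ := Bool.and_eq_true_iff.1 h
  refine ⟨fun h3 => ?_, fun k t2 k2 kd k3 => ?_⟩
  · rcases Bool.or_eq_true_iff.1 ha with h | h
    · exact absurd (Nat.blt_eq.mp h) (by omega)
    · exact NumS.good h
  · rcases Bool.or_eq_true_iff.1 hb with h | h
    · exact absurd (Nat.blt_eq.mp h) (by omega)
    rcases Bool.or_eq_true_iff.1 (List.all_eq_true.1 h k (List.mem_range.2 (by omega))) with h | h
    · rcases Bool.or_eq_true_iff.1 h with h | h
      · exact absurd (Nat.blt_eq.mp h) (by omega)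
      · simp [Nat.mod_eq_zero_of_dvd kd] at h
    · exact NumS.good h

end CfsgLib.KP3
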