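import Cfsg.Agent.Lib.KP3.Ar

/-! Two minimal blocks. -/

set_option autoImplicit false

namespace CfsgLib.KP3

open Equiv Finset CfsgLib.Psx
open CfsgLib.KPerm (kap rep cyc)
open scoped Classical

universe u

section abs
variable {X : Type*} [Group X] [Fintype X]

/-- the number of elements of `K` commuting with `c` -/
noncomputable def twoC (K : Subgroup X) (c : X) : ℕ := (univ.filter fun k => k ∈ K ∧ k * c = c * k).card

theorem two_coset {K : Subgroup X} {c : X} {S : Finset X}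
    (h : ∀ s ∈ S, ∀ s' ∈ S, s⁻¹ * s' ∈ K ∧ s⁻¹ * s' * c = c * (s⁻¹ * s')) : S.card ≤ twoC K c := by
  rcases S.eq_empty_or_nonempty with rfl | ⟨s, hs⟩
  · simp
  · exact card_le_card_of_injOn (fun s' => s⁻¹ * s') (fun s' hs' => by simpa using h s hs s' hs')
      fun a _ b _ e => mul_left_cancel e

omit [Fintype X] in
theorem two_comm {s s' c : X} (h : s * c = c * s) (h' : s' * c = c * s') : s⁻¹ * s' * c = c * (s⁻¹ * s') :=
  (show Commute s c from h).inv_left.mul_left h'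

theorem two_sum (K : Subgroup X) : ∑ c ∈ univ.filter (· ∈ K), twoC K c = Nat.card K * kk K := by
  rw [mul_comm, ← card_comm_eq_card_conjClasses_mul_card, Nat.card_eq_fintype_card, Fintype.card_subtype]
  simp only [twoC]
  rw [← card_sigma]
  symm
  refine card_bij (fun p _ => (⟨p.2, p.1⟩ : Σ _ : X, X)) (fun p hp => ?_) (fun p _ q _ e => ?_) fun p hp => ?_
  · simpa using congrArg Subtype.val (mem_filter.1 hp).2.eq
  · simp only [Sigma.mk.injEq, heq_eq_eq] at e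
    exact Prod.ext (Subtype.ext e.2) (Subtype.ext e.1)
  · simp only [mem_sigma, mem_filter, mem_univ, true_and] at hp
    exact ⟨(⟨p.2, hp.2.1⟩, ⟨p.1, hp.1⟩), mem_filter.2 ⟨mem_univ _, Subtype.ext hp.2.2⟩, rfl⟩

omit [Group X] in
theorem two_swap (p q : X → Prop) (r : X → X → Prop) [DecidablePred p] [DecidablePred q]
    [∀ x, DecidablePred fun k => q k ∧ r x k] [∀ k, DecidablePred fun x => p x ∧ r x k] :
    ∑ x ∈ univ.filter p, (univ.filter fun k => q k ∧ r x k).card =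
      ∑ k ∈ univ.filter q, (univ.filter fun x => p x ∧ r x k).card := by
  rw [← card_sigma, ← card_sigma]
  exact card_nbij' (fun z => ⟨z.2, z.1⟩) (fun z => ⟨z.2, z.1⟩) (fun z hz => by simp at hz ⊢; tauto)
    (fun z hz => by simp at hz ⊢; tauto) (fun _ _ => rfl) fun _ _ => rfl

omit [Group X] [Fintype X] in
theorem two_fib {ι : Type*} (f : X → ι) {s : Finset X} {t : Finset ι} {n : ℕ} (h1 : ∀ x ∈ s, f x ∈ t)
    (h2 : ∀ S ⊆ s, (∀ x ∈ S, ∀ y ∈ S, f x = f y) → S.card ≤ n) : s.card ≤ n * t.card :=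
  card_le_mul_card_image_of_maps_to h1 n fun _ _ => h2 _ (filter_subset _ _) fun _ hx _ hy =>
    (mem_filter.1 hx).2.trans (mem_filter.1 hy).2.symm

/-- commuting pairs with one member outside -/
noncomputable def twoA (N : Subgroup X) : ℕ := ∑ x ∈ univ.filter (· ∉ N), twoC N x

theorem two_out {N : Subgroup X} (h2 : ∀ s ∉ N, ∀ s' ∉ N, s⁻¹ * s' ∈ N) (c : X) :
    (univ.filter fun k => k ∉ N ∧ k * c = c * k).card ≤ twoC N c :=
  two_coset fun s hs s' hs' => ⟨h2 s (mem_filter.1 hs).2.1 s' (mem_filter.1 hs').2.1,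
    two_comm (mem_filter.1 hs).2.2 (mem_filter.1 hs').2.2⟩

theorem twoA_eq (N : Subgroup X) :
    twoA N = ∑ c ∈ univ.filter (· ∈ N), (univ.filter fun k => k ∉ N ∧ k * c = c * k).card :=
  (two_swap (· ∉ N) (· ∈ N) fun x k => k * x = x * k).trans
    (sum_congr rfl fun _ _ => congrArg card (filter_congr fun _ _ => by rw [eq_comm]))

theorem twoA_le {N : Subgroup X} (h2 : ∀ s ∉ N, ∀ s' ∉ N, s⁻¹ * s' ∈ N) : twoA N ≤ Nat.card N * kk N := by
  rw [← two_sum, twoA_eq]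
  exact sum_le_sum fun c _ => two_out h2 c

theorem two_tot {N : Subgroup X} (h2 : ∀ s ∉ N, ∀ s' ∉ N, s⁻¹ * s' ∈ N) :
    Nat.card X * kk X ≤ Nat.card N * kk N + 3 * twoA N := by
  have e0 : Nat.card X * kk X ≤ ∑ c ∈ univ.filter (· ∈ (⊤ : Subgroup X)), twoC ⊤ c := by
    rw [two_sum, Subgroup.card_top]
    exact Nat.mul_le_mul_left _ (KPerm.k_le_of_surj (⊤ : Subgroup X).subtype fun x => ⟨⟨x, trivial⟩, rfl⟩)
  have e1 : ∀ c, twoC ⊤ c = twoC N c + (univ.filter fun k => k ∉ N ∧ k * c = c * k).card := fun c => by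
    rw [twoC, twoC, ← card_filter_add_card_filter_not (p := (· ∈ N)), filter_filter, filter_filter]
    congr 2 <;> ext k <;> simp [and_comm]
  rw [filter_true_of_mem fun _ _ => Subgroup.mem_top _, ← sum_filter_add_sum_filter_not _ (· ∈ N)] at e0
  simp only [e1, sum_add_distrib] at e0
  rw [two_sum, ← twoA_eq] at e0
  have e2 := sum_le_sum fun c (_ : c ∈ univ.filter (· ∉ N)) => two_out h2 c
  rw [← twoA] at e0 e2
  omega

/-- two commuting normal subgroups swapped by the elements outside `N` -/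
structure TwoD (N K1 K2 M : Subgroup X) : Prop where
  com : ∀ a ∈ K1, ∀ b ∈ K2, a * b = b * a
  inf : ∀ a ∈ K1, a ∈ K2 → a = 1
  dec : ∀ m ∈ M, ∃ a ∈ K1, ∃ b ∈ K2, m = a * b
  l1 : K1 ≤ M
  l2 : K2 ≤ M
  MN : M ≤ N
  s1 : ∀ x ∉ N, ∀ a ∈ K1, x * a * x⁻¹ ∈ K2
  s2 : ∀ x ∉ N, ∀ a ∈ K2, x * a * x⁻¹ ∈ K1

namespace TwoD
variable {N K1 K2 M : Subgroup X} (h : TwoD N K1 K2 M)
include h

theorem cM {x : X} (hx : x ∉ N) : twoC M x ≤ twoC K1 (x * x) := by
  refine le_trans (card_le_card fun m hm => ?_) (card_image_le (f := fun c => c * (x * c * x⁻¹)))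
  obtain ⟨m1, m2⟩ := (mem_filter.1 hm).2
  obtain ⟨a, ha, b, hb, rfl⟩ := h.dec m m1
  have e1 : x * b * x⁻¹ * (x * a * x⁻¹) = a * b := by
    rw [h.com _ (h.s2 x hx b hb) _ (h.s1 x hx a ha), conj_mul, ← m2, mul_inv_cancel_right]
  have e2 : a⁻¹ * (x * b * x⁻¹) = b * (x * a * x⁻¹)⁻¹ := by
    rw [inv_mul_eq_iff_eq_mul, ← mul_assoc a, ← e1, mul_inv_cancel_right]
  have e3 := h.inf _ (mul_mem (inv_mem ha) (h.s2 x hx b hb)) (e2 ▸ mul_mem hb (inv_mem (h.s1 x hx a ha)))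
  have e4 : b = x * a * x⁻¹ := mul_inv_eq_one.1 (e2 ▸ e3)
  rw [inv_mul_eq_one] at e3
  refine mem_image.2 ⟨a, mem_filter.2 ⟨mem_univ _, ha, ?_⟩, by rw [e4]⟩
  rw [e4] at e3
  calc a * (x * x) = x * (x * a * x⁻¹) * x⁻¹ * (x * x) := by rw [← e3]
    _ = _ := by group

theorem fib {x₀ : X} (hx : x₀ ∉ N) :
    ∑ x ∈ univ.filter (fun x => x₀⁻¹ * x ∈ M), twoC M x ≤ Nat.card K2 * (Nat.card K1 * kk K1) := by
  have n1 : ∀ x, x₀⁻¹ * x ∈ M → x ∉ N := fun x h1 h2 =>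
    hx (by simpa using mul_mem h2 (inv_mem (h.MN h1)))
  refine (sum_le_sum fun x k => h.cM (n1 x (mem_filter.1 k).2)).trans ?_
  have e1 : ∑ x ∈ univ.filter (fun x => x₀⁻¹ * x ∈ M), twoC K1 (x * x) =
      ∑ c ∈ univ.filter (· ∈ K1), (univ.filter fun x => x₀⁻¹ * x ∈ M ∧ c * (x * x) = x * x * c).card :=
    two_swap (fun x => x₀⁻¹ * x ∈ M) (· ∈ K1) fun x c => c * (x * x) = x * x * c
  rw [e1, ← two_sum, mul_sum]
  refine sum_le_sum fun c hc => ?_
  replace hc := (mem_filter.1 hc).2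
  rw [mul_comm]
  refine (two_fib (fun x : X => (x : X ⧸ K1))
    (t := (univ.filter (· ∈ K2)).image fun b => ((x₀ * b : X) : X ⧸ K1)) (fun x k => ?_)
    fun S hS hq => two_coset fun s hs s' hs' => ?_).trans (Nat.mul_le_mul_left _ (card_image_le.trans ?_))
  · obtain ⟨a, ha, b, hb, e⟩ := h.dec _ (mem_filter.1 k).2.1
    refine mem_image.2 ⟨b, by simpa using hb, QuotientGroup.eq.2 ?_⟩
    rw [mul_inv_rev, mul_assoc, e, h.com a ha b hb, inv_mul_cancel_left]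
    exact ha
  · have k1 : s⁻¹ * s' ∈ K1 := QuotientGroup.eq.1 (hq s hs s' hs')
    replace hs := (mem_filter.1 (hS hs)).2
    replace hs' := (mem_filter.1 (hS hs')).2
    refine ⟨k1, ?_⟩
    obtain ⟨k, hk⟩ : ∃ k, s' = s * k := ⟨s⁻¹ * s', by group⟩
    subst hk
    rw [inv_mul_cancel_left] at k1 ⊢
    have k2 := h.s1 s⁻¹ (fun e => n1 s hs.1 (by simpa using inv_mem e)) k k1
    have e2 := h.com _ (mul_mem (mul_mem k1 hc) (inv_mem k1)) _ k2
    have e3 : s * s * (k * c * k⁻¹) * (s * s)⁻¹ = c := by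
      calc _ = s * s * ((k * c * k⁻¹) * (s⁻¹ * k * s⁻¹⁻¹)) * (s⁻¹ * k * s⁻¹⁻¹)⁻¹ * (s * s)⁻¹ := by group
        _ = s * k * (s * k) * c * (s * k * (s * k))⁻¹ := by rw [e2]; group
        _ = c := by rw [← hs'.2]; group
    have e4 : k * c * k⁻¹ = c := by
      calc _ = (s * s)⁻¹ * (s * s * (k * c * k⁻¹) * (s * s)⁻¹) * (s * s) := by group
        _ = (s * s)⁻¹ * (c * (s * s)) := by rw [e3]; group
        _ = c := by rw [hs.2]; group
    exact mul_inv_eq_iff_eq_mul.1 e4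
  · rw [Nat.card_eq_fintype_card, Fintype.card_subtype]

theorem card_le : Nat.card K2 * Nat.card K1 ≤ Nat.card M := by
  rw [← Nat.card_prod]
  refine Nat.card_le_card_of_injective (fun p => ⟨p.1 * p.2, mul_mem (h.l2 p.1.2) (h.l1 p.2.2)⟩) fun p q e => ?_
  have e1 : (p.1 : X) * p.2 = q.1 * q.2 := congrArg Subtype.val e
  have e2 : (p.2 : X) * (q.2 : X)⁻¹ = (p.1 : X)⁻¹ * q.1 := by
    rw [mul_inv_eq_iff_eq_mul, mul_assoc, ← e1, inv_mul_cancel_left]
  have e3 := h.inf _ (mul_mem p.2.2 (inv_mem q.2.2)) (e2 ▸ mul_mem (inv_mem p.1.2) q.1.2)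
  exact Prod.ext (Subtype.ext (inv_mul_eq_one.1 (e2 ▸ e3))) (Subtype.ext (mul_inv_eq_one.1 e3))

theorem A_le {Z : Type*} [Group Z] [Fintype Z] (π : X →* Z) (hπ : Function.Surjective π) (hk : π.ker = M)
    (h2 : ∀ s ∉ N, ∀ s' ∉ N, s⁻¹ * s' ∈ N) : twoA N ≤ Nat.card N * (kk (N.map π) * kk K1) := by
  have m1 : ∀ x, π x ∈ N.map π ↔ x ∈ N := fun x => by
    rw [← Subgroup.mem_comap, Subgroup.comap_map_eq, hk, sup_eq_left.2 h.MN]
  have m2 : ∀ {x y}, π x = π y → x⁻¹ * y ∈ M := fun e => by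
    rw [← hk, MonoidHom.mem_ker, map_mul, map_inv, e, inv_mul_cancel]
  have e1 : ∀ x, twoC N x ≤ twoC M x * twoC (N.map π) (π x) := fun x =>
    two_fib π (fun n hn => by
      obtain ⟨n1, n2⟩ := (mem_filter.1 hn).2
      exact mem_filter.2 ⟨mem_univ _, (m1 n).2 n1, by rw [← map_mul, n2, map_mul]⟩) fun S hS hq =>
        two_coset fun s hs s' hs' =>
          ⟨m2 (hq s hs s' hs'), two_comm (mem_filter.1 (hS hs)).2.2 (mem_filter.1 (hS hs')).2.2⟩
  have e2 : twoA N ≤ Nat.card K2 * (Nat.card K1 * kk K1) * twoA (N.map π) := by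
    rw [twoA, twoA, mul_sum, ← sum_fiberwise_of_maps_to (g := π) (s := univ.filter (· ∉ N))
      (t := univ.filter (· ∉ N.map π)) fun x hx => mem_filter.2 ⟨mem_univ _, fun e => (mem_filter.1 hx).2 ((m1 x).1 e)⟩]
    refine sum_le_sum fun q hq => ?_
    obtain ⟨x₀, rfl⟩ := hπ q
    have hx : x₀ ∉ N := fun e => (mem_filter.1 hq).2 ((m1 _).2 e)
    refine le_trans ?_ (Nat.mul_le_mul_right _ (h.fib hx))
    rw [sum_mul]
    refine (sum_le_sum (g := fun x => twoC M x * twoC (N.map π) (π x₀)) fun x k => ?_).trans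
      (sum_le_sum_of_subset fun x k => ?_)
    · exact (e1 x).trans (by rw [(mem_filter.1 k).2])
    · exact mem_filter.2 ⟨mem_univ _, m2 (mem_filter.1 k).2.symm⟩
  have e3 := twoA_le (N := N.map π) fun s hs s' hs' => by
    obtain ⟨s, rfl⟩ := hπ s
    obtain ⟨s', rfl⟩ := hπ s'
    rw [← map_inv, ← map_mul]
    exact (m1 _).2 (h2 s (fun e => hs ((m1 _).2 e)) s' fun e => hs' ((m1 _).2 e))
  have e4 : Nat.card M * Nat.card (N.map π) = Nat.card N := by
    rw [← Subgroup.relIndex_ker, hk, Subgroup.relIndex, ← (M.subgroupOf N).card_mul_index,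
      Nat.card_congr (Subgroup.subgroupOfEquivOfLe h.MN).toEquiv]
  calc _ ≤ _ := e2
    _ ≤ Nat.card M * kk K1 * (Nat.card (N.map π) * kk (N.map π)) := by
      rw [← mul_assoc (Nat.card K2)]
      exact Nat.mul_le_mul (Nat.mul_le_mul_right _ h.card_le) e3
    _ = _ := by rw [← e4]; ring

end TwoD
end abs

theorem two_num {b k : ℕ} (h3 : 3 ≤ b) (h : 2 * k ≤ Fu b * Fu b + 3 * (Fu (b - 1) * Fu b)) :
    k ^ 2 ≤ 3 ^ (2 * b - 1) := by
  obtain rfl | h4 := h3.eq_or_lt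
  · have : k ≤ 13 := by norm_num [Fu] at h; omega
    exact (Nat.pow_le_pow_left this 2).trans (by norm_num)
  obtain ⟨j, rfl | rfl⟩ := Nat.even_or_odd' b
  · obtain ⟨j, rfl⟩ : ∃ i, j = i + 1 := ⟨j - 1, by omega⟩
    have e1 : Fu (2 * (j + 1) - 1) = 3 ^ j := by
      rw [Fu, if_neg (by omega), if_pos (by omega), show (2 * (j + 1) - 1) / 2 = j by omega]
    have e2 : 10000 * Fu (2 * (j + 1)) ≤ 17322 * 3 ^ j := by
      rw [Fu, if_neg (by omega), if_neg (by omega), show 2 * (j + 1) / 2 = j + 1 by omega, pow_succ]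
      omega
    rw [e1] at h
    rw [show 2 * (2 * (j + 1)) - 1 = j * 4 + 3 by omega, pow_add, pow_mul]
    generalize 3 ^ j = x at *
    generalize Fu (2 * (j + 1)) = y at *
    have e3 : 10 * k ≤ 42 * x ^ 2 := by nlinarith
    nlinarith [Nat.mul_le_mul e3 e3]
  · have e1 : Fu (2 * j + 1) = 3 ^ j := by
      rw [Fu, if_neg (by omega), if_pos (by omega), show (2 * j + 1) / 2 = j by omega]
    have e2 : 10000 * Fu (2 * j + 1 - 1) ≤ 5774 * 3 ^ j := by
      rw [Fu, if_neg (by omega), if_neg (by omega), show (2 * j + 1 - 1) / 2 = j by omega]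
      omega
    rw [e1] at h
    rw [show 2 * (2 * j + 1) - 1 = j * 4 + 1 by omega, pow_add, pow_mul]
    generalize 3 ^ j = x at *
    generalize Fu (2 * j + 1 - 1) = y at *
    have e3 : 10 * k ≤ 14 * x ^ 2 := by nlinarith
    nlinarith [Nat.mul_le_mul e3 e3]

theorem two_Fu_pos (m : ℕ) : 1 ≤ Fu m := le_trans (by norm_num [Fu]) (Fu_mono (Nat.zero_le m))

variable {α : Type u} [Fintype α]

theorem two_quot {p0 : ℕ} {H : Subgroup (Perm α)} (h0 : ¬ p0 ∣ Nat.card H) {C : Set α} (ih : KB.{u} p0 C.ncard)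
    (Y : Subgroup H) (hY : ∀ y ∈ Y, ∀ a ∈ C, y • a ∈ C) {Z : Type*} [Group Z] (φ : Y →* Z)
    (h1 : Function.Surjective φ) (h2 : ∀ y : Y, (∀ a ∈ C, (y : H) • a = a) → φ y = 1) : kk Z ≤ Fu C.ncard := by
  let S : SubMulAction Y α := ⟨C, fun g a ha => hY g g.2 a ha⟩
  have e0 : Fintype.card S = C.ncard := by rw [← Nat.card_eq_fintype_card]; rfl
  let ρ := (MulAction.toPermHom Y S).rangeRestrict
  have hρ : Function.Surjective ρ := MonoidHom.rangeRestrict_surjective _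
  let ψ := ρ.liftOfSurjective hρ ⟨φ, fun y hy => h2 y fun a ha =>
    congrArg Subtype.val (Equiv.congr_fun (congrArg Subtype.val (MonoidHom.mem_ker.1 hy)) ⟨a, ha⟩)⟩
  refine (KPerm.k_le_of_surj ψ fun z => ?_).trans (e0 ▸ KB.le_Fu (e0 ▸ ih) _ fun e => h0 (e.trans
    ((Subgroup.card_range_dvd _).trans Y.card_subgroup_dvd_card)))
  obtain ⟨y, rfl⟩ := h1 z
  exact ⟨ρ y, MonoidHom.liftOfRightInverse_comp_apply _ _ _ _ y⟩

open Pointwise in
theorem k_two {p0 : ℕ} (H : Subgroup (Perm α)) (h0 : ¬ p0 ∣ Nat.card H)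
    (ih : ∀ m < Fintype.card α, KB.{u} p0 m) (htr : MulAction.IsPretransitive H α) (B : Set α)
    (hB : MulAction.IsBlock H B) (h3 : 3 ≤ B.ncard) (h2 : 2 * B.ncard = Fintype.card α)
    (hmin : ∀ C : Set α, MulAction.IsBlock H C → C ⊆ B → C.Subsingleton ∨ C = B) :
    kk H ^ 2 ≤ 3 ^ (Fintype.card α - 1) := by
  set N := MulAction.stabilizer H B
  have cB : Bᶜ.ncard = B.ncard := by
    have := Set.ncard_add_ncard_compl B
    rw [Nat.card_eq_fintype_card] at this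
    omega
  have iN : N.index = 2 := by
    have := hB.ncard_block_mul_ncard_orbit_eq (Set.nonempty_of_ncard_ne_zero (by omega))
    rw [← MulAction.index_stabilizer, Nat.card_eq_fintype_card, ← h2, mul_comm] at this
    exact Nat.eq_of_mul_eq_mul_right (by omega) this
  have i2 : ∀ s ∉ N, ∀ s' ∉ N, s⁻¹ * s' ∈ N := fun s hs s' hs' => by
    rw [Subgroup.mul_mem_iff_of_index_two iN, inv_mem_iff]
    exact iff_of_false hs hs'
  have hN : ∀ g ∈ N, ∀ a, g • a ∈ B ↔ a ∈ B := fun g hg a => by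
    rw [← Set.smul_mem_smul_set_iff (a := g) (s := B) (x := a), MulAction.mem_stabilizer_iff.1 hg]
  have hO : ∀ g ∉ N, ∀ a, g • a ∈ B ↔ a ∉ B := fun g hg a => by
    have d := ((MulAction.isBlock_iff_smul_eq_or_disjoint.1 hB) g⁻¹).resolve_left fun e =>
      hg (inv_mem_iff.1 (MulAction.mem_stabilizer_iff.2 e))
    have := Set.eq_of_subset_of_ncard_le d.subset_compl_right (by rw [cB, Set.ncard_smul_set])
    rw [← Set.mem_inv_smul_set_iff, this, Set.mem_compl_iff]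
  set K1 := fixingSubgroup H Bᶜ
  set K2 := fixingSubgroup H B
  have m1 : ∀ {g : H}, g ∈ K1 ↔ ∀ a ∉ B, g • a = a := mem_fixingSubgroup_iff H
  have m2 : ∀ {g : H}, g ∈ K2 ↔ ∀ a ∈ B, g • a = a := mem_fixingSubgroup_iff H
  obtain ⟨a₀, ha₀⟩ : B.Nonempty := Set.nonempty_of_ncard_ne_zero (by omega)
  obtain ⟨a₁, ha₁⟩ : Bᶜ.Nonempty := Set.nonempty_of_ncard_ne_zero (by omega)
  have l1 : K1 ≤ N := fun g hg => by_contra fun e => ha₁ (m1.1 hg a₁ ha₁ ▸ (hO g e a₁).2 ha₁)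
  have l2 : K2 ≤ N := fun g hg => by_contra fun e => (hO g e a₀).1 ((m2.1 hg a₀ ha₀).symm ▸ ha₀) ha₀
  have cj : ∀ (x k : H) (a : α), k • x⁻¹ • a = x⁻¹ • a → (x * k * x⁻¹) • a = a := fun x k a e => by
    rw [mul_smul, mul_smul, e, smul_inv_smul]
  have s1 : ∀ x ∉ N, ∀ k ∈ K1, x * k * x⁻¹ ∈ K2 := fun x hx k hk => m2.2 fun a ha =>
    cj x k a (m1.1 hk _ fun e => (hO _ (by rwa [inv_mem_iff]) a).1 e ha)
  have s2 : ∀ x ∉ N, ∀ k ∈ K2, x * k * x⁻¹ ∈ K1 := fun x hx k hk => m1.2 fun a ha =>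
    cj x k a (m2.1 hk _ ((hO _ (by rwa [inv_mem_iff]) a).2 ha))
  have t1 : ∀ x ∈ N, ∀ k ∈ K1, x * k * x⁻¹ ∈ K1 := fun x hx k hk => m1.2 fun a ha =>
    cj x k a (m1.1 hk _ fun e => ha ((hN _ (inv_mem hx) a).1 e))
  have t2 : ∀ x ∈ N, ∀ k ∈ K2, x * k * x⁻¹ ∈ K2 := fun x hx k hk => m2.2 fun a ha =>
    cj x k a (m2.1 hk _ ((hN _ (inv_mem hx) a).2 ha))
  have one : ∀ g : H, (∀ a : α, g • a = a) → g = 1 := fun g e => Subtype.ext (Equiv.ext e)
  have inf : ∀ g ∈ K1, g ∈ K2 → g = 1 := fun g g1 g2 => one g fun a =>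
    (em (a ∈ B)).elim (m2.1 g2 a) (m1.1 g1 a)
  have com : ∀ a ∈ K1, ∀ b ∈ K2, a * b = b * a := fun a ha b hb => by
    have := inf (a * (b * a⁻¹ * b⁻¹)) (mul_mem ha (t1 b (l2 hb) _ (inv_mem ha))) (by
      simpa only [mul_assoc] using mul_mem (t2 a (l1 ha) b hb) (inv_mem hb))
    calc _ = a * (b * a⁻¹ * b⁻¹) * (b * a) := by group
      _ = _ := by rw [this, one_mul]
  let M : Subgroup H :=
    { carrier := {m | ∃ a ∈ K1, ∃ b ∈ K2, m = a * b}
      one_mem' := ⟨1, one_mem _, 1, one_mem _, (one_mul 1).symm⟩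
      mul_mem' := by
        rintro _ _ ⟨a, ha, b, hb, rfl⟩ ⟨a', ha', b', hb', rfl⟩
        exact ⟨_, mul_mem ha ha', _, mul_mem hb hb', (show Commute a' b from com _ ha' _ hb).symm.mul_mul_mul_comm _ _⟩
      inv_mem' := by
        rintro _ ⟨a, ha, b, hb, rfl⟩
        exact ⟨_, inv_mem ha, _, inv_mem hb, by rw [com _ ha _ hb, mul_inv_rev]⟩ }
  have D : TwoD N K1 K2 M := ⟨com, inf, fun _ h => h, fun a ha => ⟨a, ha, 1, one_mem _, (mul_one a).symm⟩,
    fun a ha => ⟨1, one_mem _, a, ha, (one_mul a).symm⟩, by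
      rintro _ ⟨a, ha, b, hb, rfl⟩
      exact mul_mem (l1 ha) (l2 hb), s1, s2⟩
  have nM : M.Normal := ⟨by
    rintro _ ⟨a, ha, b, hb, rfl⟩ x
    rw [← conj_mul]
    by_cases hx : x ∈ N
    · exact mul_mem (D.l1 (t1 x hx a ha)) (D.l2 (t2 x hx b hb))
    · exact mul_mem (D.l2 (s1 x hx a ha)) (D.l1 (s2 x hx b hb))⟩
  have ib := ih B.ncard (by omega)
  have k1 : kk K1 ≤ Fu B.ncard := two_quot h0 ib K1 (fun y hy a ha => (hN y (l1 hy) a).2 ha) (MonoidHom.id _)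
    Function.surjective_id fun y hy => Subtype.ext (inf _ y.2 (m2.2 hy))
  have k2 : kk K2 ≤ Fu B.ncard := cB ▸ two_quot h0 (C := Bᶜ) (cB ▸ ib) K2
    (fun y hy a ha e => ha ((hN y (l2 hy) a).1 e)) (MonoidHom.id _)
    Function.surjective_id fun y hy => Subtype.ext (inf _ (m1.2 hy) y.2)
  have n2 : (K2.subgroupOf N).Normal := ⟨fun k hk x => t2 x x.2 k hk⟩
  have kN : kk N ≤ kk K2 * Fu B.ncard := (Fgs.card_conjClasses_le_mul_quotient (K2.subgroupOf N)).trans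
    (Nat.mul_le_mul (KPerm.k_le_of_surj (Subgroup.subgroupOfEquivOfLe l2).symm.toMonoidHom (MulEquiv.surjective _))
      (two_quot h0 ib N (fun y hy a ha => (hN y hy a).2 ha) (QuotientGroup.mk' _) (QuotientGroup.mk'_surjective _)
        fun y hy => (QuotientGroup.eq_one_iff _).2 (m2.2 hy)))
  have tot := two_tot i2
  rw [← N.card_mul_index, iN] at tot
  have pos : 0 < Nat.card N := Nat.card_pos
  rw [← h2]
  refine two_num h3 (Nat.le_of_mul_le_mul_left ?_ pos)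
  have p1 := two_Fu_pos B.ncard
  have p2 := two_Fu_pos (B.ncard - 1)
  by_cases hK : ∀ k ∈ K1, k = 1
  · obtain ⟨x, hx⟩ : ∃ x, x ∉ N := by
      by_contra! e
      rw [(Subgroup.eq_top_iff' N).2 e, Subgroup.index_top] at iN
      omega
    have : Subsingleton K2 := ⟨fun a b => Subtype.ext (by
      rw [conj_eq_one_iff.1 (hK _ (s2 x hx a a.2)), conj_eq_one_iff.1 (hK _ (s2 x hx b b.2))])⟩
    have e1 : kk K2 ≤ 1 := (KPerm.k_le_card K2).trans (Finite.card_le_one_iff_subsingleton.2 this)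
    have e2 : kk N ≤ Fu B.ncard := kN.trans (by simpa using Nat.mul_le_mul_right (Fu B.ncard) e1)
    have e3 := twoA_le i2
    have e4 : 4 * kk N ≤ Fu B.ncard * Fu B.ncard + 3 * (Fu (B.ncard - 1) * Fu B.ncard) := by nlinarith
    nlinarith [Nat.mul_le_mul_left (Nat.card N) e4]
  push Not at hK
  obtain ⟨k, hk, k0⟩ := hK
  obtain ⟨a, ka⟩ : ∃ a : α, k • a ≠ a := by
    by_contra! e
    exact k0 (one k e)
  have ha : a ∈ B := by_contra fun e => ka (m1.1 hk a e)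
  have tr : MulAction.orbit M a = B := (hmin _ (MulAction.IsBlock.orbit_of_normal a) (by
    rintro _ ⟨m, rfl⟩
    exact (hN m (D.MN m.2) a).2 ha)).resolve_left fun e =>
      ka (e ⟨⟨k, D.l1 hk⟩, rfl⟩ (MulAction.mem_orbit_self a))
  have cD : (B \ {a}).ncard = B.ncard - 1 := Set.ncard_sdiff_singleton_of_mem ha
  have kQ : kk (N.map (QuotientGroup.mk' M)) ≤ Fu (B.ncard - 1) := by
    rw [← cD]
    refine two_quot h0 (C := B \ {a}) (ih _ (by omega)) (N ⊓ MulAction.stabilizer H a) (fun y hy c hc => ⟨(hN y hy.1 c).2 hc.1,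
      fun e => hc.2 (smul_left_cancel y (e.trans (MulAction.mem_stabilizer_iff.1 hy.2).symm))⟩)
      (((QuotientGroup.mk' M).subgroupMap N).comp (Subgroup.inclusion inf_le_left)) ?_ fun y hy =>
        Subtype.ext ((QuotientGroup.eq_one_iff _).2 (D.l2 (m2.2 fun c hc => ?_)))
    · rintro ⟨_, n, hn, rfl⟩
      obtain ⟨m, hm⟩ : n⁻¹ • a ∈ MulAction.orbit M a := tr ▸ (hN _ (inv_mem hn) a).2 ha
      refine ⟨⟨n * m, mul_mem hn (D.MN m.2), ?_⟩, Subtype.ext (QuotientGroup.eq.2 ?_)⟩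
      · change (n * m : H) • a = a
        rw [mul_smul, show (m : H) • a = _ from hm, smul_inv_smul]
      · simp
    · by_cases e : c = a
      · exact e ▸ y.2.2
      · exact hy c ⟨hc, e⟩
  have e3 := (D.A_le _ (QuotientGroup.mk'_surjective M) (QuotientGroup.ker_mk' M) i2).trans (Nat.mul_le_mul_left _ (Nat.mul_le_mul kQ k1))
  have e4 := Nat.mul_le_mul_left (Nat.card N) (kN.trans (Nat.mul_le_mul_right _ k2))
  nlinarith

end CfsgLib.KP3
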