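import Cfsg.Agent.Lib.KP3.Mat
import Cfsg.Agent.Lib.KP3.Two

/-! Reduction to primitive groups. -/

set_option autoImplicit false

namespace CfsgLib.KP3

open Equiv Finset CfsgLib.Psx
open CfsgLib.KPerm (kap rep cyc)
open scoped Classical

universe u

variable {α : Type u} [Fintype α]

/-- a bound for the squares of the class numbers in degree `m` -/
def RedB (p0 m c : ℕ) : Prop := ∀ (β : Type u) [Fintype β] (H : Subgroup (Perm β)),
  Fintype.card β = m → ¬ p0 ∣ Nat.card H → kk H ^ 2 ≤ c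

theorem red_of {p0 m : ℕ} (h : KB.{u} p0 m) (hm : 3 ≤ m) : RedB.{u} p0 m (3 ^ (m - 1)) :=
  fun β _ H h1 h2 => h β H h1 h2 hm

theorem red_small {p0 m : ℕ} (h0 : 0 < m) (h : KB.{u} p0 m) :
    ∃ c, RedB.{u} p0 m c ∧ 3 * c ≤ 4 * 3 ^ (m - 1) := by
  by_cases hm : 3 ≤ m
  · exact ⟨_, red_of h hm, by omega⟩
  refine ⟨m.factorial ^ 2, fun β _ H h1 _ => Nat.pow_le_pow_left ((KPerm.k_le_card H).trans
    (h1 ▸ Nat.le_of_dvd (Nat.factorial_pos _) (KPerm.card_dvd_fac H))) 2, ?_⟩
  obtain rfl | rfl : m = 1 ∨ m = 2 := by omega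
  all_goals decide

theorem red_ker {X β : Type u} [Group X] [Finite X] [Fintype β] [MulAction X β] {p0 m c : ℕ}
    (hm : Fintype.card β = m) (h : RedB.{u} p0 m c) (h0 : ¬ p0 ∣ Nat.card X) :
    kk X ^ 2 ≤ kk (MulAction.toPermHom X β).ker ^ 2 * c := by
  refine (Nat.pow_le_pow_left (Fgs.card_conjClasses_le_mul_quotient (MulAction.toPermHom X β).ker) 2).trans ?_
  rw [mul_pow]
  exact Nat.mul_le_mul_left _ ((Nat.pow_le_pow_left (KPerm.k_le_of_surj
    (QuotientGroup.quotientKerEquivRange (MulAction.toPermHom X β)).symm.toMonoidHom (MulEquiv.surjective _)) 2).trans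
    (h β _ hm fun e => h0 (e.trans (Subgroup.card_range_dvd _))))

theorem red_fibres {p0 : ℕ} {ι : Type*} [DecidableEq ι] (f : α → ι) (s : Finset ι) (c : ι → ℕ)
    (hs : ∀ i ∈ s, RedB.{u} p0 (univ.filter (f · = i)).card (c i)) :
    ∀ (X : Type u) [Group X] [Finite X] [MulAction X α], ¬ p0 ∣ Nat.card X →
      (∀ (g : X) a, f (g • a) = f a) → (∀ g : X, (∀ a, f a ∈ s → g • a = a) → g = 1) →
      kk X ^ 2 ≤ ∏ i ∈ s, c i := by
  induction s using Finset.induction_on with
  | empty =>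
    intro X _ _ _ _ _ h
    have : Subsingleton X := ⟨fun a b => by rw [h a (by simp), h b (by simp)]⟩
    simpa using (KPerm.k_le_card X).trans (Finite.card_le_one_iff_subsingleton.2 this)
  | insert i s hi ih =>
    intro X _ _ _ hX hf h
    let S : SubMulAction X α := ⟨{a | f a = i}, fun g a ha => (hf g a).trans ha⟩
    rw [prod_insert hi, mul_comm]
    have h0 : ∀ a, a ∈ univ.filter (f · = i) ↔ a ∈ S := fun a => mem_filter_univ a
    refine (red_ker (β := S) (Fintype.card_of_subtype _ h0) (hs i (mem_insert_self _ _)) hX).trans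
      (Nat.mul_le_mul_right _ (ih (fun j hj => hs j (mem_insert_of_mem hj)) _
        (fun e => hX (e.trans (Subgroup.card_subgroup_dvd_card _)))
        (fun g a => hf g a) fun g hg => Subtype.ext (h g fun a ha => ?_)))
    rcases mem_insert.1 ha with ha | ha
    · exact congrArg Subtype.val (Equiv.congr_fun (MonoidHom.mem_ker.1 g.2) ⟨a, ha⟩)
    · exact hg a ha

open Pointwise in
theorem red_f (H : Subgroup (Perm α)) (htr : MulAction.IsPretransitive H α) {B : Set α}
    (hB : MulAction.IsBlock H B) (hne : B.Nonempty) : ∃ f : α → Set α, (∀ (g : H) x, f (g • x) = g • f x) ∧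
      (∀ x y, f y = f x ↔ y ∈ f x) ∧ ∀ x, (f x).ncard = B.ncard := by
  obtain ⟨a, ha⟩ := hne
  have k : ∀ x, ∃ g : H, x ∈ g • B := fun x => by
    obtain ⟨g, rfl⟩ := MulAction.exists_smul_eq H a x
    exact ⟨g, Set.smul_mem_smul_set ha⟩
  choose t ht using k
  have e : ∀ (g : H) x, x ∈ g • B → t x • B = g • B := fun g x hx =>
    (hB.smul_eq_smul_or_disjoint _ _).resolve_right fun d => Set.disjoint_left.1 d (ht x) hx
  refine ⟨fun x => t x • B, fun g x => ?_, fun x y => ⟨fun h => h ▸ ht y, e _ _⟩,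
    fun x => Set.ncard_smul_set _ _⟩
  beta_reduce
  rw [e (g * t x) _ (by rw [mul_smul]; exact Set.smul_mem_smul_set (ht x)), mul_smul]

theorem k_intrans {p0 : ℕ} (H : Subgroup (Perm α)) (h0 : ¬ p0 ∣ Nat.card H)
    (ih : ∀ m < Fintype.card α, KB.{u} p0 m) (hn : 3 ≤ Fintype.card α)
    (htr : ¬ MulAction.IsPretransitive H α) : kk H ^ 2 ≤ 3 ^ (Fintype.card α - 1) := by
  have : ∃ c d : α, d ∉ MulAction.orbit H c := by
    by_contra! h1
    exact htr ⟨h1⟩
  obtain ⟨c, d, hcd⟩ := this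
  let f : α → Bool := fun x => decide (x ∈ MulAction.orbit H c)
  have h1 : (univ.filter (f · = true)).card + (univ.filter (f · = false)).card = Fintype.card α := by
    rw [← card_univ, card_eq_sum_card_fiberwise (s := univ) (f := f) (t := univ) (fun _ _ => mem_univ _),
      Fintype.sum_bool]
  have h2 : 0 < (univ.filter (f · = true)).card := card_pos.2 ⟨c, by simp [f]⟩
  have h3 : 0 < (univ.filter (f · = false)).card := card_pos.2 ⟨d, by simp [f, hcd]⟩
  obtain ⟨c1, a1, b1⟩ := red_small h2 (ih _ (by omega))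
  obtain ⟨c2, a2, b2⟩ := red_small h3 (ih _ (by omega))
  have h4 := red_fibres (p0 := p0) f univ (fun i => cond i c1 c2) (by rintro (_ | _) -; exacts [a2, a1]) H h0
    (fun g a => by simp only [f, decide_eq_decide]; exact
      ⟨fun e => by simpa using MulAction.mem_orbit_of_mem_orbit g⁻¹ e, MulAction.mem_orbit_of_mem_orbit g⟩)
    (fun g hg => Subtype.ext (Equiv.ext fun a => hg a (mem_univ _)))
  rw [Fintype.prod_bool] at h4
  refine h4.trans ?_
  obtain ⟨x, hx⟩ := Nat.exists_eq_add_one.2 h2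
  obtain ⟨y, hy⟩ := Nat.exists_eq_add_one.2 h3
  rw [hx, Nat.add_sub_cancel] at b1
  rw [hy, Nat.add_sub_cancel] at b2
  rw [← h1, hx, hy, show x + 1 + (y + 1) - 1 = x + y + 1 by omega, pow_succ, pow_add]
  have := Nat.mul_le_mul b1 b2
  simp only [cond_true, cond_false]
  nlinarith [Nat.zero_le (3 ^ x * 3 ^ y)]

open Pointwise

theorem k_blocks {p0 : ℕ} (H : Subgroup (Perm α)) (h0 : ¬ p0 ∣ Nat.card H)
    (ih : ∀ m < Fintype.card α, KB.{u} p0 m) (htr : MulAction.IsPretransitive H α) (B : Set α)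
    (hB : MulAction.IsBlock H B) (h3 : 3 ≤ B.ncard) (h2 : 2 * B.ncard < Fintype.card α) :
    kk H ^ 2 ≤ 3 ^ (Fintype.card α - 1) := by
  obtain ⟨f, hf, f1, f2⟩ := red_f H htr hB (Set.nonempty_of_ncard_ne_zero (by omega))
  let S : SubMulAction H (Set α) := ⟨(univ.image f : Finset (Set α)), fun g B hB => by
    obtain ⟨a, -, rfl⟩ := mem_image.1 (mem_coe.1 hB)
    exact mem_coe.2 (mem_image.2 ⟨g • a, mem_univ _, hf g a⟩)⟩
  let _ : Fintype S := inferInstanceAs (Fintype (univ.image f : Finset (Set α)))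
  have h4 : ∀ i ∈ univ.image f, (univ.filter (f · = i)).card = B.ncard := fun i hi => by
    obtain ⟨a, -, rfl⟩ := mem_image.1 hi
    rw [← f2 a, ← Set.ncard_coe_finset]
    congr 1
    ext y
    simp [f1]
  have h5 : (univ.image f).card * B.ncard = Fintype.card α := by
    rw [← card_univ, card_eq_sum_card_image f, sum_congr rfl h4, sum_const, smul_eq_mul]
  have h6 : 2 < (univ.image f).card := Nat.lt_of_mul_lt_mul_right (h5 ▸ h2)
  have h7 := Nat.mul_le_mul_left (univ.image f).card h3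
  have h8 := red_fibres (p0 := p0) f (univ.image f) (fun _ => 3 ^ (B.ncard - 1))
    (fun i hi => by rw [h4 i hi]; exact red_of (ih _ (by omega)) h3) (MulAction.toPermHom H S).ker
    (fun e => h0 (e.trans (Subgroup.card_subgroup_dvd_card _)))
    (fun g a => (hf g a).trans (congrArg Subtype.val (Equiv.congr_fun (MonoidHom.mem_ker.1 g.2)
      ⟨f a, mem_coe.2 (mem_image_of_mem _ (mem_univ a))⟩)))
    (fun g hg => Subtype.ext (Subtype.ext (Equiv.ext fun a =>
      hg a (mem_image_of_mem _ (mem_univ a)))))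
  refine (red_ker (β := S) (Fintype.card_coe _) (red_of (ih _ (by omega)) h6) h0).trans
    ((Nat.mul_le_mul_right _ h8).trans ?_)
  rw [prod_const, ← pow_mul, ← pow_add, Nat.sub_one_mul, mul_comm B.ncard, h5]
  exact Nat.pow_le_pow_right (by norm_num) (by omega)

theorem k_imprim {p0 : ℕ} (H : Subgroup (Perm α)) (h0 : ¬ p0 ∣ Nat.card H)
    (ih : ∀ m < Fintype.card α, KB.{u} p0 m) (hn : 3 ≤ Fintype.card α)
    (hp : ¬ MulAction.IsPreprimitive H α) : kk H ^ 2 ≤ 3 ^ (Fintype.card α - 1) := by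
  by_cases htr : MulAction.IsPretransitive H α
  swap
  · exact k_intrans H h0 ih hn htr
  have : ∃ B : Set α, MulAction.IsBlock H B ∧ ¬ MulAction.IsTrivialBlock B := by
    by_contra! h1
    exact hp ⟨fun hB => h1 _ hB⟩
  obtain ⟨B, ⟨hB, h1⟩, hm⟩ := exists_minimalFor_of_wellFoundedLT _ Set.ncard this
  have h2 : 2 * B.ncard ≤ Fintype.card α := by
    by_contra h2
    exact h1 (Or.inr (hB.eq_univ_of_card_lt (by rw [Nat.card_eq_fintype_card]; omega)))
  have h3 : 1 < B.ncard := by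
    by_contra h3
    exact h1 (Or.inl fun a ha b hb => (Set.ncard_le_one (Set.toFinite B)).1 (by omega) a ha b hb)
  by_cases h4 : B.ncard = 2
  · obtain ⟨f, hf, f1, f2⟩ := red_f H htr hB (Set.nonempty_of_ncard_ne_zero (by omega))
    have k : ∀ x, ∃ y, y ≠ x ∧ y ∈ f x ∧ ∀ w ∈ f x, w ≠ x → w = y := fun x => by
      obtain ⟨a, b, hab, e⟩ := Set.ncard_eq_two.1 ((f2 x).trans h4)
      have hx := (f1 x x).1 rfl
      rw [e] at hx ⊢
      rcases hx with rfl | rfl
      · exact ⟨b, hab.symm, by simp, fun w hw h => hw.resolve_left h⟩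
      · exact ⟨a, hab, by simp, fun w hw h => hw.resolve_right h⟩
    choose z z1 z2 z3 using k
    have zz : Function.Involutive z := fun x =>
      (z3 (z x) x ((f1 _ _).1 ((f1 _ _).2 (z2 x)).symm) (z1 x).symm).symm
    refine k_match H hn (zz.toPerm z) z1 (Equiv.ext zz) fun h hh => Equiv.ext fun x => ?_
    refine z3 (h x) _ ?_ (h.injective.ne (z1 x))
    rw [show h x = (⟨h, hh⟩ : H) • x from rfl, hf]
    exact Set.smul_mem_smul_set (z2 x)
  rcases h2.eq_or_lt with h2 | h2
  · refine k_two H h0 ih htr B hB (by omega) h2 fun C hC hCB => or_iff_not_imp_left.2 fun h5 => ?_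
    refine Set.eq_of_subset_of_ncard_le hCB (hm ⟨hC, fun h6 => h6.elim h5 fun h7 => ?_⟩
      (Set.ncard_le_ncard hCB))
    exact h1 (Or.inr (Set.eq_univ_of_univ_subset (h7 ▸ hCB)))
  · exact k_blocks H h0 ih htr B hB (by omega) h2

end CfsgLib.KP3
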