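import Cfsg.Agent.Lib.KP3.Hs

/-! Small degrees. -/

set_option autoImplicit false

namespace CfsgLib.KP3

open Equiv Finset CfsgLib.Psx
open CfsgLib.KPerm (kap rep cyc)
open scoped Classical

universe u

variable {α : Type u} [Fintype α]

theorem sml_part {n : ℕ} (hn : n ≤ 6) : Nat.card (Nat.Partition n) ≤
    ((range 4 ×ˢ range 3 ×ˢ range 2 ×ˢ range 2 ×ˢ range 2).filter fun x : ℕ × ℕ × ℕ × ℕ × ℕ =>
      2 * x.1 + 3 * x.2.1 + 4 * x.2.2.1 + 5 * x.2.2.2.1 + 6 * x.2.2.2.2 ≤ n).card := by
  have hle : ∀ (l : Nat.Partition n) i, i ∈ l.parts → i < 7 := fun l i hi => by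
    have := Nat.Partition.le_of_mem_parts hi
    omega
  have hs : ∀ l : Nat.Partition n, n = l.parts.count 1 + 2 * l.parts.count 2 +
      3 * l.parts.count 3 + 4 * l.parts.count 4 + 5 * l.parts.count 5 + 6 * l.parts.count 6 := by
    intro l
    have := Finset.sum_multiset_count_of_subset l.parts (range 7) fun i hi =>
      mem_range.2 (hle l i (Multiset.mem_toFinset.1 hi))
    rw [l.parts_sum] at this
    simp only [sum_range_succ, range_zero, sum_empty, smul_eq_mul] at this
    omega
  rw [Nat.card_eq_fintype_card, ← Finset.card_univ]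
  refine Finset.card_le_card_of_injOn (fun l => (l.parts.count 2, l.parts.count 3, l.parts.count 4,
    l.parts.count 5, l.parts.count 6)) (fun l _ => ?_) fun l _ l' _ e => ?_
  · have := hs l
    simp only [coe_filter, mem_product, mem_range, Set.mem_setOf_eq]
    omega
  · simp only [Prod.mk.injEq] at e
    have h1 := hs l
    have h2 := hs l'
    refine Nat.Partition.ext (Multiset.ext.2 fun i => ?_)
    by_cases hi : i < 7
    · have z : ∀ m : Nat.Partition n, m.parts.count 0 = 0 := fun m =>
        Multiset.count_eq_zero.2 fun h => (m.parts_pos h).ne rfl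
      have z1 := z l
      have z2 := z l'
      interval_cases i <;> omega
    · rw [Multiset.count_eq_zero.2 fun h => hi (hle l i h),
        Multiset.count_eq_zero.2 fun h => hi (hle l' i h)]

theorem sml_top : kk (⊤ : Subgroup (Perm α)) ≤ Nat.card (Nat.Partition (Fintype.card α)) :=
  (KPerm.k_le_of_surj Subgroup.topEquiv.symm.toMonoidHom (MulEquiv.surjective _)).trans
    KPerm.k_perm_le

theorem sml_p3 : Nat.card (Nat.Partition 3) ≤ 3 := (sml_part (by norm_num)).trans (by decide +kernel)
theorem sml_p4 : Nat.card (Nat.Partition 4) ≤ 5 := (sml_part (by norm_num)).trans (by decide +kernel)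
theorem sml_p5 : Nat.card (Nat.Partition 5) ≤ 7 := (sml_part (by norm_num)).trans (by decide +kernel)
theorem sml_p6 : Nat.card (Nat.Partition 6) ≤ 11 := (sml_part (by norm_num)).trans (by decide +kernel)

theorem sml_a4d : ∀ x : Perm (Fin 4), Perm.sign x = 1 → ∃ c : Perm (Fin 4), Perm.sign c = 1 ∧
    (c * x * c⁻¹ = 1 ∨ c * x * c⁻¹ = swap 0 1 * swap 2 3 ∨ c * x * c⁻¹ = swap 0 1 * swap 1 2 ∨
      c * x * c⁻¹ = swap 1 2 * swap 0 1) := by
  decide +kernel

theorem sml_a4 : kk (alternatingGroup (Fin 4)) ≤ 4 := by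
  have m : ∀ a b c d : Fin 4, a ≠ b → c ≠ d → swap a b * swap c d ∈ alternatingGroup (Fin 4) :=
    fun a b c d h1 h2 => by
      rw [Perm.mem_alternatingGroup, map_mul, Perm.sign_swap h1, Perm.sign_swap h2]
      norm_num
  let f : Fin 4 → alternatingGroup (Fin 4) := ![1, ⟨_, m 0 1 2 3 (by decide) (by decide)⟩,
    ⟨_, m 0 1 1 2 (by decide) (by decide)⟩, ⟨_, m 1 2 0 1 (by decide) (by decide)⟩]
  have hs : Function.Surjective fun i => ConjClasses.mk (f i) := by
    intro C
    obtain ⟨x, rfl⟩ := ConjClasses.mk_surjective C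
    obtain ⟨c, hc, h⟩ := sml_a4d x (Perm.mem_alternatingGroup.1 x.2)
    have key : ∀ i, c * x * c⁻¹ = (f i : Perm (Fin 4)) →
        ∃ i, ConjClasses.mk (f i) = ConjClasses.mk x := fun i hi =>
      ⟨i, (ConjClasses.mk_eq_mk_iff_isConj.2
        (isConj_iff.2 ⟨⟨c, Perm.mem_alternatingGroup.2 hc⟩, Subtype.ext hi⟩)).symm⟩
    rcases h with h | h | h | h
    · exact key 0 h
    · exact key 1 h
    · exact key 2 h
    · exact key 3 h
  simpa using Nat.card_le_card_of_surjective _ hs

set_option synthInstance.maxSize 2048 in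
theorem sml_23 : ∀ x y : Perm (Fin 4), x * x = 1 → y * y * y = 1 → x * y = y * x →
    x = 1 ∨ y = 1 := by
  decide +kernel

theorem sml_six (H : Subgroup (Perm α)) (h4 : Fintype.card α = 4) (h6 : Nat.card H = 6) :
    kk H ≤ 5 := by
  by_contra hk
  have hb : Function.Bijective (ConjClasses.mk : H → ConjClasses H) :=
    (Nat.bijective_iff_surjective_and_card _).2
      ⟨ConjClasses.mk_surjective, le_antisymm (by unfold kk at hk; omega) (KPerm.k_le_card H)⟩
  have hc : ∀ x y : H, x * y = y * x := fun x y => by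
    have : x * y * x⁻¹ = y := hb.1 (ConjClasses.mk_eq_mk_iff_isConj.2
      (isConj_iff.2 ⟨x, rfl⟩)).symm
    rw [mul_inv_eq_iff_eq_mul] at this
    exact this
  haveI : Fact (Nat.Prime 3) := ⟨by norm_num⟩
  obtain ⟨x, hx⟩ := exists_prime_orderOf_dvd_card' (G := H) 2 (by rw [h6]; norm_num)
  obtain ⟨y, hy⟩ := exists_prime_orderOf_dvd_card' (G := H) 3 (by rw [h6]; norm_num)
  let φ : H →* Perm (Fin 4) :=
    (Fintype.equivFinOfCardEq h4).permCongrHom.toMonoidHom.comp H.subtype
  have hφ : Function.Injective φ := fun a b h =>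
    Subtype.val_injective ((Fintype.equivFinOfCardEq h4).permCongrHom.injective h)
  have x2 : x * x = 1 := by rw [← pow_two, ← hx, pow_orderOf_eq_one]
  have y3 : y * y * y = 1 := by rw [← pow_three', ← hy, pow_orderOf_eq_one]
  rcases sml_23 (φ x) (φ y) (by rw [← map_mul, x2, map_one])
    (by rw [← map_mul, ← map_mul, y3, map_one]) (by rw [← map_mul, hc, map_mul]) with h | h
  · rw [(map_eq_one_iff φ hφ).1 h, orderOf_one] at hx
    omega
  · rw [(map_eq_one_iff φ hφ).1 h, orderOf_one] at hy
    omega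

theorem sml_idx (H : Subgroup (Perm α)) :
    H.index * Nat.card H = (Fintype.card α).factorial := by
  rw [H.index_mul_card, Nat.card_perm, Nat.card_eq_fintype_card]

theorem sml_alt {n : ℕ} (h : Fintype.card α = n) :
    kk (alternatingGroup α) ≤ kk (alternatingGroup (Fin n)) :=
  KPerm.k_le_of_surj (Fintype.equivFinOfCardEq h).altCongrHom.symm.toMonoidHom
    (MulEquiv.surjective _)

theorem k_le_four (H : Subgroup (Perm α)) (h3 : 3 ≤ Fintype.card α) (h4 : Fintype.card α ≤ 4) :
    kk H ^ 2 ≤ 3 ^ (Fintype.card α - 1) := by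
  have hi := sml_idx H
  have hc : kk H ≤ Nat.card H := KPerm.k_le_card H
  have ht : H.index = 1 → kk H ≤ Nat.card (Nat.Partition (Fintype.card α)) := fun h => by
    rw [Subgroup.index_eq_one.1 h]
    exact sml_top
  rcases (by omega : Fintype.card α = 3 ∨ Fintype.card α = 4) with hn | hn
  · have : kk H ≤ 3 := by
      rw [hn] at hi ht
      by_cases h1 : H.index = 1
      · exact (ht h1).trans sml_p3
      · have h0 : H.index ≠ 0 := Subgroup.FiniteIndex.index_ne_zero
        have : 2 * Nat.card H ≤ H.index * Nat.card H := Nat.mul_le_mul_right _ (by omega)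
        rw [hi] at this
        simp only [Nat.factorial] at this
        omega
    rw [hn]
    exact (Nat.pow_le_pow_left this 2).trans (by norm_num)
  · have : kk H ≤ 5 := by
      have h0 : H.index ≠ 0 := Subgroup.FiniteIndex.index_ne_zero
      rw [hn, show Nat.factorial 4 = 24 from rfl] at hi
      by_cases h1 : H.index = 1
      · exact (ht h1).trans (hn ▸ sml_p4)
      by_cases h2 : H.index = 2
      · rw [Perm.eq_alternatingGroup_of_index_eq_two h2]
        exact (sml_alt hn).trans (sml_a4.trans (by norm_num))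
      by_cases h3 : H.index = 3
      · rw [h3] at hi
        have hP : IsPGroup 2 H := IsPGroup.of_card (n := 3) (by omega)
        exact (k2_le H hP).trans (by rw [hn]; decide)
      by_cases h4 : H.index = 4
      · rw [h4] at hi
        exact sml_six H hn (by omega)
      · have : 5 * Nat.card H ≤ H.index * Nat.card H := Nat.mul_le_mul_right _ (by omega)
        omega
    rw [hn]
    exact (Nat.pow_le_pow_left this 2).trans (by norm_num)

theorem k_alt {p0 : ℕ} (hp : p0 = 3 ∨ p0 = 5 ∨ p0 = 7) (H : Subgroup (Perm α))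
    (h0 : ¬ p0 ∣ Nat.card H) (h5 : 5 ≤ Fintype.card α) (hA : alternatingGroup α ≤ H) :
    kk H ^ 2 ≤ 3 ^ (Fintype.card α - 1) := by
  have : Nontrivial α := Fintype.one_lt_card_iff_nontrivial.1 (by omega)
  have h1 : H.index ∣ 2 := alternatingGroup.index_eq_two (α := α) ▸ Subgroup.index_dvd_of_le hA
  have hi := sml_idx H
  have hn : Fintype.card α < p0 := by
    by_contra hn
    have hp' : p0.Prime := by rcases hp with rfl | rfl | rfl <;> norm_num
    have hd : p0 ∣ H.index * Nat.card H := hi ▸ hp'.dvd_factorial.2 (not_lt.1 hn)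
    rcases hp'.dvd_mul.1 hd with h | h
    · have := Nat.le_of_dvd two_pos (h.trans h1)
      omega
    · exact h0 h
  have hk : kk H ≤ Nat.card (Nat.Partition (Fintype.card α)) := by
    rcases (Nat.dvd_prime Nat.prime_two).1 h1 with h | h
    · rw [Subgroup.index_eq_one.1 h]
      exact sml_top
    · rw [Perm.eq_alternatingGroup_of_index_eq_two h]
      refine (sml_alt rfl).trans ((Cfsg.Agent.S4198.card_lt h5).le.trans ?_)
      have := KPerm.k_perm_le (α := Fin (Fintype.card α))
      rwa [Fintype.card_fin] at this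
  rcases (by omega : Fintype.card α = 5 ∨ Fintype.card α = 6) with h | h
  · rw [h] at hk ⊢
    exact (Nat.pow_le_pow_left (hk.trans sml_p5) 2).trans (by norm_num)
  · rw [h] at hk ⊢
    exact (Nat.pow_le_pow_left (hk.trans sml_p6) 2).trans (by norm_num)

end CfsgLib.KP3
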