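import Cfsg.Agent.Lib.KP3.Snd
import Cfsg.Agent.Lib.KP3.LocI
import Cfsg.Agent.Lib.KP3.NumS
import Cfsg.Agent.Lib.KP3.LgU
import Cfsg.Agent.Lib.KP3.HuU
import Cfsg.Agent.Lib.KP3.LgI
import Cfsg.Agent.Lib.KP3.Red
import Cfsg.Agent.Lib.KP3.Sml
import Cfsg.Agent.Lib.Psx.Case

/-! Class numbers of permutation groups of order prime to 3, 5 or 7. -/

set_option autoImplicit false

namespace CfsgLib.KP3

open Equiv Finset CfsgLib.Psx
open CfsgLib.KPerm (kap rep cyc)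
open scoped Classical

universe u

variable {α : Type u} [Fintype α]

theorem k_prim {p0 : ℕ} (hp : p0 = 3 ∨ p0 = 5 ∨ p0 = 7) {G : Subgroup (Perm α)}
    (h0 : ¬ p0 ∣ Nat.card G) (ih : ∀ m < Fintype.card α, KB.{u} p0 m) (hP : Prim G)
    (hA : ¬ alternatingGroup α ≤ G) (hn : 5 ≤ Fintype.card α) :
    kk G ^ 2 ≤ 3 ^ (Fintype.card α - 1) := by
  obtain ⟨t, ht, hT, h⟩ := case_split hP hA
  have hp0 : 0 < p0 := by omega
  have ht1 := t_le hA hT hp0 h0
  have ht6 : t ≤ 6 := by have := Nat.mod_lt (Fintype.card α) hp0; omega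
  have ctx : ∀ D, Loc G D → Ctx G p0 D := fun D hD =>
    ⟨hD, deg4 hP hA hn, fun r hr h3 => (minS_muG hP hA hn hT hr).mono (by
      rw [cdiv, Nat.le_div_iff_mul_le hr.pos, muG, if_pos h3]
      have := hr.pos
      omega), ih, h0⟩
  have hTl : kk G ≤ Tl (Fintype.card α) → kk G ^ 2 ≤ 3 ^ (Fintype.card α - 1) :=
    sq_le_of_le_Tl (by omega)
  have hsq : ∀ N, Nat.card G ≤ N → N ^ 2 ≤ 3 ^ (Fintype.card α - 1) →
      kk G ^ 2 ≤ 3 ^ (Fintype.card α - 1) := fun N h1 h2 =>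
    (Nat.pow_le_pow_left ((KPerm.k_le_card G).trans h1) 2).trans h2
  have hs := fun h7 => num_small hn h7 hp ht ht1 fun p hp h3 => jor_bound hP hA hn hT hp h3
  rcases h with ⟨Δ, hΔ, h1, h2⟩ | ⟨h2, Δ, R, k, hΔ, h3, hR⟩
  · obtain ⟨h3, hl⟩ := loc_u hP hA hn ht hT hΔ h1 h2
    by_cases h7 : Fintype.card α < 700
    · exact hTl ((ctx _ (hl _ (lowD_DD _)).1).good ((hs h7).1 h3))
    by_cases h8 : Fintype.card α < 2 ^ 22
    · obtain ⟨d, R, hd, hb⟩ := large_u (not_lt.1 h7) h8 hp ht ht6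
      exact hTl (((ctx _ (hl d hd).1).lgu R).trans hb)
    · obtain ⟨d, b, hd, hb, hc⟩ := huge_u (not_lt.1 h8) ht ht6
      exact hsq _ ((hl d hd).2 b hb) hc
  · have hc := case_i h2 hT hΔ h3 hR
    have c := ctx _ (loc_i hP hA hn h2 hT hΔ h3 hR)
    by_cases h7 : Fintype.card α < 700
    · exact hTl (c.good ((hs h7).2 k h2 hc.two hc.dvd hc.half))
    by_cases h4 : (Fintype.card α + 2 - t - 1) / k ≤ 3
    · obtain ⟨b, hb, hd⟩ := large_i1 (not_lt.1 h7) h2 ht6 hc.two hc.half h4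
      exact hsq _ (hc.gre b hb) hd
    · exact hTl (c.lgi.trans (large_i2 (not_lt.1 h7) h2 ht6 hc.two (by omega)))

theorem kb_all {p0 : ℕ} (hp : p0 = 3 ∨ p0 = 5 ∨ p0 = 7) (n : ℕ) : KB.{u} p0 n := by
  induction n using Nat.strong_induction_on with
  | _ n ih =>
  intro β _ H hn h0 h3
  subst hn
  by_cases h4 : Fintype.card β ≤ 4
  · exact k_le_four H h3 h4
  by_cases hP : MulAction.IsPreprimitive H β
  swap
  · exact k_imprim H h0 ih h3 hP
  by_cases hA : alternatingGroup β ≤ H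
  · exact k_alt hp H h0 (by omega) hA
  exact k_prim hp h0 ih (prim_of_isPreprimitive hP) hA (by omega)

end CfsgLib.KP3
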