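import Cfsg.Agent.Lib.KP3.Peel

/-! Groups preserving a perfect matching. -/

set_option autoImplicit false

namespace CfsgLib.KP3

open Equiv Finset CfsgLib.Psx
open CfsgLib.KPerm (kap rep cyc)
open scoped Classical

universe u

variable {α : Type u} [Fintype α]

open Pointwise in
/-- the centraliser of `y` acts on the cycles of `y` -/
theorem mat_act (y : Perm α) : ∃ (β : Type u) (_ : Fintype β) (π : α → β)
    (φ : Subgroup.centralizer ({y} : Set (Perm α)) →* Perm β),
    Fintype.card β = cyc (univ : Finset α) y ∧ Function.Surjective π ∧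
    (∀ a b, π a = π b → ∃ k : ℕ, (y ^ k) a = b) ∧ ∀ c a, φ c (π a) = π ((c : Perm α) a) := by
  have key : ∀ (c : Subgroup.centralizer ({y} : Set (Perm α))) (a : α),
      c • KPerm.orb (Subgroup.zpowers y) a = KPerm.orb (Subgroup.zpowers y) (c • a) := fun c a => by
    have h := KPerm.orb_conj (c : Perm α) y a
    rw [Subgroup.mem_centralizer_singleton_iff.1 c.2, mul_inv_cancel_right] at h
    exact h.symm
  let S : SubMulAction (Subgroup.centralizer ({y} : Set (Perm α))) (Finset α) :=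
    ⟨(univ.image (KPerm.orb (Subgroup.zpowers y)) : Finset (Finset α)), fun c B hB => by
      obtain ⟨a, -, rfl⟩ := mem_image.1 (mem_coe.1 hB)
      exact mem_coe.2 (mem_image.2 ⟨c • a, mem_univ _, (key c a).symm⟩)⟩
  let _ : Fintype S := inferInstanceAs (Fintype (univ.image (KPerm.orb (Subgroup.zpowers y)) :
    Finset (Finset α)))
  refine ⟨S, inferInstance, fun a => ⟨_, mem_coe.2 (mem_image_of_mem _ (mem_univ a))⟩,
    MulAction.toPermHom _ S, Fintype.card_coe _, ?_, fun a b h => ?_,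
    fun c a => Subtype.ext (key c a)⟩
  · rintro ⟨B, hB⟩
    obtain ⟨a, -, rfl⟩ := mem_image.1 (mem_coe.1 hB)
    exact ⟨a, rfl⟩
  · have h1 : KPerm.orb (Subgroup.zpowers y) a = KPerm.orb (Subgroup.zpowers y) b :=
      congrArg Subtype.val h
    exact KPerm.mem_orb_zpowers.1 (h1 ▸ KPerm.self_mem_orb _ b)

omit [Fintype α] in
theorem mat_pow {c y : Perm α} (hc : Commute c y) {N i : ℕ} (hy : y ^ N = 1) {a : α}
    (h : (y ^ i) a = c a) : (c ^ N) a = a := by
  have h3 : ∀ j : ℕ, (c ^ j) a = ((y ^ i) ^ j) a := fun j => by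
    induction j with
    | zero => simp
    | succ j ih =>
      rw [pow_succ', Perm.mul_apply, ih, ← Perm.mul_apply, ((hc.pow_right i).pow_right j).eq,
        Perm.mul_apply, pow_succ, Perm.mul_apply, h]
  rw [h3, ← pow_mul, mul_comm, pow_mul, hy, one_pow, Perm.one_apply]

/-- bound for groups commuting with a fixed point free involution -/
def MatB (q : ℕ) (c : ℝ) : Prop := ∀ (β : Type u) [Fintype β] (H : Subgroup (Perm β)) (z : Perm β),
  (∀ x, z x ≠ x) → z * z = 1 → (∀ h ∈ H, Commute h z) →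
    (kap H q : ℝ) ≤ c ^ (Fintype.card β / 2)

theorem mat_cent {r : ℕ} (hr : r.Prime) (h2 : r ≠ 2) {c : ℝ} (hb : MatB.{u} r c)
    (H : Subgroup (Perm α)) {z : Perm α} (hz : ∀ x, z x ≠ x) (hz2 : z * z = 1)
    (hc : ∀ h ∈ H, Commute h z) (y : H) {k : ℕ} (hy : y ^ r ^ k = 1) :
    (kap (Subgroup.centralizer ({y} : Set H)) r : ℝ) ≤
      c ^ (cyc (univ : Finset α) (y : Perm α) / 2) := by
  obtain ⟨β, _, π, φ, h1, h2', h3, h4⟩ := mat_act (y : Perm α)
  have hy' : (y : Perm α) ^ r ^ k = 1 := by exact_mod_cast congrArg Subtype.val hy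
  have hm : ∀ g : Subgroup.centralizer ({y} : Set H),
      ((g : H) : Perm α) ∈ Subgroup.centralizer ({(y : Perm α)} : Set (Perm α)) := fun g =>
    Subgroup.mem_centralizer_singleton_iff.2
      (congrArg Subtype.val (Subgroup.mem_centralizer_singleton_iff.1 g.2))
  let ι : Subgroup.centralizer ({y} : Set H) →*
      Subgroup.centralizer ({(y : Perm α)} : Set (Perm α)) :=
    (H.subtype.comp (Subgroup.subtype _)).codRestrict _ hm
  have hzy : z ∈ Subgroup.centralizer ({(y : Perm α)} : Set (Perm α)) :=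
    Subgroup.mem_centralizer_singleton_iff.2 (hc y y.2).symm.eq
  rw [← h1]
  refine le_trans (Nat.cast_le.2 (KPerm.kap_le_of_surj hr le_rfl (φ.comp ι).rangeRestrict
    (φ.comp ι).rangeRestrict_surjective ?_)) (hb β (φ.comp ι).range (φ ⟨z, hzy⟩) ?_ ?_ ?_)
  · rw [MonoidHom.ker_rangeRestrict]
    intro g
    refine ⟨k, Subtype.ext (Subtype.ext (Subtype.ext (Equiv.ext fun a => ?_)))⟩
    have h5 : φ (ι g.1) = 1 := MonoidHom.mem_ker.1 g.2
    have h6 := h4 (ι g.1) a
    rw [h5, Perm.one_apply] at h6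
    obtain ⟨i, hi⟩ := h3 _ _ h6
    exact mat_pow (Subgroup.mem_centralizer_singleton_iff.1 (hm g.1)) hy' hi
  · intro x hx
    obtain ⟨a, rfl⟩ := h2' x
    rw [h4] at hx
    obtain ⟨i, hi⟩ := h3 _ _ hx.symm
    have h5 := mat_pow (hc y y.2).symm hy' hi
    obtain ⟨j, hj⟩ := (hr.odd_of_ne_two h2).pow (n := k)
    rw [hj, pow_succ, pow_mul, pow_two, hz2, one_pow, one_mul] at h5
    exact hz a h5
  · rw [← map_mul, ← map_one φ]
    exact congrArg φ (Subtype.ext hz2)
  · rintro _ ⟨g, rfl⟩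
    refine Commute.map (Subtype.ext ?_) φ
    exact (hc _ (g : H).2).eq

theorem mat_pairs (H : Subgroup (Perm α)) {z : Perm α} (hz : ∀ x, z x ≠ x) (hz2 : z * z = 1)
    (hc : ∀ h ∈ H, Commute h z) : ∃ (β : Type u) (_ : Fintype β) (φ : H →* Perm β),
      2 * Fintype.card β = Fintype.card α ∧ (∀ h, φ h = 1 → h ^ 2 = 1) ∧
      ∀ h : H, cyc (univ : Finset α) (h : Perm α) ≤ 2 * cyc (univ : Finset β) (φ h) := by
  obtain ⟨β, _, π, φ, h1, h2, h3, h4⟩ := mat_act z
  have hz2' : z ^ 2 = 1 := by rw [pow_two, hz2]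
  have hle : H ≤ Subgroup.centralizer ({z} : Set (Perm α)) := fun h hh =>
    Subgroup.mem_centralizer_singleton_iff.2 (hc h hh).eq
  have h5 : ∀ h : H, cyc (univ : Finset α) (h : Perm α) ≤
      2 * cyc (univ : Finset β) (φ (Subgroup.inclusion hle h)) := fun h => by
    choose s hs using h2
    let f : Finset β → Finset (Finset α) := fun T => (univ.filter fun a =>
      KPerm.orb (Subgroup.zpowers (φ (Subgroup.inclusion hle h))) (π a) = T).image
        (KPerm.orb (Subgroup.zpowers (h : Perm α)))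
    unfold cyc
    rw [mul_comm]
    refine le_trans (card_le_card (t := (univ.image (KPerm.orb (Subgroup.zpowers
      (φ (Subgroup.inclusion hle h))))).biUnion f) fun B hB => ?_)
      (card_biUnion_le_card_mul _ _ _ fun T hT => ?_)
    · obtain ⟨a, -, rfl⟩ := mem_image.1 hB
      exact mem_biUnion.2 ⟨_, mem_image_of_mem _ (mem_univ (π a)),
        mem_image_of_mem _ (mem_filter.2 ⟨mem_univ _, rfl⟩)⟩
    · obtain ⟨x, -, rfl⟩ := mem_image.1 hT
      refine le_trans (card_le_card (t := {KPerm.orb (Subgroup.zpowers (h : Perm α)) (s x),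
        KPerm.orb (Subgroup.zpowers (h : Perm α)) (z (s x))}) fun B hB => ?_) card_le_two
      obtain ⟨a, ha, rfl⟩ := mem_image.1 hB
      have h6 := (mem_filter.1 ha).2
      obtain ⟨i, hi⟩ := KPerm.mem_orb_zpowers.1 (h6 ▸ KPerm.self_mem_orb _ (π a))
      rw [← hs x, ← map_pow, Perm.smul_def, h4] at hi
      obtain ⟨j, hj⟩ := h3 _ _ hi
      have hj' : (z ^ j) (((h : Perm α) ^ i) (s x)) = a := hj
      rw [mem_insert, mem_singleton]
      rcases Nat.even_or_odd' j with ⟨l, rfl | rfl⟩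
      · rw [pow_mul, hz2', one_pow, Perm.one_apply] at hj'
        exact Or.inl (KPerm.orb_eq (KPerm.mem_orb_zpowers.2 ⟨i, hj'⟩))
      · rw [pow_succ, pow_mul, hz2', one_pow, one_mul, ← Perm.mul_apply,
          ← ((hc h h.2).pow_left i).eq, Perm.mul_apply] at hj'
        exact Or.inr (KPerm.orb_eq (KPerm.mem_orb_zpowers.2 ⟨i, hj'⟩))
  refine ⟨β, inferInstance, φ.comp (Subgroup.inclusion hle), le_antisymm ?_ ?_, fun h hh => ?_, h5⟩
  · have := Fact.mk Nat.prime_two
    rw [h1, ← card_univ]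
    exact KPerm.mul_cyc_le (Invol.isPGroup_zpowers_of_pow_eq_one (k := 1) (by rwa [pow_one]))
      (KPerm.inv_univ _) fun a _ => hz a
  · have := h5 1
    rwa [map_one, map_one, Subgroup.coe_one, KPerm.cyc_one, KPerm.cyc_one] at this
  · refine Subtype.ext (Equiv.ext fun a => ?_)
    have h6 := h4 (Subgroup.inclusion hle h) a
    rw [show φ (Subgroup.inclusion hle h) = 1 from hh, Perm.one_apply] at h6
    obtain ⟨i, hi⟩ := h3 _ _ h6
    exact mat_pow (hc h h.2) hz2' hi

theorem mat_step {r : ℕ} (hr : r.Prime) (h2 : r ≠ 2) {c : ℝ} (hc1 : 1 ≤ c) (hb : MatB.{u} r c)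
    (H : Subgroup (Perm α)) {z : Perm α} (hz : ∀ x, z x ≠ x) (hz2 : z * z = 1)
    (hc : ∀ h ∈ H, Commute h z) : ∃ (β : Type u) (_ : Fintype β) (Q : Subgroup (Perm β)),
      Fintype.card β = Fintype.card α / 2 ∧ IsPGroup r Q ∧
      (kap H (r + 1) : ℝ) ≤ ∑ y ∈ KPerm.E Q, c ^ cyc (univ : Finset β) y := by
  obtain ⟨β, _, φ, h1, h3, h4⟩ := mat_pairs H hz hz2 hc
  obtain ⟨P, hle, hP, h⟩ := KPerm.exists_P H hr
  let ψ := φ.comp (Subgroup.inclusion hle)
  have hψ : Function.Injective ψ := (injective_iff_map_eq_one ψ).2 fun g hg => by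
    have h5 := h3 _ hg
    rw [← map_pow, map_eq_one_iff _ (Subgroup.inclusion_injective hle)] at h5
    obtain ⟨k, hk⟩ := hP g
    obtain ⟨j, hj⟩ := (hr.odd_of_ne_two h2).pow (n := k)
    rwa [hj, pow_succ, pow_mul, h5, one_pow, one_mul] at hk
  refine ⟨β, inferInstance, ψ.range, by omega, hP.of_surjective _ ψ.rangeRestrict_surjective, ?_⟩
  have h5 : (kap H (r + 1) : ℝ) ≤ ∑ L : ConjClasses P, c ^ cyc (univ : Finset β) (ψ (rep L)) := by
    refine (Nat.cast_le.2 h).trans ?_
    rw [Nat.cast_sum]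
    refine sum_le_sum fun L _ => ?_
    obtain ⟨k, hk⟩ := hP (rep L)
    refine (mat_cent hr h2 hb H hz hz2 hc _ (k := k) (by rw [← map_pow, hk, map_one])).trans
      (pow_le_pow_right₀ hc1 ?_)
    have := h4 (Subgroup.inclusion hle (rep L))
    exact Nat.div_le_of_le_mul this
  refine h5.trans ?_
  rw [← sum_image (s := univ) (g := fun L : ConjClasses P => ψ (rep L))
    (f := fun y => c ^ cyc (univ : Finset β) y)
    fun L _ L' _ h => by rw [← KPerm.mk_rep L, ← KPerm.mk_rep L', hψ h]]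
  refine sum_le_sum_of_subset_of_nonneg (fun y hy => ?_) fun y _ _ => by positivity
  obtain ⟨L, -, rfl⟩ := mem_image.1 hy
  exact KPerm.mem_E.2 ⟨_, rfl⟩

theorem MatB.step {r : ℕ} (hr : r.Prime) (h2 : r ≠ 2) {c a : ℝ} (h : KPerm.Num r c a)
    (hb : MatB.{u} r c) : MatB.{u} (r + 1) a := fun β _ H z hz hz2 hc => by
  obtain ⟨γ, _, Q, h1, hQ, h3⟩ := mat_step hr h2 h.1 hb H hz hz2 hc
  rw [← h1]
  exact h3.trans ((KPerm.W_le hr h hQ).trans
    (KPerm.pow_mul_pow_le (by linarith [h.1]) h.2.1 _ _))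

theorem MatB.succ {q : ℕ} {c : ℝ} (hq : ¬ q.Prime) (h : MatB.{u} q c) : MatB.{u} (q + 1) c :=
  fun β _ H z hz hz2 hc => KPerm.kap_succ (X := H) hq ▸ h β H z hz hz2 hc

theorem MatB.mono {q : ℕ} {c a : ℝ} (h0 : 0 ≤ c) (hca : c ≤ a) (h : MatB.{u} q c) :
    MatB.{u} q a :=
  fun β _ H z hz hz2 hc => (h β H z hz hz2 hc).trans (pow_le_pow_left₀ h0 hca _)

theorem mat_b3 : MatB.{u} 3 (22363 / 10000) := fun β _ H z hz hz2 hc => by
  obtain ⟨γ, _, -, h1, -⟩ := mat_pairs H hz hz2 hc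
  refine (KPerm.bd3 _ β H rfl).trans ?_
  rw [← h1, pow_mul, Nat.mul_div_cancel_left _ two_pos]
  exact pow_le_pow_left₀ (by norm_num) (by norm_num) _

theorem mat_num3 : KPerm.Num 3 (22363 / 10000) (257 / 100) :=
  ⟨by norm_num, by norm_num, 9224 / 10000, 17321 / 10000, 685 / 1000, by norm_num⟩

theorem mat_num5 : KPerm.Num 5 (257 / 100) (262 / 100) :=
  ⟨by norm_num, by norm_num, 9915 / 10000, 3 / 2, 1 / 5, by norm_num⟩

theorem mat_num7 : KPerm.Num 7 (262 / 100) (263 / 100) :=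
  ⟨by norm_num, by norm_num, 992 / 1000, 14 / 10, 1 / 5, by norm_num⟩

theorem mat_b11 : MatB.{u} 11 (263 / 100) :=
  MatB.succ (by norm_num) (MatB.succ (by norm_num) (MatB.succ (by norm_num)
    (MatB.step (by norm_num) (by norm_num) mat_num7 (MatB.succ (by norm_num)
      (MatB.step (by norm_num) (by norm_num) mat_num5 (MatB.succ (by norm_num)
        (MatB.step (by norm_num) (by norm_num) mat_num3 mat_b3)))))))

theorem mat_num {p : ℕ} (hp : 11 ≤ p) {c a : ℝ} (hc : 263 / 100 ≤ c) (ha : a ≤ 264 / 100)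
    (hca : c + 3 * (100 / 263) ^ (p - 1) ≤ a) : KPerm.Num p c a := by
  have h0 : (0 : ℝ) < (100 / 263) ^ (p - 1) := by positivity
  have hη : (0 : ℝ) < (1 / 3) ^ p := by positivity
  have hη1 : (1 / 3 : ℝ) ^ p ≤ 1 / 3 := pow_le_of_le_one (by norm_num) (by norm_num) (by omega)
  have hp' : (11 : ℝ) ≤ p := by exact_mod_cast hp
  refine ⟨by linarith, by linarith, 1 - (1 / 3) ^ p, 13 / 10, 1 / 9, by linarith, by linarith,
    by norm_num, by norm_num, ?_, ?_, ?_, ?_⟩
  · have h1 := (pow_add_mul_le_add_pow (by linarith : 0 ≤ c)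
      (by linarith : 0 ≤ 2 * c + 3 * (100 / 263) ^ (p - 1)) p).trans
      (pow_le_pow_left₀ (by linarith) hca p)
    have h2 : (1 : ℝ) ≤ c ^ (p - 1) * (100 / 263) ^ (p - 1) := by
      rw [← mul_pow]; exact one_le_pow₀ (by linarith)
    have h3 : (1 / 3 : ℝ) ^ p * a ^ p ≤ 1 := by
      rw [← mul_pow]; exact pow_le_one₀ (by linarith) (by linarith)
    nlinarith
  · clear hca h0 hη hη1 hp'
    induction p, hp using Nat.le_induction with
    | base => norm_num
    | succ p hp ih =>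
      have hp' : (11 : ℝ) ≤ p := by exact_mod_cast hp
      rw [Nat.add_sub_cancel, ← Nat.sub_add_cancel (by omega : 1 ≤ p), pow_succ,
        Nat.sub_add_cancel (by omega : 1 ≤ p)]
      push_cast
      linarith
  · have h1 : (13 / 10 : ℝ) ^ p * 2 ^ 5 ≤ a ^ p := by
      refine le_trans (mul_le_mul_of_nonneg_left (pow_le_pow_right₀ (by norm_num)
        (by omega : 5 ≤ p)) (by positivity)) ?_
      rw [← mul_pow]
      exact pow_le_pow_left₀ (by norm_num) (by linarith) p
    have h2 : (0 : ℝ) < (13 / 10) ^ p := by positivity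
    nlinarith
  · have h1 : (1 - (1 / 3 : ℝ) ^ p) ^ p ≤ (1 - (1 / 3 : ℝ) ^ p) ^ 2 :=
      pow_le_pow_of_le_one (by linarith) (by linarith) (by omega)
    have h2 : (1 / 9 : ℝ) ^ p = (1 / 3) ^ p * (1 / 3) ^ p := by rw [← mul_pow]; norm_num
    rw [h2]
    generalize (1 / 3 : ℝ) ^ p = η at *
    have h3 : η * η ≤ 1 - η - (1 - η) ^ p := by nlinarith
    nlinarith [mul_pos hη hη]

theorem mat_chain {q : ℕ} (hq : 11 ≤ q) : MatB.{u} q (264 / 100 - 13 * (100 / 263) ^ q) := by
  have h0 : ∀ q, 11 ≤ q → (263 / 100 : ℝ) ≤ 264 / 100 - 13 * (100 / 263) ^ q := fun q hq => by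
    have : (100 / 263 : ℝ) ^ q ≤ (100 / 263) ^ 11 :=
      pow_le_pow_of_le_one (by norm_num) (by norm_num) hq
    norm_num at this ⊢
    linarith
  induction q, hq using Nat.le_induction with
  | base => exact mat_b11.mono (by norm_num) (h0 11 le_rfl)
  | succ q hq ih =>
    have h1 := h0 q hq
    have h2 : (264 / 100 - 13 * (100 / 263) ^ q : ℝ) + 3 * (100 / 263) ^ (q - 1) ≤
        264 / 100 - 13 * (100 / 263) ^ (q + 1) := by
      obtain ⟨q, rfl⟩ := Nat.exists_eq_add_of_le' (by omega : 1 ≤ q)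
      have : (0 : ℝ) < (100 / 263) ^ q := by positivity
      simp only [Nat.add_sub_cancel, pow_succ]
      linarith
    by_cases hp : q.Prime
    · exact ih.step hp (by omega) (mat_num hq h1 (sub_le_self _ (by positivity)) h2)
    · exact (ih.succ hp).mono (by linarith) (le_trans (le_add_of_nonneg_right (by positivity)) h2)

theorem k_match (H : Subgroup (Perm α)) (hn : 3 ≤ Fintype.card α) (z : Perm α)
    (hz : ∀ x, z x ≠ x) (hz2 : z * z = 1) (hc : ∀ h ∈ H, Commute h z) :
    kk H ^ 2 ≤ 3 ^ (Fintype.card α - 1) := by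
  obtain ⟨β, _, φ, h1, h3, -⟩ := mat_pairs H hz hz2 hc
  by_cases h5 : 5 ≤ Fintype.card β
  · have h := ((mat_chain (q := Fintype.card α + 11) (by omega)).mono ?_
      (sub_le_self (264 / 100 : ℝ) (by positivity))) α H z hz hz2 hc
    · rw [KPerm.kap_big H (by omega), ← h1, Nat.mul_div_cancel_left _ two_pos] at h
      obtain ⟨d, hd⟩ := Nat.exists_eq_add_of_le h5
      rw [← h1, hd, show 2 * (5 + d) - 1 = 9 + 2 * d by omega]
      rw [hd] at h
      have h6 : ((264 / 100 : ℝ) ^ (5 + d)) ^ 2 ≤ 3 ^ (9 + 2 * d) := by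
        rw [← pow_mul, show (5 + d) * 2 = 10 + 2 * d by omega, pow_add, pow_add]
        exact mul_le_mul (by norm_num) (pow_le_pow_left₀ (by norm_num) (by norm_num) _)
          (by positivity) (by positivity)
      exact_mod_cast (pow_le_pow_left₀ (Nat.cast_nonneg _) h 2).trans h6
    · have : (100 / 263 : ℝ) ^ (Fintype.card α + 11) ≤ (100 / 263) ^ 11 :=
        pow_le_pow_of_le_one (by norm_num) (by norm_num) (by omega)
      norm_num at this ⊢
      linarith
  have e : kap H (3 + 1) = kk H := KPerm.kap_eq_card fun r hr hd => by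
    have := Fact.mk hr
    by_contra hlt
    obtain ⟨g, hg⟩ := exists_prime_orderOf_dvd_card' r hd
    have h6 : φ g ≠ 1 := fun h => by
      have := Nat.le_of_dvd two_pos (hg ▸ orderOf_dvd_of_pow_eq_one (h3 g h))
      omega
    have h7 : orderOf (φ g) = r :=
      orderOf_eq_prime (by rw [← map_pow, ← hg, pow_orderOf_eq_one, map_one]) h6
    have h8 := orderOf_dvd_natCard (φ g)
    rw [h7, Nat.card_perm, Nat.card_eq_fintype_card, hr.dvd_factorial] at h8
    have : r = 4 := by omega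
    exact absurd (this ▸ hr) (by norm_num)
  obtain ⟨γ, _, Q, h6, hQ, h7⟩ := mat_step Nat.prime_three (by norm_num) (by norm_num) mat_b3
    H hz hz2 hc
  rw [e] at h7
  rw [← h1, Nat.mul_div_cancel_left _ two_pos] at h6
  rw [← h1, ← h6]
  have h8 : Nat.card Q ≤ 3 ^ (Fintype.card γ / 3) :=
    KPerm.card_le_pow Nat.prime_three hQ (KPerm.card_dvd_fac Q) (by
      have : Fintype.card γ < 5 := by omega
      generalize Fintype.card γ = m at *
      interval_cases m <;> decide)
  have h9 : ∑ y ∈ (KPerm.E Q).erase 1, (22363 / 10000 : ℝ) ^ cyc (univ : Finset γ) y ≤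
      ((3 ^ (Fintype.card γ / 3) - 1 : ℕ) : ℝ) * (22363 / 10000 : ℝ) ^ (Fintype.card γ - 2) := by
    refine (sum_le_card_nsmul _ _ ((22363 / 10000 : ℝ) ^ (Fintype.card γ - 2))
      fun y hy => ?_).trans ?_
    · have hy' := KPerm.mem_E.1 (mem_erase.1 hy).2
      have h10 := hQ.to_le (Subgroup.zpowers_le.2 hy')
      have := KPerm.cyc_add_le Nat.prime_three h10
        (KPerm.one_mul_le Nat.prime_three Q y hy' (mem_erase.1 hy).1 h10)
      exact pow_le_pow_right₀ (by norm_num) (by omega)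
    · rw [nsmul_eq_mul, card_erase_of_mem (KPerm.mem_E.2 Q.one_mem), KPerm.card_E]
      exact mul_le_mul_of_nonneg_right (Nat.cast_le.2 (by omega)) (by positivity)
  rw [← add_sum_erase _ _ (KPerm.mem_E.2 Q.one_mem), KPerm.cyc_one] at h7
  have h10 : (kk H : ℝ) ≤ _ := h7.trans (add_le_add le_rfl h9)
  have h11 : 2 ≤ Fintype.card γ := by omega
  have h12 : Fintype.card γ < 5 := by omega
  generalize Fintype.card γ = m at *
  generalize kk H = k at *
  interval_cases m
  · have : k < 6 := by exact_mod_cast h10.trans_lt (by norm_num : _ < (6 : ℝ))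
    exact (Nat.pow_le_pow_left (by omega : k ≤ 5) 2).trans (by norm_num)
  · have : k < 16 := by exact_mod_cast h10.trans_lt (by norm_num : _ < (16 : ℝ))
    exact (Nat.pow_le_pow_left (by omega : k ≤ 15) 2).trans (by norm_num)
  · have : k < 36 := by exact_mod_cast h10.trans_lt (by norm_num : _ < (36 : ℝ))
    exact (Nat.pow_le_pow_left (by omega : k ≤ 35) 2).trans (by norm_num)

end CfsgLib.KP3
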