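import Cfsg.Agent.Lib.KP3.Chk

/-! The check for degrees below 700: gluing ranges. -/

set_option autoImplicit false

namespace CfsgLib.KP3.NumS

/-- all degrees below `m` pass -/
def Up (m : ℕ) : Prop := ∀ n, 5 ≤ n → n < m → chkN n = true

theorem step {lo c : ℕ} (h : chkR lo c = true) (ih : Up lo) : Up (lo + c) := fun n h5 hn => by
  rcases lt_or_ge n lo with h1 | h1
  · exact ih n h5 h1
  · have := List.all_eq_true.1 h (n - lo) (List.mem_range.2 (by omega))
    rwa [Nat.add_sub_cancel' h1] at this

end CfsgLib.KP3.NumS
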