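import Cfsg.Agent.Lib.KP3.NumS0

/-! The check for degrees below 700, part 1. -/

set_option autoImplicit false

namespace CfsgLib.KP3.NumS

theorem c5 : chkR 5 5 = true := by decide +kernel
theorem c10 : chkR 10 5 = true := by decide +kernel
theorem c15 : chkR 15 5 = true := by decide +kernel
theorem c20 : chkR 20 5 = true := by decide +kernel
theorem c25 : chkR 25 5 = true := by decide +kernel
theorem c30 : chkR 30 5 = true := by decide +kernel
theorem c35 : chkR 35 5 = true := by decide +kernel
theorem c40 : chkR 40 5 = true := by decide +kernel
theorem c45 : chkR 45 5 = true := by decide +kernel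
theorem c50 : chkR 50 5 = true := by decide +kernel
theorem c55 : chkR 55 5 = true := by decide +kernel
theorem c60 : chkR 60 5 = true := by decide +kernel
theorem c65 : chkR 65 5 = true := by decide +kernel
theorem c70 : chkR 70 5 = true := by decide +kernel
theorem c75 : chkR 75 5 = true := by decide +kernel
theorem c80 : chkR 80 5 = true := by decide +kernel
theorem c85 : chkR 85 5 = true := by decide +kernel
theorem c90 : chkR 90 5 = true := by decide +kernel
theorem c95 : chkR 95 5 = true := by decide +kernel
theorem c100 : chkR 100 5 = true := by decide +kernel
theorem c105 : chkR 105 5 = true := by decide +kernel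
theorem c110 : chkR 110 5 = true := by decide +kernel
theorem c115 : chkR 115 5 = true := by decide +kernel
theorem c120 : chkR 120 5 = true := by decide +kernel
theorem c125 : chkR 125 5 = true := by decide +kernel

theorem up1 (h : Up 5) : Up 130 :=
  step c125 <| step c120 <| step c115 <| step c110 <| step c105 <| step c100 <| step c95 <|
  step c90 <| step c85 <| step c80 <| step c75 <| step c70 <| step c65 <| step c60 <| step c55 <|
  step c50 <| step c45 <| step c40 <| step c35 <| step c30 <| step c25 <| step c20 <| step c15 <|
  step c10 <| step c5 <| h

end CfsgLib.KP3.NumS
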