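import Cfsg.Agent.Lib.KP3.Ar
import Cfsg.Agent.Lib.KP3.Lay
import Cfsg.Agent.Lib.KP3.Hs
import Cfsg.Agent.Lib.KP3.Chn

/-! Peeling off one prime. -/

set_option autoImplicit false

namespace CfsgLib.KP3

open Equiv Finset CfsgLib.Psx
open CfsgLib.KPerm (kap rep cyc)
open scoped Classical

universe u

variable {α : Type u} [Fintype α]

open Pointwise in
/-- the centraliser of a `p`-element acts on its cycles with kernel a `p`-group -/
theorem peel_act {X : Type*} [Group X] [Fintype X] [MulAction X α]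
    [FaithfulSMul X α] {p q : ℕ} (hp : p.Prime) (hq : q ≤ p) {y : X} {k : ℕ}
    (hy : y ^ p ^ k = 1) :
    ∃ (β : Type u) (_ : Fintype β) (H : Subgroup (Perm β)),
      Fintype.card β = cyc (univ : Finset α) y ∧ Nat.card H ∣ Nat.card X ∧
        kap (Subgroup.centralizer ({y} : Set X)) q ≤ kap H q := by
  have key : ∀ (c : Subgroup.centralizer {y}) (a : α),
      c • KPerm.orb (Subgroup.zpowers y) a = KPerm.orb (Subgroup.zpowers y) (c • a) := fun c a => by
    have h := KPerm.orb_conj (c : X) y a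
    rw [Subgroup.mem_centralizer_singleton_iff.1 c.2, mul_inv_cancel_right] at h
    exact h.symm
  let S : SubMulAction (Subgroup.centralizer {y}) (Finset α) :=
    ⟨(univ.image (KPerm.orb (Subgroup.zpowers y)) : Finset (Finset α)), fun c B hB => by
      obtain ⟨a, -, rfl⟩ := mem_image.1 (mem_coe.1 hB)
      exact mem_coe.2 (mem_image.2 ⟨c • a, mem_univ _, (key c a).symm⟩)⟩
  let φ := MulAction.toPermHom (Subgroup.centralizer {y}) S
  let _ : Fintype S := inferInstanceAs (Fintype (univ.image (KPerm.orb (Subgroup.zpowers y)) :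
    Finset (Finset α)))
  refine ⟨S, inferInstance, φ.range, Fintype.card_coe _,
    (Subgroup.card_dvd_of_surjective φ.rangeRestrict φ.rangeRestrict_surjective).trans
      (Subgroup.card_subgroup_dvd_card _),
    KPerm.kap_le_of_surj hp hq φ.rangeRestrict φ.rangeRestrict_surjective ?_⟩
  rw [MonoidHom.ker_rangeRestrict]
  intro g
  refine ⟨k, Subtype.ext (Subtype.ext (eq_of_smul_eq_smul (α := α) fun a => ?_))⟩
  have h1 := congrArg Subtype.val (Equiv.congr_fun (MonoidHom.mem_ker.1 g.2)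
    ⟨_, mem_coe.2 (mem_image_of_mem _ (mem_univ a))⟩)
  have h2 : KPerm.orb (Subgroup.zpowers y) (g.1 • a) = KPerm.orb (Subgroup.zpowers y) a :=
    (key g.1 a).symm.trans h1
  obtain ⟨i, hi⟩ := KPerm.mem_orb_zpowers.1 (h2 ▸ KPerm.self_mem_orb _ (g.1 • a))
  have hc : Commute (g.1 : X) y := Subgroup.mem_centralizer_singleton_iff.1 g.1.2
  have h3 : ∀ j : ℕ, (g.1 : X) ^ j • a = (y ^ i) ^ j • a := fun j => by
    induction j with
    | zero => simp
    | succ j ih =>
      rw [pow_succ', mul_smul, ih, ← mul_smul, ((hc.pow_right i).pow_right j).eq, mul_smul,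
        pow_succ, mul_smul, hi]
      rfl
  simp only [Subgroup.coe_pow, Subgroup.coe_one]
  rw [h3, ← pow_mul, mul_comm, pow_mul, hy, one_pow]

theorem peel_rep_eq_one {X : Type*} [Group X] {L : ConjClasses X} :
    rep L = 1 ↔ L = ConjClasses.mk 1 := by
  refine ⟨fun h => by rw [← KPerm.mk_rep L, h], fun h => ?_⟩
  obtain ⟨c, hc⟩ := KPerm.exists_rep (1 : X)
  rw [h, ← hc]
  group

theorem peel_filter {X : Type*} [Group X] [Fintype (ConjClasses X)]
    [DecidablePred fun L : ConjClasses X => rep L ≠ 1] [DecidableEq (ConjClasses X)] :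
    (univ : Finset (ConjClasses X)).filter (fun L => rep L ≠ 1) =
      univ.erase (ConjClasses.mk 1) := by
  ext L
  simp [peel_rep_eq_one]

theorem peel_cyc_df (y : Perm α) : cyc (univ : Finset α) y + df y = Fintype.card α := by
  have := KPerm.cyc_le (univ : Finset α) y
  rw [card_univ] at this
  unfold df
  omega

omit [Fintype α] in
theorem peel_coe_pow {G : Subgroup (Perm α)} {y : G} {m : ℕ} (h : y ^ m = 1) :
    (y : Perm α) ^ m = 1 := by
  rw [← Subgroup.coe_pow, h, Subgroup.coe_one]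

theorem peel_cls (G : Subgroup (Perm α)) {r : ℕ} (hr : r.Prime) {f : Perm α → ℝ} (h : CB G r f) :
    ∃ P ≤ G, IsPGroup r P ∧ (kap G (r + 1) : ℝ) ≤ kap G r +
      ∑ L ∈ (univ : Finset (ConjClasses P)).filter (fun L => rep L ≠ 1),
        f ((rep L : P) : Perm α) := by
  obtain ⟨P, hle, hP, h1⟩ := KPerm.exists_P G hr
  refine ⟨P, hle, hP, (Nat.cast_le.2 h1).trans ?_⟩
  rw [Nat.cast_sum, peel_filter, ← add_sum_erase _ _ (mem_univ (ConjClasses.mk (1 : P)))]
  refine add_le_add ?_ (sum_le_sum fun L hL => ?_)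
  · refine Nat.cast_le.2 (KPerm.kap_le_of_surj hr le_rfl (Subgroup.subtype _)
      (fun x => ⟨⟨x, ?_⟩, rfl⟩) (by rw [Subgroup.ker_subtype]; exact IsPGroup.of_bot))
    rw [Subgroup.mem_centralizer_singleton_iff, peel_rep_eq_one.2 rfl, map_one]
    simp
  · have h2 : rep L ≠ 1 := fun h => (mem_erase.1 hL).1 (peel_rep_eq_one.1 h)
    obtain ⟨k, hk⟩ := hP (rep L)
    exact h (Subgroup.inclusion hle (rep L))
      (fun h3 => h2 (Subgroup.inclusion_injective hle (h3.trans (map_one _).symm)))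
      ⟨k, by rw [← map_pow, hk, map_one]⟩

theorem sb_crude {G : Subgroup (Perm α)} {r K W : ℕ} (hr : r.Prime) (hK : KAll G r K)
    (h : CB G r fun _ => (W : ℝ)) : SB G r (((K - 1) * W : ℕ) : ℝ) := by
  obtain ⟨P, hle, hP, h1⟩ := peel_cls G hr h
  refine h1.trans (add_le_add le_rfl ?_)
  rw [peel_filter, sum_const, card_erase_of_mem (mem_univ _), card_univ, nsmul_eq_mul,
    ← Nat.cast_mul, Nat.cast_le, ← Nat.card_eq_fintype_card]
  exact Nat.mul_le_mul_right _ (Nat.sub_le_sub_right (hK P hle hP) 1)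

theorem CB.mono {G : Subgroup (Perm α)} {r : ℕ} {f g : Perm α → ℝ} (h : CB G r f)
    (hfg : ∀ y ∈ G, y ≠ 1 → (∃ k, y ^ r ^ k = 1) → f y ≤ g y) : CB G r g := by
  intro y h1 hy
  refine (h y h1 hy).trans (hfg y y.2 (fun h2 => h1 (Subtype.ext h2)) ?_)
  obtain ⟨k, hk⟩ := hy
  exact ⟨k, peel_coe_pow hk⟩

theorem cb_ih {G : Subgroup (Perm α)} {p0 r : ℕ} (hr : r.Prime) (h0 : ¬ p0 ∣ Nat.card G)
    (ih : ∀ m < Fintype.card α, KB.{u} p0 m) :
    CB G r fun y => (Fu (cyc (univ : Finset α) y) : ℝ) := by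
  rintro y h1 ⟨k, hk⟩
  obtain ⟨β, _, H, hβ, hd, hle⟩ := peel_act (α := α) hr le_rfl hk
  rw [KPerm.cyc_coe] at hβ
  have h2 := (cyc_lt (y := (y : Perm α)) fun h2 => h1 (Subtype.ext h2)).2
  have h3 := KB.le_Fu (α := β) (hβ ▸ ih _ h2) H fun h => h0 (h.trans hd)
  rw [hβ] at h3
  exact Nat.cast_le.2 (hle.trans ((KPerm.kap_le_card r).trans h3))

theorem kap3_le (H : Subgroup (Perm α)) : kap H 3 ≤ b2 (Fintype.card α) := by
  obtain ⟨P, hle, hP, h1⟩ := KPerm.exists_P H Nat.prime_two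
  refine h1.trans ((sum_le_card_nsmul _ _ 1 fun L _ => KPerm.kap_two).trans ?_)
  rw [smul_eq_mul, mul_one, card_univ, ← Nat.card_eq_fintype_card]
  exact k2_le P hP

theorem cb_b2 (G : Subgroup (Perm α)) : CB G 3 fun y => (b2 (cyc (univ : Finset α) y) : ℝ) := by
  rintro y - ⟨k, hk⟩
  obtain ⟨β, _, H, hβ, -, hle⟩ := peel_act (α := α) Nat.prime_three le_rfl hk
  rw [KPerm.cyc_coe] at hβ
  have h3 := kap3_le H
  rw [hβ] at h3
  exact Nat.cast_le.2 (hle.trans h3)

theorem cb_const {G : Subgroup (Perm α)} {r w : ℕ} (hr : r.Prime) {g : ℕ → ℕ} (hg : Monotone g)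
    (h : CB G r fun y => (g (cyc (univ : Finset α) y) : ℝ)) (hw : MinS G r w) :
    CB G r fun _ => (g (Fintype.card α - (r - 1) * w) : ℝ) := by
  refine h.mono fun y hy h1 ⟨k, hk⟩ => Nat.cast_le.2 (hg ?_)
  have h2 := le_df hr hk (hw.pow hy h1 hk)
  have h3 := peel_cyc_df y
  rw [mul_comm] at h2
  omega

theorem cb_exp3 (G : Subgroup (Perm α)) :
    CB G 3 fun y => (14954 / 10000) ^ Fintype.card α * (10000 / 14954) ^ df y := by
  refine (cb_b2 G).mono fun y _ _ _ => (b2_le_pow _).trans (le_of_eq ?_)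
  rw [← peel_cyc_df y, pow_add, mul_assoc, ← mul_pow]
  norm_num

theorem cb_expF {G : Subgroup (Perm α)} {p0 r : ℕ} (hr : r.Prime) (h0 : ¬ p0 ∣ Nat.card G)
    (ih : ∀ m < Fintype.card α, KB.{u} p0 m) :
    CB G r fun y => Ab (Fintype.card α) * (√3)⁻¹ ^ df y := by
  refine (cb_ih hr h0 ih).mono fun y _ h1 _ => ?_
  exact Fu_le_Ab (cyc_lt h1).1 (cyc_lt h1).2.le

end CfsgLib.KP3
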