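import Cfsg.Agent.Lib.KP3.Peel

/-! Products and sums over the primes. -/

set_option autoImplicit false

namespace CfsgLib.KP3

open Equiv Finset CfsgLib.Psx
open CfsgLib.KPerm (kap rep cyc)
open scoped Classical

universe u

variable {α : Type u} [Fintype α]

theorem prd_map {H : Subgroup (Perm α)} (C : Subgroup H) (q : ℕ) :
    kap C q ≤ kap (C.map H.subtype) q := by
  obtain ⟨p, hq, hp⟩ := Nat.exists_infinite_primes q
  let e := C.equivMapOfInjective H.subtype H.subtype_injective
  refine KPerm.kap_le_of_surj hp hq e.toMonoidHom e.surjective ?_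
  rw [(MonoidHom.ker_eq_bot_iff _).2 e.injective]
  exact IsPGroup.of_bot

theorem kap_prod {G : Subgroup (Perm α)} {K : ℕ → ℕ} (q : ℕ)
    (h : ∀ r, r.Prime → r < q → KAll G r (K r)) :
    ∀ H ≤ G, kap H q ≤ ∏ r ∈ (range q).filter Nat.Prime, K r := by
  induction q with
  | zero =>
    intro H _
    have h1 : kap H (0 + 1) = kap H 0 := KPerm.kap_succ Nat.not_prime_zero
    have h2 : kap H (1 + 1) = kap H 1 := KPerm.kap_succ Nat.not_prime_one
    have h3 : kap H 2 ≤ 1 := KPerm.kap_two
    simp only [range_zero, filter_empty, prod_empty]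
    norm_num at h1 h2
    omega
  | succ q ih =>
    intro H hH
    have ih' := ih fun r hr hq => h r hr (by omega)
    rw [range_add_one, filter_insert]
    split_ifs with hq
    · rw [prod_insert (by simp)]
      obtain ⟨P, hle, hP, h1⟩ := KPerm.exists_P H hq
      refine h1.trans ((sum_le_card_nsmul _ _ (∏ r ∈ (range q).filter Nat.Prime, K r) fun L _ =>
        (prd_map _ q).trans (ih' _ ((Subgroup.map_subtype_le _).trans hH))).trans ?_)
      rw [smul_eq_mul, card_univ, ← Nat.card_eq_fintype_card]
      exact Nat.mul_le_mul_right _ (h q hq (by omega) P (hle.trans hH) hP)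
    · rw [KPerm.kap_succ hq]
      exact ih' H hH

theorem cb_prod {G : Subgroup (Perm α)} {K : ℕ → ℕ} (q : ℕ)
    (h : ∀ r, r.Prime → r < q → KAll G r (K r)) :
    CB G q fun _ => ((∏ r ∈ (range q).filter Nat.Prime, K r : ℕ) : ℝ) := by
  intro y _ _
  exact Nat.cast_le.2 ((prd_map _ q).trans (kap_prod q h _ (Subgroup.map_subtype_le _)))

theorem total {G : Subgroup (Perm α)} {q : ℕ} {S : ℕ → ℝ}
    (h : ∀ r, r.Prime → q ≤ r → r ≤ Fintype.card α → SB G r (S r)) :
    (kk G : ℝ) ≤ kap G q +
      ∑ r ∈ (range (Fintype.card α + 1)).filter (fun r => r.Prime ∧ q ≤ r), S r := by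
  have key : ∀ m, q ≤ m → m ≤ Fintype.card α + 1 →
      (kap G m : ℝ) ≤ kap G q + ∑ r ∈ (range m).filter (fun r => r.Prime ∧ q ≤ r), S r := by
    intro m hm
    induction m, hm using Nat.le_induction with
    | base =>
      intro _
      rw [filter_false_of_mem (fun r hr => by simp at hr; omega), sum_empty, add_zero]
    | succ m hm ih =>
      intro h1
      have ih' := ih (by omega)
      rw [range_add_one, filter_insert]
      split_ifs with hq
      · rw [sum_insert (by simp)]
        have := h m hq.1 hm (by omega)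
        unfold SB at this
        linarith
      · rw [KPerm.kap_succ fun hp => hq ⟨hp, hm⟩]
        exact ih'
  by_cases hq : q ≤ Fintype.card α + 1
  · have := key _ hq le_rfl
    rwa [KPerm.kap_big G (Nat.lt_succ_self _)] at this
  · rw [KPerm.kap_big G (by omega), filter_false_of_mem (fun r hr => by simp at hr; omega), sum_empty,
      add_zero]

end CfsgLib.KP3
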