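import Cfsg.Agent.Lib.KP3.Wt
import Cfsg.Agent.Lib.KP3.Prd
import Cfsg.Agent.Lib.KP3.Fix
import Cfsg.Agent.Lib.KP3.Kr

/-! Soundness of the numerical conditions. -/

set_option autoImplicit false
set_option linter.unusedSectionVars false

namespace CfsgLib.KP3

open Equiv Finset CfsgLib.Psx
open CfsgLib.KPerm (kap rep cyc)
open scoped Classical

universe u

variable {α : Type u} [Fintype α]

theorem SB.mono {G : Subgroup (Perm α)} {r : ℕ} {S S' : ℝ} (h : SB G r S) (hs : S ≤ S') :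
    SB G r S' := le_trans h (by linarith)

theorem SB.min {G : Subgroup (Perm α)} {r : ℕ} {S S' : ℝ} (h : SB G r S) (h' : SB G r S') :
    SB G r (min S S') := by
  rcases le_total S S' with e | e
  · rwa [min_eq_left e]
  · rwa [min_eq_right e]

theorem SB.nonneg {G : Subgroup (Perm α)} {r : ℕ} {S : ℝ} (h : SB G r S) : 0 ≤ S := by
  have h1 : kap G r ≤ kap G (r + 1) :=
    Nat.card_mono (s := {K : ConjClasses G | orderOf (rep K) ∈ r.smoothNumbers})
      (t := {K : ConjClasses G | orderOf (rep K) ∈ (r + 1).smoothNumbers}) (Set.toFinite _)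
      fun K hK => Nat.smoothNumbers_mono (Nat.le_succ r) hK
  have h2 : (kap G r : ℝ) ≤ kap G (r + 1) := by exact_mod_cast h1
  have h3 : (kap G (r + 1) : ℝ) ≤ kap G r + S := h
  linarith

theorem CB.min {G : Subgroup (Perm α)} {r a b : ℕ} (h : CB G r fun _ => (a : ℝ))
    (h' : CB G r fun _ => (b : ℝ)) : CB G r fun _ => ((min a b : ℕ) : ℝ) := by
  rcases le_total a b with e | e
  · rwa [min_eq_left e]
  · rwa [min_eq_right e]

theorem minS_zero (G : Subgroup (Perm α)) (r : ℕ) : MinS G r 0 := fun _ _ _ _ => by simp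

theorem minS_one (G : Subgroup (Perm α)) {r : ℕ} (hr : r.Prime) : MinS G r 1 := by
  have h := minS_of_le (G := G) (m := 1) hr fun g _ h1 _ =>
    Nat.one_le_iff_ne_zero.2 fun e => h1 (Perm.card_support_eq_zero.1 e)
  refine h.mono ?_
  have := hr.pos
  rw [cdiv, Nat.add_sub_cancel_left, Nat.div_self this]

theorem GF_cast (r : ℕ) (σ : ℚ) (c1 c2 δ : ℕ) :
    ((GF r σ c1 c2 δ : ℚ) : ℝ) = GF r (σ : ℝ) c1 c2 δ := by
  simp [GF]

theorem le_div_add_one (a b : ℕ) (hb : 0 < b) : (a : ℝ) / b ≤ ((a / b + 1 : ℕ) : ℝ) := by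
  have h := (Nat.lt_div_mul_add (a := a) hb).le
  rw [div_le_iff₀ (by exact_mod_cast hb)]
  have : a ≤ (a / b + 1) * b := by rw [add_mul, one_mul]; exact h
  exact_mod_cast this

theorem le_three_pow_half {r : ℕ} (h : 3 ≤ r) (ho : r % 2 = 1) : r ≤ 3 ^ ((r - 1) / 2) := by
  obtain ⟨j, rfl⟩ : ∃ j, r = 2 * j + 3 := ⟨(r - 3) / 2, by omega⟩
  have : (2 * j + 3 - 1) / 2 = j + 1 := by omega
  rw [this]
  clear this h ho
  induction j with
  | zero => norm_num
  | succ j ih => rw [pow_succ]; omega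

theorem sqrt3_inv_pow (j : ℕ) : ((√3)⁻¹ : ℝ) ^ (2 * j) = 1 / 3 ^ j := by
  rw [pow_mul, inv_pow, Real.sq_sqrt (by norm_num), inv_pow, one_div]

theorem sqrt3_inv_pos : (0 : ℝ) < (√3)⁻¹ := by positivity

theorem sqrt3_inv_le : ((√3)⁻¹ : ℝ) ≤ 1 :=
  inv_le_one_of_one_le₀ (Real.one_le_sqrt.2 (by norm_num))

theorem bigN_eq (n : ℕ) : bigN n = ∑ i ∈ range ((n + 1 - 16) / 2), bigT n (17 + 2 * i) := by
  have h : ∀ (f : ℕ → ℕ) (l : List ℕ), l.foldr (fun i m => f i + m) 0 = (l.map f).sum := by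
    intro f l
    induction l with
    | nil => rfl
    | cons a l ih => simp [ih]
  rw [bigN, h (fun i => bigT n (17 + 2 * i))]
  generalize (n + 1 - 16) / 2 = m
  induction m with
  | zero => simp
  | succ m ih => rw [List.range_succ, List.map_append, List.sum_append, ih, sum_range_succ]; simp

theorem sum_split (n : ℕ) (S : ℕ → ℝ) (h0 : ∀ r, 0 ≤ S r) :
    ∑ r ∈ (range (n + 1)).filter (fun r => r.Prime ∧ 3 ≤ r), S r ≤
      S 3 + S 5 + S 7 + S 11 + S 13 + ∑ i ∈ range ((n + 1 - 16) / 2), S (17 + 2 * i) := by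
  have h1 : (range (n + 1)).filter (fun r => r.Prime ∧ 3 ≤ r) ⊆
      ({3, 5, 7, 11, 13} : Finset ℕ) ∪ (range ((n + 1 - 16) / 2)).image fun i => 17 + 2 * i := by
    intro r hr
    simp only [mem_filter, mem_range] at hr
    obtain ⟨h1, h2, h3⟩ := hr
    have h4 := h2.eq_two_or_odd
    simp only [mem_union, mem_insert, mem_singleton, mem_image, mem_range]
    by_cases h5 : 17 ≤ r
    · exact Or.inr ⟨(r - 17) / 2, by omega, by omega⟩
    · have h6 : r ≠ 9 := by rintro rfl; norm_num at h2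
      have h7 : r ≠ 15 := by rintro rfl; norm_num at h2
      omega
  refine (sum_le_sum_of_subset_of_nonneg h1 fun r _ _ => h0 r).trans ?_
  rw [sum_union, sum_image fun a _ b _ h => by simpa using h]
  · simp [add_assoc]
  · rw [disjoint_left]
    intro r h1 h2
    simp only [mem_insert, mem_singleton, mem_image, mem_range] at h1 h2
    obtain ⟨i, -, h2⟩ := h2
    omega

structure Ctx (G : Subgroup (Perm α)) (p0 : ℕ) (D : ℕ → Dt) : Prop where
  loc : Loc G D
  d4 : Deg4 G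
  hJ : ∀ r, r.Prime → r + 3 ≤ Fintype.card α → MinS G r 2
  ih : ∀ m < Fintype.card α, KB.{u} p0 m
  h0 : ¬ p0 ∣ Nat.card G

variable {G : Subgroup (Perm α)} {p0 : ℕ} {D : ℕ → Dt}

theorem Ctx.kall (c : Ctx G p0 D) {r : ℕ} (hr : r.Prime) :
    KAll G r (KK (Fintype.card α) p0 r (D r)) :=
  kall_KK hr c.h0 (c.loc r hr).1 (c.loc r hr).2

theorem Ctx.cbF (c : Ctx G p0 D) {r w : ℕ} (hr : r.Prime) (hw : MinS G r w) :
    CB G r fun _ => (Fu (Fintype.card α - (r - 1) * w) : ℝ) :=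
  cb_const hr (fun _ _ h => Fu_mono h) (cb_ih hr c.h0 c.ih) hw

theorem Ctx.sc (c : Ctx G p0 D) {r prod : ℕ} (hr : r.Prime)
    (hp : ∏ r ∈ (range r).filter Nat.Prime, KK (Fintype.card α) p0 r (D r) = prod) :
    SB G r (SC (Fintype.card α) p0 D r prod) := by
  have h1 : CB G r fun _ => (prod : ℝ) :=
    hp ▸ cb_prod (K := fun r => KK (Fintype.card α) p0 r (D r)) r fun s hs _ => c.kall hs
  have h2 : CB G r fun _ => (W0 (Fintype.card α) r (D r).w prod : ℝ) := by
    unfold W0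
    split_ifs with h h3
    · exact cb_one hr c.d4 h.1 h.2
    · subst h3
      exact CB.min (cb_const hr (fun _ _ h => b2_mono h) (cb_b2 G) (c.loc 3 hr).2) h1
    · exact CB.min (c.cbF hr (c.loc r hr).2) h1
  refine sb_crude hr (c.kall hr) ?_
  unfold WW
  split_ifs with h
  · obtain ⟨rfl, -⟩ := h
    exact CB.min h2 (cb_fix (c.loc 2 Nat.prime_two).2 (c.loc 3 hr).2)
  · exact h2

theorem Ctx.wt3 (c : Ctx G p0 D) : SB G 3 (WT3 (Fintype.card α) (D 3) : ℚ) := by
  have hr := Nat.prime_three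
  have h := sb_wt (G := G) hr (A := (14954 / 10000) ^ Fintype.card α) (θ := 10000 / 14954)
    (s := (10000 / 14954) ^ 2) (σ1 := 725 / 1000) (σ2 := 620 / 1000)
    (h := 1 + 2 * (725 / 1000) ^ 3) (by positivity) (by norm_num) (by norm_num) le_rfl (cb_exp3 G)
    (pe_rk hr (rk_rk hr (c.loc 3 hr).1 (c.loc 3 hr).2) (c.loc 3 hr).2 (by positivity)
      (by norm_num)) (c.loc 3 hr).1 (c.loc 3 hr).2 (by norm_num) (by norm_num) (by norm_num)
    (by norm_num) (by norm_num) (hx_three (by norm_num) (by norm_num))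
  refine h.mono (le_of_eq ?_)
  rw [WT3]
  push_cast [GF_cast]
  rfl

theorem Ctx.wt5 (c : Ctx G p0 D) : SB G 5 (WT5 (Fintype.card α) (D 5) : ℚ) := by
  have hr := Nat.prime_five
  have h := sb_wt (G := G) hr (A := Ab (Fintype.card α)) (θ := (√3)⁻¹)
    (s := 1 / 9) (σ1 := 270 / 1000) (σ2 := 420 / 1000)
    (h := (1 + 4 * (270 / 1000) ^ 5) * (10001 / 10000)) (by positivity) sqrt3_inv_pos sqrt3_inv_le
    ((sqrt3_inv_pow 2).trans (by norm_num)).le (cb_expF hr c.h0 c.ih)
    (pe_gf hr (c.loc 5 hr).1 (c.loc 5 hr).2 (σ := 3 / 10) (by norm_num) (by norm_num)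
      (by norm_num)) (c.loc 5 hr).1 (c.loc 5 hr).2 (by norm_num) (by norm_num) (by norm_num)
    (by norm_num) (by norm_num) (hx_five (by norm_num) (by norm_num))
  refine h.mono (le_of_eq ?_)
  rw [WT5]
  push_cast [GF_cast]
  rfl

theorem Ctx.big (c : Ctx G p0 D) {r : ℕ} (hr : r.Prime) (h3 : 3 ≤ r) (hn : r ≤ Fintype.card α) :
    SB G r (bigT (Fintype.card α) r) := by
  have ho : r % 2 = 1 := by have := hr.eq_two_or_odd; omega
  have hr0 := hr.pos
  set n := Fintype.card α with hnd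
  unfold bigT
  by_cases h1 : n < r + 3
  · rw [if_pos h1]
    have e1 : n / r = 1 := by
      rw [Nat.div_eq_iff hr0]; omega
    have hK := kall_odd hr h3 ((ch2_triv hr G).rk hr0)
    rw [← hnd, e1, Nat.div_eq_of_lt (by omega : 1 < r)] at hK
    refine (sb_crude hr hK (c.cbF hr (minS_one G hr))).mono ?_
    have h4 : Fu (n - (r - 1) * 1) ≤ Fu 3 := Fu_mono (by omega)
    have h5 : Fu 3 = 3 := by decide
    have : (r ^ (1 + 0 + 0) - 1) * Fu (n - (r - 1) * 1) ≤ 3 * (r - 1) := by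
      rw [mul_comm 3]
      exact Nat.mul_le_mul (by simp) (by omega)
    exact_mod_cast this
  rw [if_neg h1]
  by_cases h2 : n / r < 2
  · rw [if_pos h2]
    simpa using sb_crude hr (kall_big hr (c.hJ r hr (by omega)) h2) (c.cbF hr (minS_zero G r))
  rw [if_neg h2]
  set T : ℕ := 3 ^ ((r - 1) / 2) with hT
  have hrT : r ≤ T := le_three_pow_half h3 ho
  have hT0 : (0 : ℝ) < T := by exact_mod_cast lt_of_lt_of_le hr0 hrT
  have hR0 : (0 : ℝ) < r := by exact_mod_cast hr0
  have hR1 : (1 : ℝ) ≤ r := by exact_mod_cast hr0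
  have hRT : (r : ℝ) ≤ T := by exact_mod_cast hrT
  have hθ : ((√3)⁻¹ : ℝ) ^ (r - 1) ≤ 1 / T := by
    have : r - 1 = 2 * ((r - 1) / 2) := by omega
    rw [this, sqrt3_inv_pow, hT]
    push_cast
    exact le_rfl
  have hs1 : (1 : ℝ) / T ≤ 1 := by rw [div_le_one hT0]; linarith
  have h := sb_wt (G := G) hr (A := Ab n) (θ := (√3)⁻¹) (s := 1 / T) (σ1 := 1) (σ2 := 1 / r)
    (h := r) (by positivity) sqrt3_inv_pos sqrt3_inv_le hθ (cb_expF hr c.h0 c.ih)
    (pe_gf hr (ch2_triv hr G) (minS_zero G r) (σ := 1 / T) (by positivity) le_rfl hs1)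
    (ch2_triv hr G) (minS_zero G r) one_pos le_rfl (by positivity)
    (by rw [div_le_one hR0]; exact hR1)
    (by rw [one_mul]; exact one_div_le_one_div_of_le hR0 hRT)
    (by rw [one_pow]; exact hx_one hr h3)
  refine h.mono ?_
  rw [← hnd, mul_add, Nat.cast_add]
  set L := n / r
  refine add_le_add ?_ ?_
  · refine le_trans (le_of_eq ?_) (le_div_add_one _ _ (by positivity))
    have e : T ^ L ≤ (T + (r - 1)) ^ L := Nat.pow_le_pow_left (Nat.le_add_right _ _) _
    rw [Nat.cast_mul, Nat.cast_sub e]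
    push_cast [Nat.cast_sub (show 1 ≤ r from hr0)]
    simp only [GF, pow_zero, mul_one, one_mul]
    have : (1 : ℝ) + (r - 1) * (1 / T) = (T + (r - 1)) / T := by field_simp
    rw [this, div_pow]
    field_simp
  · split_ifs with h4
    · rw [Nat.div_eq_of_lt h4]
      simp
    refine le_trans ?_ (le_div_add_one _ _ (by positivity))
    have e1 : GF r (1 / r : ℝ) L 0 0 ≤ 2 ^ L := by
      simp only [GF, pow_zero, mul_one]
      refine pow_le_pow_left₀ (by have : (0 : ℝ) ≤ r - 1 := by linarith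
                                  positivity) ?_ _
      have : ((r : ℝ) - 1) * (1 / r) ≤ 1 := by
        rw [mul_one_div, div_le_one hR0]; linarith
      linarith
    have e0 : (0 : ℝ) ≤ GF r (1 / r : ℝ) L 0 0 :=
      zero_le_one.trans (one_le_GF hr0 (by positivity))
    have e2 : ((1 : ℝ) / T / (1 * (1 / r))) ^ max 0 r = r ^ r / T ^ r := by
      rw [max_eq_right (Nat.zero_le r), ← div_pow]
      congr 1
      field_simp
    rw [e2]
    push_cast
    calc (Ab n : ℝ) * (r ^ r / T ^ r * GF r (1 / r : ℝ) L 0 0 * (r ^ (L / r) - 1))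
        ≤ Ab n * (r ^ r / T ^ r * 2 ^ L * r ^ (L / r)) := by
          have : (1 : ℝ) ≤ r ^ (L / r) := one_le_pow₀ hR1
          gcongr
          linarith
      _ = _ := by ring

theorem Ctx.sum (c : Ctx G p0 D) {S3 S5 : ℝ} (h3 : SB G 3 S3) (h5 : SB G 5 S5) :
    (kk G : ℝ) ≤ rest (Fintype.card α) p0 D + S3 + S5 + bigN (Fintype.card α) := by
  set n := Fintype.card α with hn
  have f3 : (range 3).filter Nat.Prime = {2} := by decide
  have f7 : (range 7).filter Nat.Prime = {2, 3, 5} := by decide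
  have f11 : (range 11).filter Nat.Prime = {2, 3, 5, 7} := by decide
  have f13 : (range 13).filter Nat.Prime = {2, 3, 5, 7, 11} := by decide
  have h7 := c.sc (r := 7) (prod := KK n p0 2 (D 2) * KK n p0 3 (D 3) * KK n p0 5 (D 5))
    (by norm_num) (by rw [f7]; simp [mul_assoc, hn])
  have h11 := c.sc (r := 11)
    (prod := KK n p0 2 (D 2) * KK n p0 3 (D 3) * KK n p0 5 (D 5) * KK n p0 7 (D 7))
    (by norm_num) (by rw [f11]; simp [mul_assoc, hn])
  have h13 := c.sc (r := 13)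
    (prod := KK n p0 2 (D 2) * KK n p0 3 (D 3) * KK n p0 5 (D 5) * KK n p0 7 (D 7) *
      KK n p0 11 (D 11)) (by norm_num) (by rw [f13]; simp [mul_assoc, hn])
  rw [← hn] at h7 h11 h13
  have h2 := kap_prod (K := fun r => KK n p0 r (D r)) 3 (fun s hs _ => c.kall hs) G le_rfl
  rw [f3, prod_singleton] at h2
  have h2' : (kap G 3 : ℝ) ≤ KK n p0 2 (D 2) := by exact_mod_cast h2
  rw [rest]
  push_cast
  generalize (SC n p0 D 7 _ : ℝ) = S7 at *
  generalize (SC n p0 D 11 _ : ℝ) = S11 at *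
  generalize (SC n p0 D 13 _ : ℝ) = S13 at *
  let S : ℕ → ℝ := fun r => if r = 3 then S3 else if r = 5 then S5 else if r = 7 then S7 else
    if r = 11 then S11 else if r = 13 then S13 else bigT n r
  have ht := total (G := G) (q := 3) (S := S) fun r hr h hn => by
    simp only [S]
    split_ifs with a b c d e
    · exact a ▸ h3
    · exact b ▸ h5
    · exact c ▸ h7
    · exact d ▸ h11
    · exact e ▸ h13
    · exact Ctx.big ‹_› hr h hn
  have hs := sum_split n S fun r => by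
    simp only [S]
    split_ifs
    exacts [h3.nonneg, h5.nonneg, h7.nonneg, h11.nonneg, h13.nonneg, Nat.cast_nonneg _]
  have hb : ∑ i ∈ range ((n + 1 - 16) / 2), S (17 + 2 * i) = bigN n := by
    rw [bigN_eq]
    push_cast
    refine sum_congr rfl fun i _ => ?_
    simp only [S]
    rw [if_neg (by omega), if_neg (by omega), if_neg (by omega), if_neg (by omega),
      if_neg (by omega)]
  rw [hb] at hs
  have e3 : S 3 = S3 := by simp [S]
  have e5 : S 5 = S5 := by simp [S]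
  have e7 : S 7 = S7 := by simp [S]
  have e11 : S 11 = S11 := by simp [S]
  have e13 : S 13 = S13 := by simp [S]
  rw [e3, e5, e7, e11, e13] at hs
  rw [← hn] at ht
  linarith

theorem Ctx.good (c : Ctx G p0 D) (hg : Good (Fintype.card α) p0 D) :
    kk G ≤ Tl (Fintype.card α) := by
  set n := Fintype.card α with hn
  have f3 : (range 3).filter Nat.Prime = {2} := by decide
  have f5 : (range 5).filter Nat.Prime = {2, 3} := by decide
  have h3 := c.sc (r := 3) (prod := KK n p0 2 (D 2)) (by norm_num) (by rw [f3]; simp [hn])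
  have h5 := c.sc (r := 5) (prod := KK n p0 2 (D 2) * KK n p0 3 (D 3)) (by norm_num)
    (by rw [f5]; simp [hn])
  rcases hg with hg | hg
  · have h := c.sum h3 h5
    have hg' : ((totC n p0 D + bigN n : ℕ) : ℝ) ≤ Tl n := by exact_mod_cast hg
    rw [totC] at hg'
    push_cast at hg'
    exact_mod_cast h.trans hg'
  · have h := c.sum (h3.min c.wt3) (h5.min c.wt5)
    have hg' : ((totF n p0 D + bigN n : ℚ) : ℝ) ≤ ((Tl n : ℚ) : ℝ) := by exact_mod_cast hg
    rw [totF] at hg'
    push_cast at hg'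
    exact_mod_cast h.trans hg'

theorem Ctx.sbL (c : Ctx G p0 D) {r W : ℕ} (hr : r.Prime) (h : CB G r fun _ => (W : ℝ)) :
    SB G r ((KL (Fintype.card α) p0 D r * W : ℕ) : ℝ) :=
  (sb_crude hr (kall_KL hr c.h0 c.loc) h).mono
    (by exact_mod_cast Nat.mul_le_mul_right _ (Nat.sub_le _ _))

theorem Ctx.tail (c : Ctx G p0 D) (q : ℕ) : kk G ≤ kap G q +
    ∑ r ∈ (range (Fintype.card α + 1)).filter (fun r => r.Prime ∧ q ≤ r),
      KL (Fintype.card α) p0 D r * Fu (Fintype.card α - (r - 1) * (D r).w) := by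
  have ht := total (G := G) (q := q) (S := fun r => ((KL (Fintype.card α) p0 D r *
    Fu (Fintype.card α - (r - 1) * (D r).w) : ℕ) : ℝ)) fun r hr _ _ =>
      c.sbL hr (c.cbF hr (c.loc r hr).2)
  exact_mod_cast ht

theorem Ctx.lgu (c : Ctx G p0 D) (R : ℕ) : kk G ≤
    ∏ r ∈ (range (R + 1)).filter Nat.Prime, KL (Fintype.card α) p0 D r +
      ∑ r ∈ (range (Fintype.card α + 1)).filter (fun r => r.Prime ∧ R + 1 ≤ r),
        KL (Fintype.card α) p0 D r * Fu (Fintype.card α - (r - 1) * (D r).w) :=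
  (c.tail (R + 1)).trans (Nat.add_le_add_right
    (kap_prod (R + 1) (fun _ hr _ => kall_KL hr c.h0 c.loc) G le_rfl) _)

theorem Ctx.lgi (c : Ctx G p0 D) : kk G ≤ b2 (Fintype.card α) +
    KL (Fintype.card α) p0 D 3 * b2 (Fintype.card α - (3 - 1) * (D 3).w) +
      ∑ r ∈ (range (Fintype.card α + 1)).filter (fun r => r.Prime ∧ 4 ≤ r),
        KL (Fintype.card α) p0 D r * Fu (Fintype.card α - (r - 1) * (D r).w) := by
  refine (c.tail 4).trans (Nat.add_le_add_right ?_ _)
  have hr := Nat.prime_three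
  have h : (kap G (3 + 1) : ℝ) ≤ _ :=
    c.sbL hr (cb_const hr (fun _ _ h => b2_mono h) (cb_b2 G) (c.loc 3 hr).2)
  have h' : kap G (3 + 1) ≤ kap G 3 +
      KL (Fintype.card α) p0 D 3 * b2 (Fintype.card α - (3 - 1) * (D 3).w) := by exact_mod_cast h
  exact h'.trans (Nat.add_le_add_right (kap3_le G) _)

end CfsgLib.KP3
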