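import Cfsg.Agent.Lib.KP3.Peel
import Cfsg.Agent.Lib.KP3.Gf

/-! The weighted step. -/

set_option autoImplicit false

namespace CfsgLib.KP3

open Equiv Finset CfsgLib.Psx
open CfsgLib.KPerm (kap rep cyc)
open scoped Classical

universe u

variable {α : Type u} [Fintype α]

/-- a class sum is bounded by the sum over the fibres of class representatives of the image -/
theorem cls_fib {X Y : Type*} [Group X] [Group Y] [Fintype X] [Fintype Y] (φ : X →* Y)
    (hφ : Function.Surjective φ) (v : X → ℝ) (h0 : ∀ x, 0 ≤ v x)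
    (hv : ∀ c x, v (c * x * c⁻¹) = v x) (s : Y → X) (hs : ∀ y, φ (s y) = y) :
    ∑ L : ConjClasses X, v (rep L) ≤
      ∑ M : ConjClasses Y, ∑ e ∈ KPerm.E φ.ker, v (s (rep M) * e) := by
  have key : ∀ L : ConjClasses X, ∃ p : ConjClasses Y × X, p.2 ∈ φ.ker ∧
      IsConj (rep L) (s (rep p.1) * p.2) := fun L => by
    obtain ⟨c, hc⟩ := KPerm.exists_rep (φ (rep L))
    obtain ⟨c, rfl⟩ := hφ c
    refine ⟨(ConjClasses.mk (φ (rep L)),
      (s (rep (ConjClasses.mk (φ (rep L)))))⁻¹ * (c * rep L * c⁻¹)), ?_,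
      isConj_iff.2 ⟨c, (mul_inv_cancel_left _ _).symm⟩⟩
    rw [MonoidHom.mem_ker, map_mul, map_inv, hs, map_mul, map_mul, map_inv, hc, inv_mul_cancel]
  choose F h1 h2 using key
  have hF : Function.Injective F := fun L L' h => by
    rw [← KPerm.mk_rep L, ← KPerm.mk_rep L', ConjClasses.mk_eq_mk_iff_isConj]
    exact (h2 L).trans (h ▸ (h2 L').symm)
  rw [← sum_product']
  calc _ = ∑ L, v (s (rep (F L).1) * (F L).2) := sum_congr rfl fun L _ => by
        obtain ⟨c, hc⟩ := isConj_iff.1 (h2 L)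
        rw [← hc, hv]
    _ = ∑ p ∈ univ.image F, v (s (rep p.1) * p.2) :=
        (sum_image (f := fun p => v (s (rep p.1) * p.2)) fun _ _ _ _ h => hF h).symm
    _ ≤ _ := sum_le_sum_of_subset_of_nonneg (fun p hp => by
        obtain ⟨L, -, rfl⟩ := mem_image.1 hp
        exact mem_product.2 ⟨mem_univ _, KPerm.mem_E.2 (h1 L)⟩) fun _ _ _ => h0 _

theorem wt_pt {r d a j m : ℕ} (hr : 1 < r) {θ s σ1 σ2 τ : ℝ} (θ0 : 0 < θ) (hθ : θ ^ (r - 1) ≤ s)
    (a0 : 0 < σ1) (a1 : σ1 ≤ 1) (b0 : 0 < σ2) (b1 : σ2 ≤ 1) (hs : s ≤ σ1 * σ2) (τ0 : 0 < τ)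
    (hτ : σ1 ^ r ≤ τ ^ (r - 1)) (h1 : r * a ≤ d) (h2 : j * (r - 1) ≤ d) (h3 : m * (r - 1) ≤ d) :
    θ ^ d ≤ (s / (σ1 * σ2)) ^ m * τ ^ a * σ2 ^ j := by
  have s0 : 0 < s := (pow_pos θ0 _).trans_le hθ
  have c0 : 0 < s / (σ1 * σ2) := by positivity
  have c1 : s / (σ1 * σ2) ≤ 1 := (div_le_one (by positivity)).2 hs
  have c2 : s = s / (σ1 * σ2) * σ1 * σ2 := by field_simp
  generalize s / (σ1 * σ2) = c at c0 c1 c2
  refine le_of_pow_le_pow_left₀ (n := r - 1) (by omega) (by positivity) ?_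
  calc _ = (θ ^ (r - 1)) ^ d := by rw [← pow_mul, ← pow_mul, mul_comm]
    _ ≤ s ^ d := pow_le_pow_left₀ (by positivity) hθ _
    _ = c ^ d * σ1 ^ d * σ2 ^ d := by rw [c2, mul_pow, mul_pow]
    _ ≤ c ^ (m * (r - 1)) * (τ ^ (r - 1)) ^ a * σ2 ^ (j * (r - 1)) :=
        mul_le_mul (mul_le_mul (pow_le_pow_of_le_one c0.le c1 h3)
          ((pow_le_pow_of_le_one a0.le a1 h1).trans (by
            rw [pow_mul]; exact pow_le_pow_left₀ (by positivity) hτ _)) (by positivity)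
          (by positivity)) (pow_le_pow_of_le_one b0.le b1 h2) (by positivity) (by positivity)
    _ = _ := by rw [mul_pow, mul_pow, ← pow_mul, ← pow_mul, ← pow_mul, ← pow_mul, mul_comm a]

theorem wt_sum {β : Type*} [Group β] (P : Subgroup (Perm α)) (f : P →* β) (g : Perm α → ℝ) :
    ∑ e ∈ KPerm.E f.rangeRestrict.ker, g e = ∑ e ∈ KPerm.E (f.ker.map P.subtype), g e := by
  rw [MonoidHom.ker_rangeRestrict]
  refine sum_bij (fun e _ => (e : Perm α))
    (fun e he => KPerm.mem_E.2 ⟨e, KPerm.mem_E.1 he, rfl⟩) (fun _ _ _ _ h => Subtype.ext h)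
    (fun e he => ?_) fun _ _ => rfl
  obtain ⟨e, k, rfl⟩ := KPerm.mem_E.1 he
  exact ⟨e, KPerm.mem_E.2 k, rfl⟩

theorem wt_rep_one {X : Type*} [Group X] : rep (ConjClasses.mk (1 : X)) = 1 := by
  obtain ⟨c, hc⟩ := KPerm.exists_rep (1 : X)
  rw [← hc, mul_one, mul_inv_cancel]

omit [Fintype α] in
theorem wt_pow {r : ℕ} {P : Subgroup (Perm α)} (hP : IsPGroup r P) (x : P) :
    ∃ k, (x : Perm α) ^ r ^ k = 1 := by
  obtain ⟨k, hk⟩ := hP x
  exact ⟨k, by rw [← Subgroup.coe_pow, hk, Subgroup.coe_one]⟩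

theorem wt_congr {ι : Type*} (i1 i2 : Fintype ι) (F : ι → ℝ) :
    ∑ M ∈ @univ _ i1, F M = ∑ M ∈ @univ _ i2, F M := by
  rw [Subsingleton.elim i1 i2]

theorem wt_fin {ι : Type*} {i1 i2 : Fintype ι} (a : ι) {F g : ι → ℝ} {X C B : ℝ} (hC : 0 ≤ C)
    (h1 : F a ≤ X) (h2 : ∀ M, M ≠ a → F M ≤ C * g M) (h3 : g a = 1)
    (h4 : ∑ M ∈ @univ _ i2, g M ≤ B) : ∑ M ∈ @univ _ i1, F M ≤ X + C * (B - 1) := by
  obtain rfl := Subsingleton.elim i1 i2
  rw [← add_sum_erase _ _ (mem_univ a)] at h4 ⊢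
  refine add_le_add h1 ((sum_le_sum fun M hM => h2 M (ne_of_mem_erase hM)).trans ?_)
  rw [← mul_sum]
  exact mul_le_mul_of_nonneg_left (by linarith) hC

theorem sb_wt {G : Subgroup (Perm α)} {r c1 c2 δ w : ℕ} (hr : r.Prime) {A θ s X σ1 σ2 h : ℝ}
    (hA : 0 ≤ A) (θ0 : 0 < θ) (θ1 : θ ≤ 1) (hθ : θ ^ (r - 1) ≤ s)
    (hcb : CB G r fun y => A * θ ^ df y) (hX : PE G r s X) (hch : Ch2 G r c1 c2 δ)
    (hw : MinS G r w) (a0 : 0 < σ1) (a1 : σ1 ≤ 1) (b0 : 0 < σ2) (b1 : σ2 ≤ 1) (hs : s ≤ σ1 * σ2)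
    (hh : HX.{u} r (σ1 ^ r) h) :
    SB G r (A * (X + (s / (σ1 * σ2)) ^ max w r * GF r σ2 c1 c2 δ *
      (h ^ (Fintype.card α / r / r) - 1))) := by
  obtain ⟨P, hPG, hP, hk⟩ := peel_cls G hr hcb
  obtain ⟨β, _, f, hβ, hE, hf⟩ := layer hr P hP
  obtain ⟨h1, τ, τ0, τ1, hτ, hS⟩ := hh
  have s0 : 0 < s := (pow_pos θ0 _).trans_le hθ
  have hEG : f.ker.map P.subtype ≤ G := (Subgroup.map_subtype_le _).trans hPG
  have hR : IsPGroup r f.range := hP.of_surjective _ f.rangeRestrict_surjective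
  obtain ⟨t, ht, t1⟩ : ∃ t : f.range → P, (∀ y, f.rangeRestrict (t y) = y) ∧ t 1 = 1 := by
    refine ⟨fun y => if y = 1 then 1 else (f.rangeRestrict_surjective y).choose, fun y => ?_,
      if_pos rfl⟩
    dsimp only
    split_ifs with h
    · rw [h, map_one]
    · exact (f.rangeRestrict_surjective y).choose_spec
  have dfs : ∀ x : P, (x : Perm α).support.card / r * (r - 1) ≤ df (x : Perm α) := fun x => by
    obtain ⟨k, hk⟩ := wt_pow hP x
    exact le_df hr hk (Nat.div_mul_le_self _ _)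
  obtain ⟨v, hv⟩ : ∃ v : P → ℝ, ∀ x, v x = if (x : Perm α) = 1 then 0 else θ ^ df (x : Perm α) :=
    ⟨_, fun _ => rfl⟩
  have k1 := cls_fib f.rangeRestrict f.rangeRestrict_surjective v
    (fun x => by rw [hv]; split_ifs <;> positivity) (fun c x => by
      simp only [hv, Subgroup.coe_mul, Subgroup.coe_inv, df_conj, conj_eq_one_iff]) t ht
  have k2 : ∑ e ∈ KPerm.E f.rangeRestrict.ker, v (t (rep (ConjClasses.mk 1)) * e) ≤ X := by
    simp only [wt_rep_one, t1, one_mul, hv]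
    refine le_trans ?_ (hX _ hEG hE)
    rw [← filter_ne', sum_filter, ← wt_sum P f fun e =>
      if e ≠ 1 then s ^ (e.support.card / r) else 0]
    refine sum_le_sum fun e _ => ?_
    by_cases h : (e : Perm α) = 1
    · simp [h]
    · rw [if_neg h, if_pos h]
      refine (pow_le_pow_of_le_one θ0.le θ1 (dfs e)).trans ?_
      rw [mul_comm, pow_mul]
      exact pow_le_pow_left₀ (by positivity) hθ _
  have k3 : ∀ M : ConjClasses f.range, M ≠ ConjClasses.mk 1 →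
      ∑ e ∈ KPerm.E f.rangeRestrict.ker, v (t (rep M) * e) ≤
      (s / (σ1 * σ2)) ^ max w r * GF r σ2 c1 c2 δ * τ ^ df ((rep M : f.range) : Perm β) := by
    intro M hM
    have y1 : ((rep M : f.range) : Perm β) ≠ 1 := fun h =>
      hM (by rw [← KPerm.mk_rep M, show rep M = 1 from Subtype.ext h])
    have y2 : r - 1 ≤ df ((rep M : f.range) : Perm β) := by
      obtain ⟨k, hk⟩ := wt_pow hR (rep M)
      have := le_df (j := 1) hr hk (MinS.pow (G := ⊤) (fun g _ g1 hg => ?_) trivial y1 hk)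
      · rwa [one_mul] at this
      · rw [one_mul]
        have := Fact.mk hr
        exact Nat.le_of_dvd (card_pos.2 (nonempty_iff_ne_empty.2 fun e =>
          g1 (Perm.support_eq_empty_iff.1 e))) (KPerm.dvd_card_support hr
            (IsPGroup.of_card (n := 1) (by
              rw [Nat.card_zpowers, orderOf_eq_prime hg g1, pow_one])))
    have g2 := gf2 hr hch hEG hE b0 b1 (t (rep M)) fun e he => by
      obtain ⟨e, -, rfl⟩ := he
      exact KPerm.dvd_card_support hr (y := ((t (rep M) * e : P) : Perm α))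
        (hP.to_le (Subgroup.zpowers_le.2 (t (rep M) * e).2))
    rw [← wt_sum P f fun e => σ2 ^ (((t (rep M) : Perm α) * e).support.card / r)] at g2
    rw [mul_right_comm]
    refine le_trans ?_ (mul_le_mul_of_nonneg_left g2 (by positivity))
    rw [mul_sum]
    refine sum_le_sum fun e he => ?_
    rw [hv]
    split_ifs with h
    · positivity
    have e1 : f (t (rep M) * e) = (rep M : f.range) := by
      rw [← MonoidHom.coe_rangeRestrict, map_mul, ht, MonoidHom.mem_ker.1 (KPerm.mem_E.1 he),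
        mul_one]
    have e2 := hf (t (rep M) * e)
    rw [e1] at e2
    refine wt_pt hr.one_lt θ0 hθ a0 a1 b0 b1 hs τ0 hτ e2 (dfs (t (rep M) * e)) ?_
    rcases max_choice w r with k | k <;> rw [k]
    · obtain ⟨k, hk⟩ := wt_pow hP (t (rep M) * e)
      exact le_df hr hk (hw.pow (hPG (t (rep M) * e).2) h hk)
    · exact (Nat.mul_le_mul_left r y2).trans e2
  have k4 := hS β f.range hR
  have k5 : h ^ (Fintype.card β / r) ≤ h ^ (Fintype.card α / r / r) :=
    pow_le_pow_right₀ h1 (Nat.div_le_div_right ((Nat.le_div_iff_mul_le hr.pos).2 (by omega)))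
  have k7 : 0 ≤ (s / (σ1 * σ2)) ^ max w r * GF r σ2 c1 c2 δ :=
    mul_nonneg (by positivity) (zero_le_one.trans (one_le_GF hr.pos b0.le))
  have k9 := k4.trans k5
  have k10 : ∀ i, _ := fun i => wt_fin (i1 := i) (ConjClasses.mk (1 : f.range))
    (F := fun M => ∑ e ∈ KPerm.E f.rangeRestrict.ker, v (t (rep M) * e))
    (g := fun M => τ ^ df ((rep M : f.range) : Perm β)) k7 k2 k3
    (by simp only [wt_rep_one, Subgroup.coe_one, df_one, pow_zero]) k9
  have k8 := k1.trans (k10 _)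
  refine hk.trans (add_le_add le_rfl ?_)
  rw [← mul_sum, sum_filter]
  refine mul_le_mul_of_nonneg_left (le_trans (le_of_eq ?_) k8) hA
  refine (wt_congr _ _ _).trans (sum_congr rfl fun L _ => ?_)
  simp [hv]

end CfsgLib.KP3
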